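import Mathlib

namespace Cfsg.Agent.Lib.Helper3.PowReps

universe u

theorem exists_reps {G : Type u} [Group G] [Finite G] (p : ℕ) : ∃ X : Finset G, (∀ x ∈ X, ∃ k : ℕ, orderOf x = p ^ k) ∧ ∀ g : G, (∃ k : ℕ, orderOf g = p ^ k) → ∃! x, x ∈ X ∧ IsConj g x := by
  classical
  haveI : Fintype G := Fintype.ofFinite G
  obtain ⟨rep, hrep⟩ : ∃ rep : G → G, ∀ g, rep g = Quotient.out (ConjClasses.mk g) :=
    ⟨_, fun _ => rfl⟩
  have hrepconj : ∀ g, IsConj g (rep g) := by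
    intro g
    rw [hrep]
    apply ConjClasses.mk_eq_mk_iff_isConj.mp
    exact (Quotient.out_eq (ConjClasses.mk g)).symm
  have hrepeq : ∀ g g', IsConj g g' → rep g = rep g' := by
    intro g g' h
    rw [hrep, hrep, ConjClasses.mk_eq_mk_iff_isConj.mpr h]
  have hord : ∀ g g' : G, IsConj g g' → orderOf g = orderOf g' := by
    intro g g' h
    obtain ⟨x, rfl⟩ := isConj_iff.mp h
    exact (orderOf_injective (MulAut.conj x).toMonoidHom (MulAut.conj x).injective g).symm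
  obtain ⟨X, hXdef⟩ : ∃ X : Finset G, ∀ x, x ∈ X ↔ (∃ k : ℕ, orderOf x = p ^ k) ∧ rep x = x :=
    ⟨Finset.univ.filter (fun x => (∃ k : ℕ, orderOf x = p ^ k) ∧ rep x = x), fun x => by simp⟩
  refine ⟨X, fun x hx => ((hXdef x).mp hx).1, ?_⟩
  intro g hg
  refine ⟨rep g, ⟨(hXdef _).mpr ⟨?_, ?_⟩, hrepconj g⟩, ?_⟩
  · obtain ⟨k, hk⟩ := hg
    exact ⟨k, by rw [← hord g (rep g) (hrepconj g), hk]⟩
  · exact hrepeq _ _ (hrepconj g).symm
  · rintro y ⟨hyX, hgy⟩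
    rw [← ((hXdef y).mp hyX).2]
    exact hrepeq _ _ hgy.symm

theorem pow_reps {G : Type u} [Group G] [Finite G] [DecidableEq G] (p : ℕ) [Fact p.Prime] (X : Finset G) (hX : ∀ x ∈ X, ∃ k : ℕ, orderOf x = p ^ k) (hXrep : ∀ g : G, (∃ k : ℕ, orderOf g = p ^ k) → ∃! x, x ∈ X ∧ IsConj g x) (t : ℕ) (ht : t.Coprime (p ^ (Nat.card G).factorization p)) : (∀ x ∈ X.image (fun x : G => x ^ t), ∃ k : ℕ, orderOf x = p ^ k) ∧ (∀ g : G, (∃ k : ℕ, orderOf g = p ^ k) → ∃! x, x ∈ X.image (fun x : G => x ^ t) ∧ IsConj g x) ∧ Set.InjOn (fun x : G => x ^ t) (X : Set G) ∧ (∀ x ∈ X, Nat.Coprime t (orderOf x)) ∧ ∀ x : G, (∃ k : ℕ, orderOf x = p ^ k) → x ^ (p ^ (Nat.card G).factorization p) = 1 := by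
  have hp : p.Prime := Fact.out
  obtain ⟨N, hNdef⟩ : ∃ N : ℕ, N = p ^ (Nat.card G).factorization p := ⟨_, rfl⟩
  rw [← hNdef] at ht ⊢
  have hcard : Nat.card G ≠ 0 := Nat.card_pos.ne'
  -- every p-element has order dividing N
  have hdvd : ∀ x : G, (∃ k : ℕ, orderOf x = p ^ k) → orderOf x ∣ N := by
    rintro x ⟨k, hk⟩
    have h1 : p ^ k ∣ Nat.card G := hk ▸ orderOf_dvd_natCard x
    have h2 : k ≤ (Nat.card G).factorization p :=
      (hp.pow_dvd_iff_le_factorization hcard).mp h1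
    rw [hk, hNdef]
    exact pow_dvd_pow p h2
  have hN : ∀ x : G, (∃ k : ℕ, orderOf x = p ^ k) → x ^ N = 1 := fun x hx =>
    orderOf_dvd_iff_pow_eq_one.mp (hdvd x hx)
  have hcop : ∀ x : G, (∃ k : ℕ, orderOf x = p ^ k) → Nat.Coprime t (orderOf x) := fun x hx =>
    Nat.Coprime.coprime_dvd_right (hdvd x hx) ht
  have hpowp : ∀ (x : G) (m : ℕ), (∃ k : ℕ, orderOf x = p ^ k) → ∃ k : ℕ, orderOf (x ^ m) = p ^ k := by
    rintro x m ⟨k, hk⟩
    have h1 : orderOf (x ^ m) ∣ p ^ k := hk ▸ orderOf_pow_dvd m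
    obtain ⟨j, -, hj⟩ := (Nat.dvd_prime_pow hp).mp h1
    exact ⟨j, hj⟩
  -- universal inverse exponent
  obtain ⟨t', ht'⟩ : ∃ t' : ℕ, ∀ x : G, x ^ N = 1 → (x ^ t) ^ t' = x := by
    have hNpos : 0 < N := by rw [hNdef]; exact pow_pos hp.pos _
    rcases Nat.lt_or_ge 1 N with h1 | h1
    · obtain ⟨m, -, hm⟩ := Nat.exists_mul_mod_eq_one_of_coprime ht h1
      refine ⟨m, fun x hx => ?_⟩
      rw [← pow_mul, pow_eq_pow_mod (t * m) hx, hm, pow_one]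
    · have hN1 : N = 1 := by omega
      refine ⟨0, fun x hx => ?_⟩
      rw [hN1, pow_one] at hx
      rw [pow_zero, hx]
  have hconjpow : ∀ (g h : G) (m : ℕ), IsConj g h → IsConj (g ^ m) (h ^ m) := by
    intro g h m hgh
    obtain ⟨c, rfl⟩ := isConj_iff.mp hgh
    exact isConj_iff.mpr ⟨c, (conj_pow).symm⟩
  refine ⟨?_, ?_, ?_, fun x hx => hcop x (hX x hx), hN⟩
  · intro y hy
    obtain ⟨x, hx, rfl⟩ := Finset.mem_image.mp hy
    exact hpowp x t (hX x hx)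
  · intro g hg
    have hg' : ∃ k : ℕ, orderOf (g ^ t') = p ^ k := hpowp g t' hg
    have hgt : (g ^ t') ^ t = g := by
      rw [← pow_mul, mul_comm, pow_mul]
      exact ht' g (hN g hg)
    obtain ⟨x, ⟨hxX, hgx⟩, huniq⟩ := hXrep (g ^ t') hg'
    refine ⟨x ^ t, ⟨Finset.mem_image.mpr ⟨x, hxX, rfl⟩, ?_⟩, ?_⟩
    · have := hconjpow _ _ t hgx
      rwa [hgt] at this
    · rintro y ⟨hy, hgy⟩
      obtain ⟨x2, hx2, rfl⟩ := Finset.mem_image.mp hy
      have h1 := hconjpow _ _ t' hgy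
      have h2 : (x2 ^ t) ^ t' = x2 := ht' x2 (hN x2 (hX x2 hx2))
      simp only [h2] at h1
      have := huniq x2 ⟨hx2, h1⟩
      simp only [this]
  · intro x1 hx1 x2 hx2 h12
    have hx1' : x1 ∈ X := hx1
    have hx2' : x2 ∈ X := hx2
    have e1 := ht' x1 (hN x1 (hX x1 hx1'))
    have e2 := ht' x2 (hN x2 (hX x2 hx2'))
    have h12' : x1 ^ t = x2 ^ t := h12
    rw [← e1, ← e2, h12']

end Cfsg.Agent.Lib.Helper3.PowReps
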