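import Mathlib
import Cfsg.Prelude.Def_Characters
import Cfsg.Agent.Lib.Helper3.Irr
import Cfsg.Agent.Lib.CT.Ops
import Cfsg.Agent.Lib.CT.FrobRec
import Cfsg.Agent.Lib.CT.Clifford
import Cfsg.Agent.Lib.CT.NormOne

/-!
# Tools for Dade's theorem on invariant characters

* `exists_fixed_not_dvd`: weighted fixed-point congruence for actions with orbits of `p`-power
  size.
* `irrAction`: the conjugation action on the irreducible characters of a normal subgroup.
* `exists_invariant_constituent`: if `M ⊴ E` has `p`-power index and `α`, `γ` are `E`-invariant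
  characters of `M` with `[γ, α]` prime to `p`, some `E`-invariant irreducible character of `M`
  has multiplicity prime to `p` in `α`.
* `dadeL`: the functional `f ↦ [f_N ϑ, ϑ]`; `dadeL_indFun`.
-/

set_option autoImplicit false
open Cfsg

namespace Cfsg.Agent.Lib.Helper3.Dade

open Cfsg.Agent.Lib.Helper3.Irr Cfsg.Agent.Lib.CT.FrobRec Cfsg.Agent.Lib.CT.Clifford
open scoped ComplexConjugate

universe u

section Fixed

variable {Q X : Type*} [Group Q] [MulAction Q X] [Fintype X] [DecidableEq X]

theorem dvd_sum_of_no_fixed {p : ℕ} (f : X → ℤ) (hf : ∀ (q : Q) (x : X), f (q • x) = f x) :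
    ∀ (n : ℕ) (S : Finset X), S.card = n → (∀ q : Q, ∀ x ∈ S, q • x ∈ S) →
      (∀ x ∈ S, p ∣ (MulAction.orbit Q x).ncard) → (p : ℤ) ∣ ∑ x ∈ S, f x := by
  classical
  intro n
  induction n using Nat.strong_induction_on with
  | _ n ih =>
    intro S hn hstab horb
    rcases Finset.eq_empty_or_nonempty S with h0 | ⟨x, hx⟩
    · rw [h0, Finset.sum_empty]
      exact dvd_zero _
    · haveI : Fintype (MulAction.orbit Q x) := Fintype.ofFinite _
      have hO : (MulAction.orbit Q x).toFinset ⊆ S := by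
        intro y hy
        rw [Set.mem_toFinset] at hy
        obtain ⟨q, rfl⟩ := hy
        exact hstab q x hx
      rw [← Finset.sum_sdiff hO]
      apply dvd_add
      · refine ih (S \ (MulAction.orbit Q x).toFinset).card ?_ _ rfl ?_ ?_
        · rw [← hn]
          apply Finset.card_lt_card
          refine ⟨Finset.sdiff_subset, fun h => ?_⟩
          have h1 := h hx
          rw [Finset.mem_sdiff, Set.mem_toFinset] at h1
          exact h1.2 (MulAction.mem_orbit_self x)
        · intro q y hy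
          rw [Finset.mem_sdiff, Set.mem_toFinset] at hy ⊢
          refine ⟨hstab q y hy.1, fun h => hy.2 ?_⟩
          obtain ⟨q', hq'⟩ := h
          refine ⟨q⁻¹ * q', ?_⟩
          have hq'' : q' • x = q • y := hq'
          show (q⁻¹ * q') • x = y
          rw [mul_smul, hq'', inv_smul_smul]
        · intro y hy
          exact horb y (Finset.mem_sdiff.1 hy).1
      · have h1 : ∀ y ∈ (MulAction.orbit Q x).toFinset, f y = f x := by
          intro y hy
          rw [Set.mem_toFinset] at hy
          obtain ⟨q, rfl⟩ := hy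
          exact hf q x
        rw [Finset.sum_congr rfl h1, Finset.sum_const, nsmul_eq_mul]
        apply Dvd.dvd.mul_right
        have h2 := horb x hx
        rw [Set.ncard_eq_toFinset_card'] at h2
        exact_mod_cast h2

/-- If a finite set carries an action all of whose orbits have size `1` or divisible by `p`,
and the total of an invariant integer weight is prime to `p`, some fixed point has weight prime
to `p`. -/
theorem exists_fixed_not_dvd {p : ℕ} (f : X → ℤ) (hf : ∀ (q : Q) (x : X), f (q • x) = f x)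
    (horb : ∀ x : X, (∀ q : Q, q • x = x) ∨ p ∣ (MulAction.orbit Q x).ncard)
    (hsum : ¬ (p : ℤ) ∣ ∑ x, f x) : ∃ x : X, (∀ q : Q, q • x = x) ∧ ¬ (p : ℤ) ∣ f x := by
  classical
  by_contra hcon
  push Not at hcon
  apply hsum
  rw [← Finset.sum_filter_add_sum_filter_not Finset.univ (fun x : X => ∀ q : Q, q • x = x) f]
  apply dvd_add
  · apply Finset.dvd_sum
    intro x hx
    exact hcon x (Finset.mem_filter.1 hx).2
  · refine dvd_sum_of_no_fixed (Q := Q) f hf _ _ rfl ?_ ?_
    · intro q x hx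
      rw [Finset.mem_filter] at hx ⊢
      refine ⟨Finset.mem_univ _, fun h => hx.2 ?_⟩
      have h1 : q • x = x := by
        have h2 := h q⁻¹
        rw [inv_smul_smul] at h2
        exact h2.symm
      rw [h1] at h
      exact h
    · intro x hx
      rcases horb x with h | h
      · exact absurd h (Finset.mem_filter.1 hx).2
      · exact h

end Fixed

section IrrAction

variable {E : Type u} [Group E]

/-- The conjugation action on the irreducible characters of a normal subgroup. -/
@[reducible] def irrAction (M : Subgroup E) (hM : M.Normal) : MulAction E (IrrCharacter M) where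
  smul e φ := ⟨conjFun M hM φ.1 e⁻¹, isIrrCharacter_conjFun M hM φ.2 e⁻¹⟩
  one_smul φ := Subtype.ext (by
    show conjFun M hM φ.1 1⁻¹ = φ.1
    rw [inv_one, conjFun_one])
  mul_smul a b φ := Subtype.ext (by
    show conjFun M hM φ.1 (a * b)⁻¹ = conjFun M hM (conjFun M hM φ.1 b⁻¹) a⁻¹
    rw [conjFun_conjFun, mul_inv_rev])

theorem irrAction_smul_val (M : Subgroup E) (hM : M.Normal) (e : E) (φ : IrrCharacter M) :
    ((irrAction M hM).smul e φ : IrrCharacter M).1 = conjFun M hM φ.1 e⁻¹ := rfl

theorem conjFun_eq_of_mem (M : Subgroup E) (hM : M.Normal) {φ : M → ℂ}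
    (hφ : IsClassFunction M φ) {e : E} (he : e ∈ M) : conjFun M hM φ e = φ := by
  funext n
  rw [conjFun_apply]
  exact hφ n ⟨e, he⟩

/-- The orbits of the conjugation action on `Irr(M)` have size `1` or divisible by `p`, when
the index of `M` is a power of `p`. -/
theorem irrAction_orbit [Finite E] {p : ℕ} (hp : p.Prime) (M : Subgroup E) (hM : M.Normal)
    {k : ℕ} (hk : M.index = p ^ k) (φ : IrrCharacter M) :
    (∀ e : E, (irrAction M hM).smul e φ = φ) ∨
      p ∣ (@MulAction.orbit E (IrrCharacter M) (irrAction M hM).toSMul φ).ncard := by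
  letI := irrAction M hM
  have hle : M ≤ MulAction.stabilizer E φ := by
    intro e he
    rw [MulAction.mem_stabilizer_iff]
    apply Subtype.ext
    show conjFun M hM φ.1 e⁻¹ = φ.1
    exact conjFun_eq_of_mem M hM (IsIrrCharacter.isClassFunction φ.2) (M.inv_mem he)
  have h1 : (MulAction.stabilizer E φ).index ∣ p ^ k := by
    rw [← hk]
    exact Subgroup.index_dvd_of_le hle
  obtain ⟨j, -, hj⟩ := (Nat.dvd_prime_pow hp).1 h1
  rw [MulAction.index_stabilizer] at hj
  rcases Nat.eq_zero_or_pos j with h0 | hpos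
  · left
    intro e
    have h2 : (MulAction.stabilizer E φ).index = 1 := by
      rw [MulAction.index_stabilizer, hj, h0, pow_zero]
    have h3 : e ∈ MulAction.stabilizer E φ := by
      rw [Subgroup.index_eq_one.1 h2]
      exact Subgroup.mem_top e
    exact MulAction.mem_stabilizer_iff.1 h3
  · right
    rw [hj]
    exact dvd_pow_self p hpos.ne'

theorem classInner_conjFun_conjFun [Fintype E] (M : Subgroup E) [Fintype M] (hM : M.Normal)
    (α φ : M → ℂ) (e : E) :
    classInner (conjFun M hM α e) (conjFun M hM φ e) = classInner α φ := by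
  haveI := hM
  unfold classInner
  congr 1
  apply Fintype.sum_equiv ((MulAut.conjNormal e : M ≃* M).toEquiv)
  intro n
  have h1 : ((MulAut.conjNormal e : M ≃* M) n : E) = e * n * e⁻¹ := MulAut.conjNormal_apply e n
  have h2 : (MulAut.conjNormal e : M ≃* M) n = ⟨e * n * e⁻¹, hM.conj_mem n n.2 e⟩ :=
    Subtype.ext h1
  simp only [MulEquiv.toEquiv_eq_coe, MulEquiv.coe_toEquiv, conjFun_apply]
  rw [h2]

/-- If `M ⊴ E` has `p`-power index and `α`, `γ` are `E`-invariant characters of `M` with
`[γ, α]` prime to `p`, some `E`-invariant irreducible character of `M` has multiplicity prime to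
`p` in `α`. -/
theorem exists_invariant_constituent [Fintype E] {p : ℕ} (hp : p.Prime) (M : Subgroup E)
    (hM : M.Normal) [Fintype M] {k : ℕ} (hk : M.index = p ^ k) {α γ : M → ℂ}
    (hα : IsCharacter M α) (hγ : IsCharacter M γ)
    (hαinv : ∀ e : E, conjFun M hM α e = α) (hγinv : ∀ e : E, conjFun M hM γ e = γ)
    {I : ℕ} (hI : classInner γ α = I) (hpI : ¬ p ∣ I) :
    ∃ φ : M → ℂ, IsIrrCharacter M φ ∧ (∀ e : E, conjFun M hM φ e = φ) ∧
      ∃ m : ℕ, ¬ p ∣ m ∧ classInner α φ = m := by
  classical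
  have hfin := finite_irrCharacter (G := M)
  haveI : Fintype (IrrCharacter M) := Fintype.ofFinite _
  obtain ⟨a, ha, hαexp⟩ := Cfsg.Agent.Lib.CT.NormOne.exists_mult_sum hα
  obtain ⟨b, hb, -⟩ := Cfsg.Agent.Lib.CT.NormOne.exists_mult_sum hγ
  have h1 : classInner α γ = ((∑ φ : IrrCharacter M, a φ * b φ : ℕ) : ℂ) := by
    have h2 : classInner α γ
        = classInner (∑ φ : IrrCharacter M, (a φ : ℂ) • (φ : M → ℂ)) γ := by rw [← hαexp]
    rw [h2, classInner_sum_left, Nat.cast_sum]
    refine Finset.sum_congr rfl (fun φ _ => ?_)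
    rw [classInner_smul_left, Cfsg.Agent.Lib.CT.Clifford.classInner_conj_symm, hb φ]
    simp
  have h3 : I = ∑ φ : IrrCharacter M, a φ * b φ := by
    have h4 : classInner γ α = ((∑ φ : IrrCharacter M, a φ * b φ : ℕ) : ℂ) := by
      rw [Cfsg.Agent.Lib.CT.Clifford.classInner_conj_symm, h1]
      simp
    rw [hI] at h4
    exact_mod_cast h4
  letI := irrAction M hM
  have hsmul : ∀ (e : E) (φ : IrrCharacter M), ((e • φ : IrrCharacter M) : M → ℂ)
      = conjFun M hM φ.1 e⁻¹ := fun e φ => rfl
  have hainv : ∀ (e : E) (φ : IrrCharacter M), a (e • φ) = a φ := by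
    intro e φ
    have h5 := ha (e • φ)
    rw [hsmul] at h5
    have h6 := classInner_conjFun_conjFun M hM α φ.1 e⁻¹
    rw [hαinv] at h6
    rw [h6, ha φ] at h5
    exact_mod_cast h5.symm
  have hbinv : ∀ (e : E) (φ : IrrCharacter M), b (e • φ) = b φ := by
    intro e φ
    have h5 := hb (e • φ)
    rw [hsmul] at h5
    have h6 := classInner_conjFun_conjFun M hM γ φ.1 e⁻¹
    rw [hγinv] at h6
    rw [h6, hb φ] at h5
    exact_mod_cast h5.symm
  obtain ⟨φ, hφfix, hφ⟩ := exists_fixed_not_dvd (Q := E) (p := p)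
    (fun φ : IrrCharacter M => ((a φ * b φ : ℕ) : ℤ))
    (fun e φ => by rw [hainv, hbinv])
    (fun φ => irrAction_orbit hp M hM hk φ)
    (by
      rw [← Nat.cast_sum, ← h3]
      intro h
      exact hpI (Int.natCast_dvd_natCast.1 h))
  refine ⟨φ.1, φ.2, ?_, a φ, ?_, ha φ⟩
  · intro e
    have h7 := congrArg Subtype.val (hφfix e⁻¹)
    rw [hsmul, inv_inv] at h7
    exact h7
  · intro h
    apply hφ
    rw [Int.natCast_dvd_natCast]
    exact Dvd.dvd.mul_right h _

end IrrAction

section DadeL

variable {G : Type u} [Group G]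

/-- The functional `f ↦ [f_N ϑ, ϑ]`. -/
noncomputable def dadeL (N : Subgroup G) [Fintype N] (ϑ : N → ℂ) (f : G → ℂ) : ℂ :=
  (Nat.card N : ℂ)⁻¹ * ∑ n : N, f n * (ϑ n * conj (ϑ n))

theorem dadeL_add (N : Subgroup G) [Fintype N] (ϑ : N → ℂ) (f g : G → ℂ) :
    dadeL N ϑ (f + g) = dadeL N ϑ f + dadeL N ϑ g := by
  unfold dadeL
  rw [← mul_add, ← Finset.sum_add_distrib]
  congr 1
  refine Finset.sum_congr rfl (fun n _ => ?_)
  simp only [Pi.add_apply]
  ring

theorem dadeL_neg (N : Subgroup G) [Fintype N] (ϑ : N → ℂ) (f : G → ℂ) :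
    dadeL N ϑ (-f) = -dadeL N ϑ f := by
  unfold dadeL
  rw [← mul_neg, ← Finset.sum_neg_distrib]
  congr 1
  refine Finset.sum_congr rfl (fun n _ => ?_)
  simp only [Pi.neg_apply]
  ring

theorem dadeL_zero (N : Subgroup G) [Fintype N] (ϑ : N → ℂ) : dadeL N ϑ 0 = 0 := by
  unfold dadeL
  simp

theorem dadeL_const (N : Subgroup G) [Fintype N] {ϑ : N → ℂ} (hϑ : IsIrrCharacter N ϑ) (c : ℂ) :
    dadeL N ϑ (fun _ => c) = c := by
  have h1 := irr_inner_self (⟨ϑ, hϑ⟩ : IrrCharacter N)
  unfold classInner at h1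
  unfold dadeL
  rw [← Finset.mul_sum, ← mul_assoc, mul_comm _ c, mul_assoc]
  have h2 : (Nat.card N : ℂ)⁻¹ * ∑ n : N, ϑ n * conj (ϑ n) = 1 := h1
  rw [h2, mul_one]

/-- The value of `dadeL` on an induced function. -/
theorem dadeL_indFun [Fintype G] (N : Subgroup G) [hN : N.Normal] [Fintype N] (ϑ : N → ℂ)
    (hinv : ∀ (g : G) (n : N), ϑ ⟨g * n * g⁻¹, hN.conj_mem (n : G) n.2 g⟩ = ϑ n)
    (E : Subgroup G) [Fintype E] [Fintype (N.subgroupOf E)] (ψ : E → ℂ) :
    dadeL N ϑ (indFun E ψ) = ((N ⊔ E).index : ℂ) *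
      classInner (fun x : N.subgroupOf E => ψ (x : E) *
          ϑ ⟨((x : E) : G), Subgroup.mem_subgroupOf.1 x.2⟩)
        (fun x : N.subgroupOf E => ϑ ⟨((x : E) : G), Subgroup.mem_subgroupOf.1 x.2⟩) := by
  classical
  have hcls : IsClassFunction G (extendByZero N (fun n : N => ϑ n * conj (ϑ n))) := by
    intro g h
    by_cases hg : g ∈ N
    · have hg' : h * g * h⁻¹ ∈ N := hN.conj_mem g hg h
      rw [extendByZero_apply_of_mem N _ hg, extendByZero_apply_of_mem N _ hg']
      have := hinv h ⟨g, hg⟩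
      simp only at this
      rw [this]
    · have hg' : h * g * h⁻¹ ∉ N := by
        intro hmem
        apply hg
        have := hN.conj_mem _ hmem h⁻¹
        simpa [mul_assoc] using this
      rw [extendByZero_apply_of_not_mem N _ hg, extendByZero_apply_of_not_mem N _ hg']
  have h1 : ∑ n : N, indFun E ψ n * (ϑ n * conj (ϑ n))
      = ∑ g : G, indFun E ψ g * extendByZero N (fun n : N => ϑ n * conj (ϑ n)) g := by
    have h2 := sum_extendByZero_mul N (fun n : N => ϑ n * conj (ϑ n)) (indFun E ψ)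
    rw [← Finset.sum_congr rfl (fun n _ => mul_comm _ _), ← h2]
    exact Finset.sum_congr rfl (fun g _ => mul_comm _ _)
  have h3 : ∑ e : E, ψ e * extendByZero N (fun n : N => ϑ n * conj (ϑ n)) (e : G)
      = ∑ x : N.subgroupOf E, ψ (x : E) *
          (ϑ ⟨((x : E) : G), Subgroup.mem_subgroupOf.1 x.2⟩ *
            conj (ϑ ⟨((x : E) : G), Subgroup.mem_subgroupOf.1 x.2⟩)) := by
    have h4 : ∀ e : E, extendByZero N (fun n : N => ϑ n * conj (ϑ n)) (e : G)
        = extendByZero (N.subgroupOf E) (fun x : N.subgroupOf E =>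
            ϑ ⟨((x : E) : G), Subgroup.mem_subgroupOf.1 x.2⟩ *
            conj (ϑ ⟨((x : E) : G), Subgroup.mem_subgroupOf.1 x.2⟩)) e := by
      intro e
      by_cases he : e ∈ N.subgroupOf E
      · rw [extendByZero_apply_of_mem _ _ he,
          extendByZero_apply_of_mem N _ (Subgroup.mem_subgroupOf.1 he)]
      · rw [extendByZero_apply_of_not_mem _ _ he,
          extendByZero_apply_of_not_mem N _ (fun h => he (Subgroup.mem_subgroupOf.2 h))]
    rw [Finset.sum_congr rfl (fun e _ => by rw [h4 e, mul_comm])]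
    rw [sum_extendByZero_mul (N.subgroupOf E) _ ψ]
    exact Finset.sum_congr rfl (fun x _ => mul_comm _ _)
  unfold dadeL classInner
  rw [h1, sum_indFun_mul E ψ _ hcls, h3]
  have hsum : ∑ x : N.subgroupOf E, ψ (x : E) *
          (ϑ ⟨((x : E) : G), Subgroup.mem_subgroupOf.1 x.2⟩ *
            conj (ϑ ⟨((x : E) : G), Subgroup.mem_subgroupOf.1 x.2⟩))
      = ∑ x : N.subgroupOf E, ψ (x : E) *
          ϑ ⟨((x : E) : G), Subgroup.mem_subgroupOf.1 x.2⟩ *
            conj (ϑ ⟨((x : E) : G), Subgroup.mem_subgroupOf.1 x.2⟩) :=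
    Finset.sum_congr rfl (fun x _ => (mul_assoc _ _ _).symm)
  rw [hsum]
  have c1 : (Nat.card G : ℂ) = (Nat.card N : ℂ) * ((N.subgroupOf E).index : ℂ)
      * ((N ⊔ E).index : ℂ) := by
    have e1 := Subgroup.card_mul_index N
    have e2 := Subgroup.relIndex_mul_index (le_sup_left : N ≤ N ⊔ E)
    have e3 : N.relIndex (N ⊔ E) = N.relIndex E := Subgroup.relIndex_sup_left E N
    have e4 : N.relIndex E = (N.subgroupOf E).index := rfl
    rw [e3, e4] at e2
    rw [← e1, ← e2]
    push_cast
    ring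
  have c2 : (Nat.card E : ℂ) = (Nat.card (N.subgroupOf E) : ℂ) * ((N.subgroupOf E).index : ℂ) := by
    have e1 := Subgroup.card_mul_index (N.subgroupOf E)
    rw [← e1]
    push_cast
    ring
  rw [c1, c2]
  have hN0 : (Nat.card N : ℂ) ≠ 0 := by exact_mod_cast Nat.card_pos.ne'
  have hM0 : (Nat.card (N.subgroupOf E) : ℂ) ≠ 0 := by exact_mod_cast Nat.card_pos.ne'
  have hi0 : ((N.subgroupOf E).index : ℂ) ≠ 0 := by
    exact_mod_cast Subgroup.index_ne_zero_of_finite
  field_simp

end DadeL

end Cfsg.Agent.Lib.Helper3.Dade
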