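import Mathlib
import Cfsg.Prelude.Def_Characters
import Cfsg.Agent.Lib.Helper3.BrauerMain
import Cfsg.Agent.Lib.Helper3.Dade
import Cfsg.Agent.S0896

/-!
# Tools for the extension of invariant characters over `p`-group quotients

* `dade_core`: Dade's theorem with the subgroup `N.subgroupOf E` of `E`.
* `sum_indFun_mul_invariant`: the sum over `N` of an induced function against an invariant
  function on `N`.
* `center_of_elementary`: under the Sylow hypothesis of the extension theorem, `N ∩ E` is central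
  in a `p`-elementary subgroup `E`.
* `exists_hom_extension`: a homomorphism on a central subgroup `M` extends to `M Q` when it
  agrees with a homomorphism of `Q` on `M ∩ Q`.
-/

set_option autoImplicit false
open Cfsg

namespace Cfsg.Agent.Lib.Helper3.DadeExt

open Cfsg.Agent.Lib.Helper3.Irr Cfsg.Agent.Lib.CT.FrobRec Cfsg.Agent.Lib.CT.Clifford
  Cfsg.Agent.Lib.Helper3.BrauerMain Cfsg.Agent.Lib.Helper3.Dade Cfsg.Agent.S0896
open scoped ComplexConjugate

universe u

/-- Dade's theorem, with the intersection `N ∩ E` viewed as a subgroup of `E`. -/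
theorem dade_core {G : Type u} [Group G] [Fintype G] {p : ℕ} (hp : p.Prime) (N : Subgroup G)
    [hN : N.Normal] [Fintype N] {k : ℕ} (hk : N.index = p ^ k) (ϑ : N → ℂ)
    (hϑ : IsIrrCharacter N ϑ)
    (hinv : ∀ (g : G) (n : N), ϑ ⟨g * n * g⁻¹, hN.conj_mem (n : G) n.2 g⟩ = ϑ n) :
    ∃ (E : Subgroup G), IsElementary p E ∧ N ⊔ E = ⊤ ∧ (N.subgroupOf E).index = p ^ k ∧
      ∀ [Fintype (N.subgroupOf E)], ∃ φM : N.subgroupOf E → ℂ,
        IsIrrCharacter (N.subgroupOf E) φM ∧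
        ∃ m : ℕ, ¬ p ∣ m ∧ classInner (resM N ϑ E) φM = m := by
  classical
  haveI : Fact p.Prime := ⟨hp⟩
  obtain ⟨m₀, hm₀, hmem⟩ := brauer_local (G := G) (p := p)
  obtain ⟨z, hz, hgood⟩ := good_of_mem hp N hk ϑ (IsIrrCharacter.isCharacter hϑ) hinv hmem
  rw [dadeL_const N hϑ] at hz
  have hz' : m₀ = z := by exact_mod_cast hz
  obtain ⟨E, ψ, hE, hψ, hsup, I, hI, hII⟩ := hgood (by rw [← hz']; exact hm₀)
  have hMidx : (N.subgroupOf E).index = p ^ k := by
    have e3 : N.relIndex (N ⊔ E) = N.relIndex E := Subgroup.relIndex_sup_left E N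
    rw [hsup, Subgroup.relIndex_top_right, hk] at e3
    exact e3.symm
  refine ⟨E, hE, hsup, hMidx, ?_⟩
  intro instM
  haveI : Fintype E := Fintype.ofFinite _
  have hMn : (N.subgroupOf E).Normal := hN.subgroupOf E
  have hα := isCharacter_resM N (IsIrrCharacter.isCharacter hϑ) E
  have hγ : IsCharacter (N.subgroupOf E)
      (fun x : N.subgroupOf E => ψ (x : E) * resM N ϑ E x) :=
    Cfsg.Agent.Lib.CT.Ops.isCharacter_mul
      (Cfsg.Agent.Lib.CT.Ops.isCharacter_restrict (N.subgroupOf E) hψ) hα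
  have hαinv : ∀ e : E, conjFun (N.subgroupOf E) hMn (resM N ϑ E) e = resM N ϑ E := by
    intro e
    funext x
    rw [conjFun_apply]
    exact hinv (e : G) ⟨((x : E) : G), Subgroup.mem_subgroupOf.1 x.2⟩
  have hγinv : ∀ e : E, conjFun (N.subgroupOf E) hMn
      (fun x : N.subgroupOf E => ψ (x : E) * resM N ϑ E x) e
        = (fun x : N.subgroupOf E => ψ (x : E) * resM N ϑ E x) := by
    intro e
    funext x
    rw [conjFun_apply]
    have h1 := congrFun (hαinv e) x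
    rw [conjFun_apply] at h1
    simp only
    rw [h1]
    congr 1
    exact IsCharacter.isClassFunction hψ (x : E) e
  obtain ⟨φM, hφM, -, m, hm, hmeq⟩ := exists_invariant_constituent hp (N.subgroupOf E) hMn
    hMidx hα hγ hαinv hγinv hII hI
  exact ⟨φM, hφM, m, hm, hmeq⟩

/-- The sum over `N` of an induced function against a `G`-invariant function on `N`. -/
theorem sum_indFun_mul_invariant {G : Type u} [Group G] [Fintype G] (N : Subgroup G)
    [hN : N.Normal] [Fintype N] (β : N → ℂ)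
    (hinv : ∀ (g : G) (n : N), β ⟨g * n * g⁻¹, hN.conj_mem (n : G) n.2 g⟩ = β n)
    (E : Subgroup G) [Fintype E] [Fintype (N.subgroupOf E)] (ψ : E → ℂ) :
    ∑ n : N, indFun E ψ n * β n = (Nat.card G : ℂ) * ((Nat.card E : ℂ)⁻¹ *
      ∑ x : N.subgroupOf E, ψ (x : E) * β ⟨((x : E) : G), Subgroup.mem_subgroupOf.1 x.2⟩) := by
  classical
  have hcls : IsClassFunction G (extendByZero N β) := by
    intro g h
    by_cases hg : g ∈ N
    · have hg' : h * g * h⁻¹ ∈ N := hN.conj_mem g hg h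
      rw [extendByZero_apply_of_mem N _ hg, extendByZero_apply_of_mem N _ hg']
      exact hinv h ⟨g, hg⟩
    · have hg' : h * g * h⁻¹ ∉ N := by
        intro hmem
        apply hg
        have := hN.conj_mem _ hmem h⁻¹
        simpa [mul_assoc] using this
      rw [extendByZero_apply_of_not_mem N _ hg, extendByZero_apply_of_not_mem N _ hg']
  have h1 : ∑ n : N, indFun E ψ n * β n = ∑ g : G, indFun E ψ g * extendByZero N β g := by
    have h2 := sum_extendByZero_mul N β (indFun E ψ)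
    rw [← Finset.sum_congr rfl (fun n _ => mul_comm _ _), ← h2]
    exact Finset.sum_congr rfl (fun g _ => mul_comm _ _)
  have h3 : ∑ e : E, ψ e * extendByZero N β (e : G)
      = ∑ x : N.subgroupOf E, ψ (x : E) *
          β ⟨((x : E) : G), Subgroup.mem_subgroupOf.1 x.2⟩ := by
    have h4 : ∀ e : E, extendByZero N β (e : G)
        = extendByZero (N.subgroupOf E) (fun x : N.subgroupOf E =>
            β ⟨((x : E) : G), Subgroup.mem_subgroupOf.1 x.2⟩) e := by
      intro e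
      by_cases he : e ∈ N.subgroupOf E
      · rw [extendByZero_apply_of_mem _ _ he,
          extendByZero_apply_of_mem N _ (Subgroup.mem_subgroupOf.1 he)]
      · rw [extendByZero_apply_of_not_mem _ _ he,
          extendByZero_apply_of_not_mem N _ (fun h => he (Subgroup.mem_subgroupOf.2 h))]
    rw [Finset.sum_congr rfl (fun e _ => by rw [h4 e, mul_comm])]
    rw [sum_extendByZero_mul (N.subgroupOf E) _ ψ]
    exact Finset.sum_congr rfl (fun x _ => mul_comm _ _)
  rw [h1, sum_indFun_mul E ψ _ hcls, h3]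

/-- A homomorphism on a central subgroup `M` extends to `M ⊔ Q = ⊤` when it agrees with a
homomorphism of `Q` on `M ∩ Q`. -/
theorem exists_hom_extension {E : Type u} [Group E] (M Q : Subgroup E)
    (hMcen : ∀ y ∈ M, y ∈ Subgroup.center E) (hMQ : M ⊔ Q = ⊤) (fM : M →* ℂˣ) (μ : Q →* ℂˣ)
    (hagree : ∀ (q : E) (hq : q ∈ Q) (hqM : q ∈ M), μ ⟨q, hq⟩ = fM ⟨q, hqM⟩) :
    ∃ f : E →* ℂˣ, ∀ x : M, f (x : E) = fM x := by
  haveI hMn : M.Normal := by
    constructor
    intro n hn g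
    rw [Subgroup.mem_center_iff.1 (hMcen n hn) g, mul_inv_cancel_right]
    exact hn
  let Φ : M × Q →* E := MonoidHom.noncommCoprod M.subtype Q.subtype (fun m q => by
    have := Subgroup.mem_center_iff.1 (hMcen (m : E) m.2) (q : E)
    exact this.symm)
  have hΦ : ∀ x : M × Q, Φ x = (x.1 : E) * (x.2 : E) := fun x => rfl
  have hsurj : Function.Surjective Φ := by
    intro e
    have h1 : e ∈ ((M ⊔ Q : Subgroup E) : Set E) := by
      rw [hMQ]
      exact Subgroup.mem_top e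
    rw [Subgroup.normal_mul M Q] at h1
    obtain ⟨m, hm, q, hq, rfl⟩ := Set.mem_mul.1 h1
    exact ⟨(⟨m, hm⟩, ⟨q, hq⟩), rfl⟩
  let Ψ : M × Q →* ℂˣ := MonoidHom.coprod fM μ
  have hΨ : ∀ x : M × Q, Ψ x = fM x.1 * μ x.2 := fun x => MonoidHom.coprod_apply fM μ x
  have hker : Φ.ker ≤ Ψ.ker := by
    rintro ⟨m, q⟩ hx
    rw [MonoidHom.mem_ker, hΦ] at hx
    rw [MonoidHom.mem_ker, hΨ]
    have hq : (q : E) = (m : E)⁻¹ := by
      rw [eq_inv_iff_mul_eq_one, ← hx]
      exact (Subgroup.mem_center_iff.1 (hMcen (m : E) m.2) (q : E))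
    have hqM : (q : E) ∈ M := by
      rw [hq]
      exact M.inv_mem m.2
    have h2 := hagree (q : E) q.2 hqM
    have h3 : (⟨(q : E), hqM⟩ : M) = m⁻¹ := Subtype.ext hq
    show fM m * μ q = 1
    have h4 : μ q = fM m⁻¹ := by
      rw [← h3, ← h2]
    rw [h4, ← map_mul, mul_inv_cancel, map_one]
  refine ⟨MonoidHom.liftOfSurjective Φ hsurj ⟨Ψ, hker⟩, fun x => ?_⟩
  have h5 : (x : E) = Φ (x, 1) := by
    rw [hΦ]
    simp
  rw [h5, MonoidHom.liftOfRightInverse_comp_apply]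
  show Ψ (x, 1) = fM x
  rw [hΨ]
  simp

/-- Under the Sylow hypothesis of the extension theorem, `N ∩ E` is central in a `p`-elementary
subgroup `E`, and together with a Sylow `p`-subgroup of `E` it generates `E`. -/
theorem subgroupOf_le_center {G : Type u} [Group G] [Finite G] {p : ℕ} [hp : Fact p.Prime]
    (N : Subgroup G) [hN : N.Normal] (P : Sylow p G)
    (hcent : ∀ x ∈ (P : Subgroup G) ⊓ N, ∀ y ∈ (P : Subgroup G), x * y = y * x)
    (E : Subgroup G) (hE : IsElementary p E) {k : ℕ} (hMidx : (N.subgroupOf E).index = p ^ k)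
    (Q : Sylow p E) (g : G)
    (hg : ∀ q ∈ (Q : Subgroup E), g * (q : G) * g⁻¹ ∈ (P : Subgroup G)) :
    (∀ y ∈ N.subgroupOf E, y ∈ Subgroup.center E) ∧ N.subgroupOf E ⊔ (Q : Subgroup E) = ⊤ := by
  classical
  obtain ⟨x₀, hx₀c, hx₀p, j, hj⟩ := hE
  haveI hMn : (N.subgroupOf E).Normal := hN.subgroupOf E
  haveI : ((N.subgroupOf E).subgroupOf ⊤).Normal := hMn.subgroupOf ⊤
  have hx₀M : x₀ ∈ N.subgroupOf E :=
    Cfsg.Agent.Lib.Helper3.BrauerQE.mem_of_coprime_orderOf (p := p) (N.subgroupOf E) ⊤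
      (k := k) (by rw [Subgroup.relIndex_top_right, hMidx]) (Subgroup.mem_top x₀) hx₀p
  haveI hZn : (Subgroup.zpowers x₀).Normal :=
    Cfsg.Agent.Lib.Helper3.BrauerQE.zpowers_normal_of_mem_center hx₀c
  have hZQ : Subgroup.zpowers x₀ ⊔ (Q : Subgroup E) = ⊤ := by
    rw [← Subgroup.index_eq_one]
    have h1 : (Subgroup.zpowers x₀ ⊔ (Q : Subgroup E)).index ∣ p ^ j := by
      rw [← hj]
      exact Subgroup.index_dvd_of_le le_sup_left
    obtain ⟨i, -, hi⟩ := (Nat.dvd_prime_pow hp.out).1 h1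
    have h2 : (Subgroup.zpowers x₀ ⊔ (Q : Subgroup E)).index ∣ (Q : Subgroup E).index :=
      Subgroup.index_dvd_of_le le_sup_right
    rcases Nat.eq_zero_or_pos i with h0 | hpos
    · rw [hi, h0, pow_zero]
    · exfalso
      apply Sylow.not_dvd_index Q
      refine dvd_trans ?_ h2
      rw [hi]
      exact dvd_pow_self p hpos.ne'
  have hZcen : Subgroup.zpowers x₀ ≤ Subgroup.center E := Subgroup.zpowers_le.2 hx₀c
  have hMQcen : ∀ y ∈ N.subgroupOf E, y ∈ (Q : Subgroup E) → y ∈ Subgroup.center E := by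
    intro y hyM hyQ
    have h1 : Subgroup.zpowers x₀ ⊔ (Q : Subgroup E) ≤ Subgroup.centralizer {y} := by
      apply sup_le
      · intro z hz
        rw [Subgroup.mem_centralizer_iff]
        intro w hw
        rw [Set.mem_singleton_iff] at hw
        rw [hw]
        exact (Subgroup.mem_center_iff.1 (hZcen hz) y)
      · intro q hq
        rw [Subgroup.mem_centralizer_iff]
        intro w hw
        rw [Set.mem_singleton_iff] at hw
        rw [hw]
        apply Subtype.ext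
        have h2 : g * (y : G) * g⁻¹ ∈ (P : Subgroup G) ⊓ N :=
          ⟨hg y hyQ, hN.conj_mem _ (Subgroup.mem_subgroupOf.1 hyM) g⟩
        have h3 := hcent _ h2 _ (hg q hq)
        have h4 : (y : G) * (q : G) = (q : G) * (y : G) := by
          have e1 : g * (y : G) * g⁻¹ * (g * (q : G) * g⁻¹) = g * ((y : G) * (q : G)) * g⁻¹ := by
            group
          have e2 : g * (q : G) * g⁻¹ * (g * (y : G) * g⁻¹) = g * ((q : G) * (y : G)) * g⁻¹ := by
            group
          rw [e1, e2] at h3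
          exact mul_left_cancel (mul_right_cancel h3)
        exact h4
    rw [hZQ] at h1
    rw [Subgroup.mem_center_iff]
    intro e
    have h2 := h1 (Subgroup.mem_top e)
    rw [Subgroup.mem_centralizer_iff] at h2
    exact (h2 y rfl).symm
  refine ⟨?_, ?_⟩
  · intro y hy
    have h1 : y ∈ ((Subgroup.zpowers x₀ ⊔ (Q : Subgroup E) : Subgroup E) : Set E) := by
      rw [hZQ]
      exact Subgroup.mem_top y
    rw [Subgroup.normal_mul (Subgroup.zpowers x₀) (Q : Subgroup E)] at h1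
    obtain ⟨z, hz, q, hq, rfl⟩ := Set.mem_mul.1 h1
    have hzM : z ∈ N.subgroupOf E := (Subgroup.zpowers_le.2 hx₀M) hz
    have hqM : q ∈ N.subgroupOf E := by
      have := (N.subgroupOf E).mul_mem ((N.subgroupOf E).inv_mem hzM) hy
      simpa using this
    exact Subgroup.mul_mem _ (hZcen hz) (hMQcen q hqM hq)
  · rw [eq_top_iff, ← hZQ]
    exact sup_le_sup_right (Subgroup.zpowers_le.2 hx₀M) _

/-- Under the Sylow hypothesis of the extension theorem, a homomorphism of `N ∩ E` to `ℂˣ`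
agrees on `N ∩ Q` with a homomorphism of `Q`, for a `p`-subgroup `Q` conjugate into `P`. -/
theorem exists_sylow_hom {G : Type u} [Group G] [Finite G] {p : ℕ}
    (N : Subgroup G) [hN : N.Normal] (P : Sylow p G)
    (hcent : ∀ x ∈ (P : Subgroup G) ⊓ N, ∀ y ∈ (P : Subgroup G), x * y = y * x)
    (hlin : ∀ lam : ↥((P : Subgroup G) ⊓ N) → ℂ, IsCharacter ↥((P : Subgroup G) ⊓ N) lam →
      lam 1 = 1 → ∃ μ : ↥(P : Subgroup G) → ℂ, IsCharacter ↥(P : Subgroup G) μ ∧ μ 1 = 1 ∧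
        ∀ x : ↥((P : Subgroup G) ⊓ N), μ ⟨(x : G), x.2.1⟩ = lam x)
    (E : Subgroup G) (Q : Subgroup E) (g : G)
    (hg : ∀ q ∈ Q, g * (q : G) * g⁻¹ ∈ (P : Subgroup G)) (fM : N.subgroupOf E →* ℂˣ) :
    ∃ μ : Q →* ℂˣ, ∀ (q : E) (hq : q ∈ Q) (hqM : q ∈ N.subgroupOf E),
      μ ⟨q, hq⟩ = fM ⟨q, hqM⟩ := by
  classical
  letI : CommGroup ↥((P : Subgroup G) ⊓ N) :=
    { (inferInstance : Group ↥((P : Subgroup G) ⊓ N)) with
      mul_comm := fun a b => Subtype.ext (hcent a a.2 b b.2.1) }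
  let c₀ : ↥(N.subgroupOf E ⊓ Q) →* ↥((P : Subgroup G) ⊓ N) :=
    { toFun := fun y => ⟨g * ((y : E) : G) * g⁻¹,
        ⟨hg _ y.2.2, hN.conj_mem _ (Subgroup.mem_subgroupOf.1 y.2.1) g⟩⟩
      map_one' := Subtype.ext (by simp)
      map_mul' := fun a b => Subtype.ext (by simp [mul_assoc]) }
  have hc₀ : Function.Injective c₀ := by
    intro a b hab
    have h1 : g * ((a : E) : G) * g⁻¹ = g * ((b : E) : G) * g⁻¹ := congrArg Subtype.val hab
    apply Subtype.ext
    apply Subtype.ext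
    exact mul_left_cancel (mul_right_cancel h1)
  let ν₀ : c₀.range →* ℂˣ :=
    (fM.comp (Subgroup.inclusion (inf_le_left : N.subgroupOf E ⊓ Q ≤ N.subgroupOf E))).comp
      (MonoidHom.ofInjective hc₀).symm.toMonoidHom
  obtain ⟨lam, hlam⟩ := MonoidHom.domRestrict_surjective ℂ c₀.range ν₀
  obtain ⟨μP, hμP, hμP1, hμPeq⟩ := hlin (fun a => ((lam a : ℂˣ) : ℂ))
    (Cfsg.Agent.Lib.CT.LinChar.isCharacter_of_hom lam) (by simp)
  obtain ⟨fP, hfP⟩ := Cfsg.Agent.Lib.CT.LinChar.exists_hom_of_isCharacter μP hμP hμP1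
  let c : Q →* ↥(P : Subgroup G) :=
    { toFun := fun q => ⟨g * ((q : E) : G) * g⁻¹, hg _ q.2⟩
      map_one' := Subtype.ext (by simp)
      map_mul' := fun a b => Subtype.ext (by simp [mul_assoc]) }
  refine ⟨fP.comp c, ?_⟩
  intro q hq hqM
  apply Units.ext
  show ((fP (c ⟨q, hq⟩) : ℂˣ) : ℂ) = ((fM ⟨q, hqM⟩ : ℂˣ) : ℂ)
  rw [← hfP]
  have h1 := hμPeq (c₀ ⟨q, ⟨hqM, hq⟩⟩)
  have h2 : (⟨((c₀ ⟨q, ⟨hqM, hq⟩⟩ : ↥((P : Subgroup G) ⊓ N)) : G), (c₀ ⟨q, ⟨hqM, hq⟩⟩).2.1⟩ :
      ↥(P : Subgroup G)) = c ⟨q, hq⟩ := rfl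
  rw [h2] at h1
  rw [h1]
  congr 1
  have h3 : lam (c₀ ⟨q, ⟨hqM, hq⟩⟩)
      = ν₀ ⟨c₀ ⟨q, ⟨hqM, hq⟩⟩, MonoidHom.mem_range.2 ⟨_, rfl⟩⟩ := by
    rw [← hlam]
    rfl
  rw [h3]
  show fM (Subgroup.inclusion inf_le_left ((MonoidHom.ofInjective hc₀).symm
    ⟨c₀ ⟨q, ⟨hqM, hq⟩⟩, MonoidHom.mem_range.2 ⟨_, rfl⟩⟩)) = fM ⟨q, hqM⟩
  have h4 : (MonoidHom.ofInjective hc₀).symm
      ⟨c₀ ⟨q, ⟨hqM, hq⟩⟩, MonoidHom.mem_range.2 ⟨_, rfl⟩⟩ = ⟨q, ⟨hqM, hq⟩⟩ := by
    rw [MulEquiv.symm_apply_eq]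
    rfl
  rw [h4]
  rfl

end Cfsg.Agent.Lib.Helper3.DadeExt
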