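import Mathlib
import Cfsg.Agent.Lib.Helper45.EPStmt
import Cfsg.Agent.Lib.Helper44.TPStmt
import Cfsg.Agent.Lib.Helper85.TPBFE
import Cfsg.Agent.Lib.Helper43.HypBFO
import Cfsg.Agent.Lib.Helper53.TPINVDIM
import Cfsg.Agent.Lib.Helper47.TPTOP
import Cfsg.Agent.Lib.Helper53.TPFIXND
import Cfsg.Agent.Lib.Helper21.TPPERP
import Cfsg.Agent.Lib.Helper48.TPORTHSUM
import Cfsg.Agent.Lib.Helper21.TPSUBPERP
import Cfsg.Agent.Lib.Helper78.HypIPOS

set_option autoImplicit false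

/-! S5988 piece BLOCKSA (all `q`): invariant nondegenerate subspaces of dimension `j c` without
fixed vectors, orthogonal to the fixed space.  Uniform induction: block finder of dimension
`cc i` (`i` even: `Helper85.TPBFE.main`, `i` odd: the char-free `Helper43.HypBFO.bfo`), then
`SubPerp` + `OrthSum` inside `Y = (Fix x)^⊥` (`FixND`, `Perp`). -/

namespace Cfsg.Agent.Lib.Helper3.EPBLOCKSA

open Module QuadraticMap
open Cfsg.Agent.Lib.Helper44.TPStmt
open Cfsg.Agent.Lib.Helper37.HypStmt (cc)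
open Cfsg.Agent.Lib.Helper44.NegPairs (plusQ)
open Cfsg.Agent.Lib.Helper85.TPBFE (setupJ translJ translBackJ)

universe u

/-- block finder, both parities: dimension `cc i` -/
theorem bf {F : Type u} [Field F] [Fintype F] (p : ℕ) [Fact p.Prime] [CharP F p]
    (d : ℕ) (r : ℕ) [Fact r.Prime] (hr2 : r ≠ 2) (hrp : r ≠ p)
    (x : Matrix.GeneralLinearGroup (J d) F)
    (hx : x ∈ Cfsg.isometryGroup F (Cfsg.quadFormPlus d F))
    (hxr : x ^ r = 1) (Y : Submodule F (J d → F)) (hYs : Stab (x : Matrix (J d) (J d) F) Y)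
    (hYnd : NDeg d F Y) (hYfix : Y ⊓ Fx (x : Matrix (J d) (J d) F) = ⊥) (hYne : Y ≠ ⊥) :
    ∃ B : Submodule F (J d → F), B ≤ Y ∧ Stab (x : Matrix (J d) (J d) F) B ∧ NDeg d F B ∧
      Module.finrank F ↥B = cc (orderOf ((Fintype.card F : ℕ) : ZMod r)) := by
  by_cases hev : Even (orderOf ((Fintype.card F : ℕ) : ZMod r))
  · obtain ⟨B, h1, h2, h3, h4⟩ := Cfsg.Agent.Lib.Helper85.TPBFE.main F p d r hr2 hrp hev x hx hxr
      Y hYs hYnd hYfix hYne
    refine ⟨B, h1, h2, h3, ?_⟩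
    rw [h4]
    unfold cc
    rw [if_pos hev]
  · have hodd : Odd (orderOf ((Fintype.card F : ℕ) : ZMod r)) := Nat.not_even_iff_odd.mp hev
    obtain ⟨φ, φ', h1, h2, hφr, hφa, hφQ, hInv⟩ :=
      setupJ p d r hrp Cfsg.Agent.Lib.Helper53.TPINVDIM.main x hx hxr
    obtain ⟨hY, hYfix', hYnd'⟩ := translJ d (x : Matrix (J d) (J d) F) φ hφa Y hYs hYnd hYfix
    obtain ⟨B, hBY, hBinv, hBrad, hBdim⟩ := Cfsg.Agent.Lib.Helper43.HypBFO.bfo (p := p) r hr2 hrp
      hodd (plusQ d F) φ φ' h1 h2 hφr hφQ hInv Y hY hYfix' hYnd' hYne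
    obtain ⟨hS, hN⟩ := translBackJ d (x : Matrix (J d) (J d) F) φ hφa B hBinv hBrad
    refine ⟨B, hBY, hS, hN, ?_⟩
    rw [hBdim]
    unfold cc
    rw [if_neg hev]

/-- `k` orthogonal blocks inside an invariant nondegenerate `Y` without fixed vectors -/
theorem blocks_in {F : Type u} [Field F] [Fintype F] (p : ℕ) [Fact p.Prime] [CharP F p]
    (d : ℕ) (r : ℕ) [Fact r.Prime] (hr2 : r ≠ 2) (hrp : r ≠ p)
    (x : Matrix.GeneralLinearGroup (J d) F)
    (hx : x ∈ Cfsg.isometryGroup F (Cfsg.quadFormPlus d F)) (hxr : x ^ r = 1) :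
    ∀ (k : ℕ) (Y : Submodule F (J d → F)), Stab (x : Matrix (J d) (J d) F) Y → NDeg d F Y →
      Y ⊓ Fx (x : Matrix (J d) (J d) F) = ⊥ →
      k * cc (orderOf ((Fintype.card F : ℕ) : ZMod r)) ≤ Module.finrank F ↥Y →
      ∃ E : Submodule F (J d → F), E ≤ Y ∧ Stab (x : Matrix (J d) (J d) F) E ∧ NDeg d F E ∧
        Module.finrank F ↥E = k * cc (orderOf ((Fintype.card F : ℕ) : ZMod r)) := by
  have hipos : 0 < orderOf ((Fintype.card F : ℕ) : ZMod r) :=
    Cfsg.Agent.Lib.Helper78.HypIPOS.main F p r hrp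
  have hcpos : 0 < cc (orderOf ((Fintype.card F : ℕ) : ZMod r)) := by
    unfold cc
    split_ifs <;> omega
  intro k
  induction k with
  | zero =>
    intro Y hYs hYnd hYfix hk
    refine ⟨⊥, bot_le, ?_, ?_, ?_⟩
    · unfold Stab
      rw [Submodule.map_bot]
    · intro w hw hw0
      exact absurd ((Submodule.mem_bot F).mp hw) hw0
    · rw [zero_mul]
      exact finrank_bot F (J d → F)
  | succ k ih =>
    intro Y hYs hYnd hYfix hk
    have hYne : Y ≠ ⊥ := by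
      rintro rfl
      rw [finrank_bot, Nat.succ_mul] at hk
      omega
    obtain ⟨B, hBY, hBs, hBnd, hBdim⟩ := bf p d r hr2 hrp x hx hxr Y hYs hYnd hYfix hYne
    obtain ⟨Y', hY'Y, hY'nd, hBY', horth, hdim, hstab⟩ :=
      Cfsg.Agent.Lib.Helper21.TPSUBPERP.main F d Y B hYnd hBnd hBY
    have hY's : Stab (x : Matrix (J d) (J d) F) Y' := hstab x hx hYs hBs
    have hY'fix : Y' ⊓ Fx (x : Matrix (J d) (J d) F) = ⊥ := by
      rw [eq_bot_iff, ← hYfix]
      exact inf_le_inf_right _ hY'Y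
    have hk' : k * cc (orderOf ((Fintype.card F : ℕ) : ZMod r)) ≤ Module.finrank F ↥Y' := by
      rw [Nat.succ_mul] at hk
      omega
    obtain ⟨E', hE'Y', hE's, hE'nd, hE'dim⟩ := ih Y' hY's hY'nd hY'fix hk'
    have horth' : ∀ u ∈ B, ∀ v ∈ E', polar (Cfsg.quadFormPlus d F) u v = 0 :=
      fun u hu v hv => horth u hu v (hE'Y' hv)
    obtain ⟨hnd, hinf, hfr⟩ := Cfsg.Agent.Lib.Helper48.TPORTHSUM.main F d B E' hBnd hE'nd horth'
    refine ⟨B ⊔ E', sup_le hBY (hE'Y'.trans hY'Y), ?_, hnd, ?_⟩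
    · unfold Stab at hBs hE's ⊢
      rw [Submodule.map_sup]
      exact sup_le_sup hBs hE's
    · rw [hfr, hBdim, hE'dim, Nat.succ_mul]
      ring

theorem main : Cfsg.Agent.Lib.Helper45.EPStmt.BlocksA.{u} := by
  intro F _ _ p _ _ d r _ hr2 hrp x hx hxr j hj
  have hTop := Cfsg.Agent.Lib.Helper47.TPTOP.main.{u}
  have hFix : NDeg d F (Fx (x : Matrix (J d) (J d) F)) :=
    Cfsg.Agent.Lib.Helper53.TPFIXND.main hTop F p d r hrp x hx hxr
  obtain ⟨Y, horth, hYnd, hinf, hdim, hstab⟩ :=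
    Cfsg.Agent.Lib.Helper21.TPPERP.main hTop F d (Fx (x : Matrix (J d) (J d) F)) hFix
  have hFxs : Stab (x : Matrix (J d) (J d) F) (Fx (x : Matrix (J d) (J d) F)) := by
    rintro _ ⟨v, hv, rfl⟩
    have hv' : v ∈ Fx (x : Matrix (J d) (J d) F) := hv
    have h3 : Matrix.toLin' (x : Matrix (J d) (J d) F) v = v := by
      have h := hv'
      unfold Fx at h
      rw [LinearMap.mem_ker, LinearMap.sub_apply, LinearMap.id_apply, sub_eq_zero] at h
      exact h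
    rw [h3]
    exact hv'
  have hYs := hstab x hx hFxs
  have hYfix : Y ⊓ Fx (x : Matrix (J d) (J d) F) = ⊥ := by
    rw [inf_comm]
    exact hinf
  have hk : j * cc (orderOf ((Fintype.card F : ℕ) : ZMod r)) ≤ Module.finrank F ↥Y := by
    have hj' : j * cc (orderOf ((Fintype.card F : ℕ) : ZMod r)) +
        Module.finrank F ↥(Fx (x : Matrix (J d) (J d) F)) ≤ 2 * d := hj
    omega
  obtain ⟨E, hEY, hEs, hEnd, hEdim⟩ := blocks_in p d r hr2 hrp x hx hxr j Y hYs hYnd hYfix hk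
  refine ⟨E, hEs, hEnd, hEdim, ?_, ?_⟩
  · have h4 : E ⊓ Fx (x : Matrix (J d) (J d) F) ≤ Y ⊓ Fx (x : Matrix (J d) (J d) F) :=
      inf_le_inf_right _ hEY
    rw [hYfix] at h4
    exact eq_bot_iff.mpr h4
  · intro u hu v hv
    rw [QuadraticMap.polar_comm]
    exact horth v hv u (hEY hu)

end Cfsg.Agent.Lib.Helper3.EPBLOCKSA
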