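import Mathlib
import Cfsg.Prelude.Def_Characters
import Cfsg.Agent.Lib.CT.FrobRec
import Cfsg.Agent.Lib.CT.IndChar

/-!
# Representations over a general field

* `char_prod`, `exists_prod_equiv`: characters of products, Maschke splitting.
* `monRep`: the monomial representation induced from a multiplicative map `H →* k`;
  `monRep_character`.
* `exists_complex_rep`: base change of a representation over a subfield of `ℂ` to a complex
  matrix representation with entries in the subfield.
-/

set_option autoImplicit false
open Cfsg

namespace Cfsg.Agent.Lib.Helper3.FRep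

open Cfsg.Agent.Lib.CT.IndChar

universe u

section General

variable {k : Type*} [Field k]

/-- The character of a product representation. -/
theorem char_prod {G : Type*} [Group G] {V W : Type*} [AddCommGroup V] [Module k V]
    [FiniteDimensional k V] [AddCommGroup W] [Module k W] [FiniteDimensional k W]
    (ρ : Representation k G V) (σ : Representation k G W) :
    (ρ.prod σ).character = ρ.character + σ.character := by
  funext g
  simp only [Representation.character, Pi.add_apply]
  exact LinearMap.trace_prodMap' (ρ g) (σ g)

/-- An injective intertwiner splits off as a direct factor (Maschke). -/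
theorem exists_prod_equiv {G : Type*} [Group G] [Finite G] [NeZero (Nat.card G : k)]
    {T V : Type*} [AddCommGroup T] [Module k T] [AddCommGroup V] [Module k V]
    (τ : Representation k G T) (ρ : Representation k G V) (f : Representation.IntertwiningMap τ ρ)
    (hf : Function.Injective f) :
    ∃ U' : Subrepresentation ρ, Nonempty ((τ.prod U'.toRepresentation).Equiv ρ) := by
  obtain ⟨U', hcompl⟩ := exists_isCompl f.range
  refine ⟨U', ?_⟩
  let Φ : T × U'.toSubmodule →ₗ[k] V := f.toLinearMap.coprod U'.toSubmodule.subtype
  have hΦ : ∀ x : T × U'.toSubmodule, Φ x = f x.1 + (x.2 : V) := fun x => rfl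
  have hint : ∀ g, Φ ∘ₗ (τ.prod U'.toRepresentation) g = ρ g ∘ₗ Φ := by
    intro g
    refine LinearMap.ext (fun x => ?_)
    rw [LinearMap.comp_apply, LinearMap.comp_apply, hΦ, hΦ, Representation.prod_apply_apply,
      map_add]
    have h1 : f (τ g x.1) = ρ g (f x.1) := LinearMap.congr_fun (f.isIntertwining' g) x.1
    have h2 : ((U'.toRepresentation g x.2 : U'.toSubmodule) : V) = ρ g (x.2 : V) := rfl
    show f (τ g x.1) + ((U'.toRepresentation g x.2 : U'.toSubmodule) : V) = _
    rw [h1, h2]
  let F : Representation.IntertwiningMap (τ.prod U'.toRepresentation) ρ := ⟨Φ, hint⟩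
  have hdisj : f.range.toSubmodule ⊓ U'.toSubmodule = ⊥ := by
    have := hcompl.inf_eq_bot
    exact congrArg Subrepresentation.toSubmodule this
  have hsup : f.range.toSubmodule ⊔ U'.toSubmodule = ⊤ := by
    have := hcompl.sup_eq_top
    exact congrArg Subrepresentation.toSubmodule this
  have hbij : Function.Bijective F := by
    constructor
    · show Function.Injective Φ
      rw [← LinearMap.ker_eq_bot (f := Φ), LinearMap.ker_eq_bot']
      intro x hx
      rw [hΦ] at hx
      have h1 : f x.1 ∈ f.range.toSubmodule ⊓ U'.toSubmodule := by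
        refine ⟨⟨x.1, rfl⟩, ?_⟩
        have : f x.1 = -(x.2 : V) := eq_neg_of_add_eq_zero_left hx
        rw [this]
        exact U'.toSubmodule.neg_mem x.2.2
      rw [hdisj, Submodule.mem_bot] at h1
      have h2 : x.1 = 0 := hf (by rw [h1, map_zero])
      have h3 : (x.2 : V) = 0 := by rw [h1, zero_add] at hx; exact hx
      exact Prod.ext h2 (Subtype.ext h3)
    · show Function.Surjective Φ
      intro v
      have hv : v ∈ f.range.toSubmodule ⊔ U'.toSubmodule := by rw [hsup]; trivial
      obtain ⟨a, ⟨t, rfl⟩, b, hb, rfl⟩ := Submodule.mem_sup.1 hv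
      exact ⟨(t, ⟨b, hb⟩), rfl⟩
  exact ⟨F.ofBijective hbij⟩

/-- The inclusion of a subrepresentation. -/
def subIncl {G : Type*} [Group G] {V : Type*} [AddCommGroup V] [Module k V]
    {ρ : Representation k G V} (W : Subrepresentation ρ) :
    Representation.IntertwiningMap W.toRepresentation ρ :=
  ⟨W.toSubmodule.subtype, fun _ => rfl⟩

theorem subIncl_apply {G : Type*} [Group G] {V : Type*} [AddCommGroup V] [Module k V]
    {ρ : Representation k G V} (W : Subrepresentation ρ) (w : W.toSubmodule) :
    subIncl W w = (w : V) := rfl

end General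

section Monomial

variable {k : Type*} [Field k] {G : Type u} [Group G] (H : Subgroup G)

/-- The monomial representation induced from a multiplicative map `H →* k`. -/
noncomputable def monRep (lam : H →* k) : Representation k G ((G ⧸ H) → k) where
  toFun g := LinearMap.pi (fun q => (lam (cocycle H g (g⁻¹ • q))) • LinearMap.proj (g⁻¹ • q))
  map_one' := by
    apply LinearMap.ext
    intro F
    funext q
    simp [cocycle_one]
  map_mul' g g' := by
    apply LinearMap.ext
    intro F
    funext q
    simp only [LinearMap.pi_apply, LinearMap.smul_apply, LinearMap.coe_proj, Function.eval,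
      smul_eq_mul, Module.End.mul_apply]
    rw [cocycle_mul, map_mul]
    have h1 : g' • (g * g')⁻¹ • q = g⁻¹ • q := by
      rw [← mul_smul]
      congr 1
      group
    have h2 : (g * g')⁻¹ • q = g'⁻¹ • g⁻¹ • q := by
      rw [← mul_smul]
      congr 1
      group
    rw [h1, h2, mul_assoc]

theorem monRep_apply (lam : H →* k) (g : G) (F : (G ⧸ H) → k) (q : G ⧸ H) :
    monRep H lam g F q = lam (cocycle H g (g⁻¹ • q)) * F (g⁻¹ • q) := rfl

open scoped Classical in
/-- The character of the monomial representation. -/
theorem monRep_character [Finite G] [Fintype (G ⧸ H)] (lam : H →* k)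
    (g : G) :
    (monRep H lam).character g
      = ∑ q : G ⧸ H, if h : (rep H q)⁻¹ * g * rep H q ∈ H then lam ⟨_, h⟩ else 0 := by
  unfold Representation.character
  rw [LinearMap.trace_eq_matrix_trace k (Pi.basisFun k (G ⧸ H)), Matrix.trace]
  apply Finset.sum_congr rfl
  intro q _
  simp only [Matrix.diag_apply, LinearMap.toMatrix_apply, Pi.basisFun_apply, Pi.basisFun_repr,
    monRep_apply]
  by_cases hq : g • q = q
  · have hq' : g⁻¹ • q = q := by
      rw [inv_smul_eq_iff, hq]
    have hmem := (smul_eq_iff_mem H g q).mp hq
    rw [dif_pos hmem]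
    simp only [hq', Pi.single_eq_same, mul_one]
    congr 1
    apply Subtype.ext
    simp [cocycle, hq]
  · have hq' : g⁻¹ • q ≠ q := by
      intro h
      apply hq
      rw [inv_smul_eq_iff] at h
      exact h.symm
    have hmem : (rep H q)⁻¹ * g * rep H q ∉ H := fun h => hq ((smul_eq_iff_mem H g q).mpr h)
    rw [dif_neg hmem]
    simp [Pi.single_eq_of_ne hq']

end Monomial

end Cfsg.Agent.Lib.Helper3.FRep
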