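import Mathlib
import Cfsg.Agent.Lib.Helper80.FTStmt
import Cfsg.Agent.Lib.Helper91.Hall

set_option autoImplicit false

/-! S3999 piece SOLV15: a solvable group with `|Y|_3 = 3`, `|Y|_5 = 5` has an element of
order `15` (Hall `{3,5}`-subgroup of order 15 is cyclic). -/

namespace Cfsg.Agent.Lib.Helper3.FTSOLV15

universe u

open Cfsg.Agent.Lib.Helper80.FTStmt

/-- a group of order 15 has an element of order 15 -/
theorem exists_orderOf_15 {D : Type u} [Group D] [Finite D] (hD : Nat.card D = 15) :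
    ∃ d : D, orderOf d = 15 := by
  haveI : Fact (Nat.Prime 3) := ⟨by norm_num⟩
  haveI : Fact (Nat.Prime 5) := ⟨by norm_num⟩
  obtain ⟨P3⟩ : Nonempty (Sylow 3 D) := inferInstance
  obtain ⟨P5⟩ : Nonempty (Sylow 5 D) := inferInstance
  have h3 : Nat.card P3 = 3 := by
    have hdiv : Nat.card P3 ∣ 15 := hD ▸ (P3 : Subgroup D).card_subgroup_dvd_card
    have h3d : 3 ∣ Nat.card P3 := P3.dvd_card_of_dvd_card (by rw [hD]; norm_num)
    obtain ⟨k, hk⟩ := IsPGroup.iff_card.1 P3.isPGroup'
    rw [hk] at hdiv h3d ⊢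
    have hk3 : k < 3 := by
      by_contra hcon
      have : 3 ^ 3 ∣ 3 ^ k := pow_dvd_pow 3 (not_lt.1 hcon)
      have h27 : 27 ∣ 15 := (by norm_num : (27 : ℕ) = 3 ^ 3) ▸ this.trans hdiv
      omega
    interval_cases k
    · omega
    · norm_num
    · omega
  have h5 : Nat.card P5 = 5 := by
    have hdiv : Nat.card P5 ∣ 15 := hD ▸ (P5 : Subgroup D).card_subgroup_dvd_card
    have h5d : 5 ∣ Nat.card P5 := P5.dvd_card_of_dvd_card (by rw [hD]; norm_num)
    obtain ⟨k, hk⟩ := IsPGroup.iff_card.1 P5.isPGroup'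
    rw [hk] at hdiv h5d ⊢
    have hk2 : k < 2 := by
      by_contra hcon
      have : 5 ^ 2 ∣ 5 ^ k := pow_dvd_pow 5 (not_lt.1 hcon)
      have h25 : 25 ∣ 15 := (by norm_num : (25 : ℕ) = 5 ^ 2) ▸ this.trans hdiv
      omega
    interval_cases k
    · omega
    · norm_num
  have hi3 : (P3 : Subgroup D).index = 5 := by
    have := (P3 : Subgroup D).card_mul_index
    rw [h3, hD] at this
    omega
  have hi5 : (P5 : Subgroup D).index = 3 := by
    have := (P5 : Subgroup D).card_mul_index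
    rw [h5, hD] at this
    omega
  have hn3 : Nat.card (Sylow 3 D) = 1 := by
    have h1 := card_sylow_modEq_one 3 D
    have h2 := Sylow.card_dvd_index P3
    rw [hi3] at h2
    rcases (Nat.dvd_prime (by norm_num)).1 h2 with h | h
    · exact h
    · rw [h] at h1
      exact absurd h1 (by decide)
  have hn5 : Nat.card (Sylow 5 D) = 1 := by
    have h1 := card_sylow_modEq_one 5 D
    have h2 := Sylow.card_dvd_index P5
    rw [hi5] at h2
    rcases (Nat.dvd_prime (by norm_num)).1 h2 with h | h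
    · exact h
    · rw [h] at h1
      exact absurd h1 (by decide)
  haveI : Subsingleton (Sylow 3 D) := (Finite.card_le_one_iff_subsingleton).1 hn3.le
  haveI : Subsingleton (Sylow 5 D) := (Finite.card_le_one_iff_subsingleton).1 hn5.le
  have hN3 : (P3 : Subgroup D).Normal := P3.normal_of_subsingleton
  have hN5 : (P5 : Subgroup D).Normal := P5.normal_of_subsingleton
  have hdis : Disjoint (P3 : Subgroup D) (P5 : Subgroup D) :=
    Subgroup.disjoint_of_coprime_natCard (by rw [h3, h5]; norm_num)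
  obtain ⟨a, ha⟩ := exists_prime_orderOf_dvd_card' (G := (P3 : Subgroup D)) 3 (by rw [h3])
  obtain ⟨b, hb⟩ := exists_prime_orderOf_dvd_card' (G := (P5 : Subgroup D)) 5 (by rw [h5])
  have ha' : orderOf (a : D) = 3 := by rw [Subgroup.orderOf_coe]; exact ha
  have hb' : orderOf (b : D) = 5 := by rw [Subgroup.orderOf_coe]; exact hb
  have hcomm : Commute (a : D) (b : D) :=
    Subgroup.commute_of_normal_of_disjoint _ _ hN3 hN5 hdis _ _ a.2 b.2
  refine ⟨(a : D) * (b : D), ?_⟩
  rw [hcomm.orderOf_mul_eq_mul_orderOf_of_coprime (by rw [ha', hb']; norm_num), ha', hb']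

theorem main : Solv15.{u} := by
  intro Y _ _ hsolv hf3 hf5
  haveI := hsolv
  have hne : Nat.card Y ≠ 0 := Nat.card_pos.ne'
  have p3 : Nat.Prime 3 := by norm_num
  have p5 : Nat.Prime 5 := by norm_num
  have h3 : 3 ∣ Nat.card Y := by
    have := (p3.pow_dvd_iff_le_factorization hne (k := 1)).2 (by rw [hf3])
    simpa using this
  have h9 : ¬ 9 ∣ Nat.card Y := by
    intro h
    have := (p3.pow_dvd_iff_le_factorization hne (k := 2)).1 (by norm_num; exact h)
    rw [hf3] at this
    omega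
  have h5 : 5 ∣ Nat.card Y := by
    have := (p5.pow_dvd_iff_le_factorization hne (k := 1)).2 (by rw [hf5])
    simpa using this
  have h25 : ¬ 25 ∣ Nat.card Y := by
    intro h
    have := (p5.pow_dvd_iff_le_factorization hne (k := 2)).1 (by norm_num; exact h)
    rw [hf5] at this
    omega
  have h15 : 15 ∣ Nat.card Y :=
    Nat.Coprime.mul_dvd_of_dvd_of_dvd (by norm_num : Nat.Coprime 3 5) h3 h5
  obtain ⟨n, hn⟩ := h15
  have hc3 : Nat.Coprime 3 n := by
    rw [p3.coprime_iff_not_dvd]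
    rintro ⟨m, rfl⟩
    exact h9 ⟨5 * m, by rw [hn]; ring⟩
  have hc5 : Nat.Coprime 5 n := by
    rw [p5.coprime_iff_not_dvd]
    rintro ⟨m, rfl⟩
    exact h25 ⟨3 * m, by rw [hn]; ring⟩
  have hcop : Nat.Coprime 15 n := Nat.Coprime.mul_left hc3 hc5
  obtain ⟨H, hH⟩ := Cfsg.Agent.Lib.Helper91.Hall.hall_exists 15 n hn hcop
  obtain ⟨d, hd⟩ := exists_orderOf_15 (D := H) hH
  exact ⟨(d : Y), by rw [Subgroup.orderOf_coe]; exact hd⟩

end Cfsg.Agent.Lib.Helper3.FTSOLV15
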