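import Mathlib
import Cfsg.Prelude.Def_Blocks
import Cfsg.Agent.Lib.CT.DefectZeroBlock
import Cfsg.Agent.Lib.Helper16.Defect
import Cfsg.Agent.Lib.Helper17.BrBridge
import Cfsg.Agent.Lib.Helper77.LocalRing
import Cfsg.Agent.Lib.Helper80.Integrality
import Cfsg.Agent.S4478

/-!
# No `2`-block of defect zero from the parities of involution products

For a class function `c` with values in a commutative ring of characteristic `2` which is a
convolution idempotent, the involution `x ↦ s x⁻¹ s` on the convolution sum gives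
`c (s * s) = ∑_{u : u * u = 1} c (u * s) ^ 2` for every `s`.  Applied to the coefficients of
the block idempotent of a block of defect zero modulo a maximal ideal over `2`, this shows:
if for representatives `r i` of the classes of elements of odd order with centraliser of odd
order and square roots `s` of them the number of `u` with `u * u = 1` and `u * s` conjugate
to `r j` is always even, then the group has no `2`-block of defect zero.
-/

set_option autoImplicit false
set_option linter.style.haveILetI false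

namespace Cfsg.Agent.Lib.Helper3.InvParity

open Cfsg
open scoped ComplexConjugate

universe u

/-- The square identity for convolution idempotent class functions in characteristic `2`. -/
theorem core_square {G : Type*} [Group G] [Fintype G] [DecidableEq G] {F : Type*} [CommRing F]
    (h2 : (2 : F) = 0) (c : G → F) (hcl : ∀ g x : G, c (x * g * x⁻¹) = c g)
    (hconv : ∀ g : G, ∑ x : G, c x * c (x⁻¹ * g) = c g) (s : G) :
    c (s * s) = ∑ u ∈ Finset.univ.filter (fun u : G => u * u = 1), c (u * s) ^ 2 := by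
  classical
  rw [← hconv (s * s)]
  obtain ⟨w, hw⟩ : ∃ w : G → F, w = fun x => c x * c (x⁻¹ * (s * s)) := ⟨_, rfl⟩
  have hτw : ∀ x, w (s * x⁻¹ * s) = w x := by
    intro x
    rw [hw]
    have e1 : c (s * x⁻¹ * s) = c (x⁻¹ * (s * s)) := by
      have h := hcl (x⁻¹ * (s * s)) s
      rw [← h]
      congr 1
      group
    have e2 : c ((s * x⁻¹ * s)⁻¹ * (s * s)) = c x := by
      have h := hcl x s⁻¹
      rw [← h]
      congr 1
      group
    show c (s * x⁻¹ * s) * c ((s * x⁻¹ * s)⁻¹ * (s * s)) = c x * c (x⁻¹ * (s * s))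
    rw [e1, e2, mul_comm]
  have hsplit : ∑ x : G, w x = ∑ x ∈ Finset.univ.filter (fun x : G => s * x⁻¹ * s = x), w x
      + ∑ x ∈ Finset.univ.filter (fun x : G => ¬ s * x⁻¹ * s = x), w x :=
    (Finset.sum_filter_add_sum_filter_not _ _ _).symm
  have hzero : ∑ x ∈ Finset.univ.filter (fun x : G => ¬ s * x⁻¹ * s = x), w x = 0 := by
    refine Finset.sum_involution (fun x _ => s * x⁻¹ * s) ?_ ?_ ?_ ?_
    · intro x _
      rw [hτw x, ← two_mul, h2, zero_mul]
    · intro x hx _
      exact (Finset.mem_filter.mp hx).2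
    · intro x hx
      rw [Finset.mem_filter] at hx ⊢
      refine ⟨Finset.mem_univ _, ?_⟩
      intro h
      apply hx.2
      have e : s * (s * x⁻¹ * s)⁻¹ * s = x := by group
      rw [e] at h
      exact h.symm
    · intro x _
      group
  have hsum : ∑ x : G, c x * c (x⁻¹ * (s * s)) = ∑ x : G, w x := by rw [hw]
  rw [hsum, hsplit, hzero, add_zero]
  refine Finset.sum_bij' (fun x _ => x * s⁻¹) (fun u _ => u * s) ?_ ?_ ?_ ?_ ?_
  · intro x hx
    rw [Finset.mem_filter] at hx ⊢
    refine ⟨Finset.mem_univ _, ?_⟩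
    have h := hx.2
    calc x * s⁻¹ * (x * s⁻¹) = x * (s * x⁻¹ * s)⁻¹ := by group
      _ = 1 := by rw [h, mul_inv_cancel]
  · intro u hu
    rw [Finset.mem_filter] at hu ⊢
    refine ⟨Finset.mem_univ _, ?_⟩
    have h := hu.2
    have hinv : u⁻¹ = u := inv_eq_of_mul_eq_one_right h
    calc s * (u * s)⁻¹ * s = u⁻¹ * s := by group
      _ = u * s := by rw [hinv]
  · intro x _
    group
  · intro u _
    group
  · intro x hx
    rw [Finset.mem_filter] at hx
    have h := hx.2
    rw [hw]
    show c x * c (x⁻¹ * (s * s)) = c (x * s⁻¹ * s) ^ 2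
    have e1 : x * s⁻¹ * s = x := by group
    have e2 : x⁻¹ * (s * s) = s⁻¹ * x * s⁻¹⁻¹ := by
      have h' : x⁻¹ = (s * x⁻¹ * s)⁻¹ := by rw [h]
      rw [h']
      group
    rw [e1, e2, hcl x s⁻¹, pow_two]

variable {G : Type u} [Group G] [Finite G]

/-- **No block of defect zero from involution parities.** -/
theorem no_defect_zero_of_involution_parity (M : Ideal AlgInt) (hM : IsPModular 2 M)
    {ι : Type*} [Finite ι] (r : ι → G) (lab : G → Option ι)
    (hsound : ∀ (g : G) (i : ι), lab g = some i → IsConj g (r i))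
    (hcompl : ∀ g : G, Odd (orderOf g) → (∀ u : G, orderOf u = 2 → ¬ Commute u g) →
      lab g ≠ none)
    (hpar : ∀ i : ι, ∃ s : G, s * s = r i ∧
      ∀ j : ι, Even (Nat.card {u : G // u * u = 1 ∧ lab (u * s) = some j}))
    (B : Set (IrrCharacter G)) (hB : IsPBlock M B) : ¬ IsDefectGroup 2 M B ⊥ := by
  classical
  intro hD
  haveI : Fact (Nat.Prime 2) := ⟨Nat.prime_two⟩
  haveI : Fintype G := Fintype.ofFinite G
  haveI : Fintype ι := Fintype.ofFinite ι
  have hMp : M.IsPrime := Cfsg.Agent.Lib.Helper77.LocalRing.isPrime_of_isPModular hM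
  have hMmax : M.IsMaximal := hM.2.1
  have h2M : (2 : AlgInt) ∈ M := by
    have := hM.2.2
    exact_mod_cast this
  -- the block consists of one character of defect zero
  have hcard := Cfsg.Agent.Lib.Helper16.Defect.card_defectGroup 2 hM B hB ⊥ hD
  have hdef : blockDefect 2 B = 0 := by
    rw [Subgroup.card_bot] at hcard
    by_contra h
    have : 2 ^ 1 ≤ 2 ^ blockDefect 2 B :=
      Nat.pow_le_pow_right (by norm_num) (Nat.one_le_iff_ne_zero.mpr h)
    omega
  obtain ⟨χ, hχB⟩ := Cfsg.Agent.Lib.CT.DefectZeroBlock.isPBlock_nonempty hMp hB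
  have hχdef := (Cfsg.Agent.Lib.CT.DefectZeroBlock.blockDefect_eq_zero_iff 2 B ⟨χ, hχB⟩).mp
    hdef χ hχB
  have hBχ : B = {χ} := by
    rw [Cfsg.Agent.Lib.CT.DefectZeroBlock.eq_blockOf_of_mem hMp hB hχB]
    exact Cfsg.Agent.Lib.CT.DefectZeroBlock.blockOf_eq_singleton_of_defect_zero hM χ hχdef
  obtain ⟨g0, ⟨-, hg0, -⟩, -⟩ := hD
  -- the odd number k = |G| / χ(1)
  obtain ⟨k, hk⟩ := Cfsg.Agent.Lib.Helper80.Integrality.charDegree_dvd_card χ
  have hdpos : 0 < charDegree (χ : G → ℂ) := Cfsg.Agent.Lib.Helper80.Integrality.charDegree_pos χ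
  have hk0 : k ≠ 0 := by
    rintro rfl
    rw [mul_zero] at hk
    exact (Nat.card_pos (α := G)).ne' hk
  have hkodd : ¬ 2 ∣ k := by
    have h1 : (Nat.card G).factorization 2
        = (charDegree (χ : G → ℂ)).factorization 2 + k.factorization 2 := by
      rw [hk, Nat.factorization_mul hdpos.ne' hk0]
      rfl
    have h2 : k.factorization 2 = 0 := by omega
    rcases (Nat.factorization_eq_zero_iff k 2).mp h2 with h | h | h
    · exact absurd Nat.prime_two h
    · exact h
    · exact absurd h hk0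
  have hχ1 : (χ : G → ℂ) 1 = (charDegree (χ : G → ℂ) : ℂ) :=
    Cfsg.Agent.Lib.Helper80.Integrality.apply_one_eq_charDegree
      (Cfsg.Agent.Lib.Helper80.Integrality.isCharacter_of_isIrrCharacter χ.2)
  have hd0 : (charDegree (χ : G → ℂ) : ℂ) ≠ 0 := Nat.cast_ne_zero.mpr hdpos.ne'
  have hkC : (k : ℂ) ≠ 0 := Nat.cast_ne_zero.mpr hk0
  have hGC : (Nat.card G : ℂ) = (charDegree (χ : G → ℂ) : ℂ) * k := by
    rw [hk]; push_cast; ring
  -- the coefficients
  have hcoef : ∀ g : G, blockCoeff B g = conj ((χ : G → ℂ) g) / k := by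
    intro g
    rw [hBχ, Cfsg.Agent.Lib.CT.DefectZeroBlock.blockCoeff_singleton, hχ1, hGC]
    field_simp
  have hint : ∀ g : G, IsIntegral ℤ (conj ((χ : G → ℂ) g)) := by
    intro g
    exact (Cfsg.Agent.Lib.Helper80.Integrality.isIntegral_irrCharacter χ g).map
      (starRingEnd ℂ).toIntAlgHom
  obtain ⟨γ, hγ⟩ : ∃ γ : G → AlgInt, ∀ g, (γ g : ℂ) = conj ((χ : G → ℂ) g) :=
    ⟨fun g => ⟨conj ((χ : G → ℂ) g), hint g⟩, fun g => rfl⟩
  have hγconv : ∀ g : G, ∑ y : G, γ y * γ (y⁻¹ * g) = (k : AlgInt) * γ g := by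
    intro g
    apply Subtype.ext
    have h := Cfsg.Agent.Lib.Helper17.BrBridge.blockCoeff_idem B g
    simp only [hcoef] at h
    push_cast
    simp only [hγ]
    have h' : ∑ y : G, conj ((χ : G → ℂ) y) * conj ((χ : G → ℂ) (y⁻¹ * g))
        = (k : ℂ) ^ 2 * ∑ y : G, conj ((χ : G → ℂ) y) / k * (conj ((χ : G → ℂ) (y⁻¹ * g)) / k) := by
      rw [Finset.mul_sum]
      refine Finset.sum_congr rfl fun y _ => ?_
      field_simp
    rw [h', h]
    field_simp
  -- reduction modulo M
  obtain ⟨c, hc⟩ : ∃ c : G → AlgInt ⧸ M, c = fun g => Ideal.Quotient.mk M (γ g) := ⟨_, rfl⟩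
  have h2F : (2 : AlgInt ⧸ M) = 0 := by
    have h : (Ideal.Quotient.mk M (2 : AlgInt)) = 0 := Ideal.Quotient.eq_zero_iff_mem.mpr h2M
    rw [map_ofNat] at h
    exact h
  have hkF : Ideal.Quotient.mk M (k : AlgInt) = 1 := by
    obtain ⟨j, hj⟩ : ∃ j, k = 2 * j + 1 := by
      have : k % 2 = 1 := by omega
      exact ⟨k / 2, by omega⟩
    rw [hj]
    push_cast
    rw [map_add, map_mul, map_one]
    have : (Ideal.Quotient.mk M (2 : AlgInt)) = 0 := Ideal.Quotient.eq_zero_iff_mem.mpr h2M
    rw [this, zero_mul, zero_add]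
  have hccl : ∀ g x : G, c (x * g * x⁻¹) = c g := by
    intro g x
    rw [hc]
    show Ideal.Quotient.mk M (γ (x * g * x⁻¹)) = Ideal.Quotient.mk M (γ g)
    congr 1
    apply Subtype.ext
    rw [hγ, hγ, Cfsg.Agent.Lib.CT.Orth.irr_isClassFunction χ g x]
  have hcconv : ∀ g : G, ∑ x : G, c x * c (x⁻¹ * g) = c g := by
    intro g
    rw [hc]
    show ∑ x : G, Ideal.Quotient.mk M (γ x) * Ideal.Quotient.mk M (γ (x⁻¹ * g))
      = Ideal.Quotient.mk M (γ g)
    simp only [← map_mul]
    rw [← map_sum, hγconv g, map_mul, hkF, one_mul]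
  -- vanishing off the classes of odd order with odd centraliser
  have hvan2 : ∀ g : G, 2 ∣ orderOf g → c g = 0 := by
    intro g hg
    have h0 : (χ : G → ℂ) g = 0 := by
      refine Cfsg.Agent.S4478.vanish χ 2 Nat.prime_two ?_ g hg
      rw [← hχdef]
      exact Nat.ordProj_dvd _ _
    rw [hc]
    show Ideal.Quotient.mk M (γ g) = 0
    have : γ g = 0 := by
      apply Subtype.ext
      rw [hγ, h0]
      simp
    rw [this, map_zero]
  have hvanC : ∀ g u : G, orderOf u = 2 → Commute u g → c g = 0 := by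
    intro g u hu hug
    have hmem : u ∈ Subgroup.centralizer ({g} : Set G) := by
      rw [Subgroup.mem_centralizer_iff]
      intro x hx
      rw [Set.mem_singleton_iff] at hx
      rw [hx]
      exact hug.eq.symm
    have h2C : 2 ∣ Nat.card (Subgroup.centralizer ({g} : Set G)) := by
      have h := Subgroup.orderOf_dvd_natCard (Subgroup.centralizer ({g} : Set G)) hmem
      rwa [hu] at h
    obtain ⟨e, he⟩ := h2C
    have hidx : (Subgroup.centralizer ({g} : Set G)).index
        * Nat.card (Subgroup.centralizer ({g} : Set G)) = Nat.card G :=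
      Subgroup.index_mul_card _
    have hω := Cfsg.Agent.Lib.Helper80.Integrality.isIntegral_centralChar χ g
    have hωc : IsIntegral ℤ (conj (centralChar (χ : G → ℂ) g)) :=
      hω.map (starRingEnd ℂ).toIntAlgHom
    obtain ⟨ω, hωdef⟩ : ∃ ω : AlgInt, (ω : ℂ) = conj (centralChar (χ : G → ℂ) g) :=
      ⟨⟨_, hωc⟩, rfl⟩
    have hidxC : ((Subgroup.centralizer ({g} : Set G)).index : ℂ)
        * ((2 * e : ℕ) : ℂ) = (charDegree (χ : G → ℂ) : ℂ) * k := by
      rw [← he, ← hGC, ← hidx]
      push_cast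
      ring
    have hrel : (k : AlgInt) * γ g = 2 * ((e : AlgInt) * ω) := by
      apply Subtype.ext
      push_cast
      rw [hγ, hωdef]
      unfold centralChar
      rw [hχ1]
      simp only [map_div₀, map_mul, Complex.conj_natCast]
      have hi0 : ((Subgroup.centralizer ({g} : Set G)).index : ℂ) ≠ 0 := by
        intro h0
        rw [h0, zero_mul] at hidxC
        exact mul_ne_zero hd0 hkC hidxC.symm
      have hkk : (k : ℂ) = ((Subgroup.centralizer ({g} : Set G)).index : ℂ) * (2 * e)
          / (charDegree (χ : G → ℂ) : ℂ) := by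
        rw [eq_div_iff hd0]
        push_cast at hidxC
        rw [mul_comm, ← hidxC]
      have h2c : ((2 : AlgInt) : ℂ) = 2 := rfl
      rw [hkk, h2c]
      field_simp
    have h3 : Ideal.Quotient.mk M ((k : AlgInt) * γ g) = 0 := by
      rw [hrel, map_mul]
      have : (Ideal.Quotient.mk M (2 : AlgInt)) = 0 := Ideal.Quotient.eq_zero_iff_mem.mpr h2M
      rw [this, zero_mul]
    rw [map_mul, hkF, one_mul] at h3
    rw [hc]
    exact h3
  have hvan : ∀ g : G, lab g = none → c g = 0 := by
    intro g hg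
    by_cases hodd : Odd (orderOf g)
    · by_contra hne
      apply hcompl g hodd _ hg
      intro u hu hug
      exact hne (hvanC g u hu hug)
    · apply hvan2
      rw [Nat.not_odd_iff_even] at hodd
      exact hodd.two_dvd
  have hconjc : ∀ g h : G, IsConj g h → c g = c h := by
    intro g h hgh
    obtain ⟨x, hx⟩ := isConj_iff.mp hgh
    rw [← hx, hccl]
  -- the values at the representatives vanish
  have hr : ∀ i : ι, c (r i) = 0 := by
    intro i
    obtain ⟨s, hs, hev⟩ := hpar i
    rw [← hs, core_square h2F c hccl hcconv s]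
    have hterm : ∀ u : G, c (u * s) ^ 2
        = ∑ j : ι, if lab (u * s) = some j then c (r j) ^ 2 else 0 := by
      intro u
      rcases hlab : lab (u * s) with _ | j
      · rw [hvan _ hlab]
        simp
      · rw [hconjc _ _ (hsound _ j hlab)]
        simp
    simp only [hterm]
    rw [Finset.sum_comm]
    refine Finset.sum_eq_zero fun j _ => ?_
    rw [← Finset.sum_filter, Finset.sum_const]
    obtain ⟨m, hm⟩ := hev j
    have hcardeq : ((Finset.univ.filter (fun u : G => u * u = 1)).filter
        (fun u => lab (u * s) = some j)).card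
        = Nat.card {u : G // u * u = 1 ∧ lab (u * s) = some j} := by
      rw [Nat.card_eq_fintype_card, Fintype.card_subtype, Finset.filter_filter]
    rw [hcardeq, hm, ← two_mul, mul_nsmul, two_nsmul, ← two_mul, h2F, zero_mul, smul_zero]
  have hall : ∀ g : G, c g = 0 := by
    intro g
    rcases hlab : lab g with _ | i
    · exact hvan g hlab
    · rw [hconjc _ _ (hsound g i hlab), hr i]
  -- contradiction with the defect class
  apply hg0
  have h0 : γ g0 ∈ M := by
    have := hall g0
    rw [hc] at this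
    exact Ideal.Quotient.eq_zero_iff_mem.mp this
  refine ⟨γ g0, (k : AlgInt), h0, ?_, ?_⟩
  · intro hkM
    have h1 : Ideal.Quotient.mk M (k : AlgInt) = 0 := Ideal.Quotient.eq_zero_iff_mem.mpr hkM
    rw [hkF] at h1
    exact one_ne_zero h1
  · rw [hcoef, hγ]
    push_cast
    rfl

end Cfsg.Agent.Lib.Helper3.InvParity
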