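-- S5006 (M24 has one 2-block): the class representatives built from helper35's elements
-- `r11 r15 r21 r23` (`Helper35.M24BlkElts`), their square roots, and explicit auxiliary elements.
import Cfsg.Agent.Lib.Helper3.M24BlkStmt
import Cfsg.Agent.Lib.Helper35.M24BlkElts
import Cfsg.Agent.Lib.Helper86.M24CenFive

set_option autoImplicit false

namespace Cfsg.Agent.Lib.Helper3.M24BlkH

open Cfsg Cfsg.Agent.Lib.Helper7.GolayBase Cfsg.Agent.Lib.Helper7.GolayPerm
  Cfsg.Agent.Lib.Helper86.TabGrp Cfsg.Agent.Lib.Helper35.PermTab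
  Cfsg.Agent.Lib.Helper35.M24BlkElts Cfsg.Agent.Lib.Helper86.M24CenFive
open Cfsg.Agent.Lib.Helper3.M24Blk (G24 mkG rep_mkG tab_mkG QA labP lab pk pkP labE dec tally
  S15f S21f S23f)

/-! ### Generalities on tables -/

theorem eq_of_rep {a b : Equiv.Perm GolayPt} {s t : List Nat} (ha : Rep a s) (hb : Rep b t)
    (h : s = t) : a = b := by
  subst h
  exact ha.ext hb

theorem pow_ne_one_of_rep {x : Equiv.Perm GolayPt} {w : List Nat} (h : Rep x w) {n : Nat}
    (hn : (powT w n == idT) = false) : x ^ n ≠ 1 := fun h1 => by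
  rw [powT_of_pow_eq_one h h1] at hn
  simp at hn

theorem pkP_of_rep {x : Equiv.Perm GolayPt} {w : List Nat} (h : Rep x w) : pkP x = pk w := by
  unfold pkP
  rw [← eq_tab_of_rep h]

theorem rep_mkG_inv (t t' : List Nat) (h1 : invOK t t' = true) (h2 : inM24T t' = true) :
    Rep (((mkG t t' h1 h2 : G24) : Equiv.Perm GolayPt))⁻¹ t' :=
  Cfsg.Agent.Lib.Helper86.TabGrp.rep_ofT_inv t t' h1

/-! ### Auxiliary explicit elements -/

def hn11T : List Nat := [19, 11, 18, 22, 1, 3, 10, 0, 23, 7, 16, 13, 21, 14, 6, 20, 8, 5, 2, 17, 9, 12, 15, 4]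
def hn11T' : List Nat := [7, 4, 18, 5, 23, 17, 14, 9, 16, 20, 6, 1, 21, 11, 13, 22, 10, 19, 2, 0, 15, 12, 3, 8]
def hn15T : List Nat := [2, 23, 1, 3, 8, 14, 6, 7, 16, 15, 20, 4, 22, 12, 5, 10, 11, 17, 13, 21, 9, 19, 18, 0]
def hn15T' : List Nat := [23, 2, 0, 3, 11, 14, 6, 7, 4, 20, 15, 16, 13, 18, 5, 9, 8, 17, 22, 21, 10, 19, 12, 1]
def hn21T : List Nat := [2, 14, 23, 1, 18, 5, 21, 20, 12, 8, 16, 15, 19, 9, 3, 10, 6, 17, 4, 22, 7, 11, 13, 0]
def hn21T' : List Nat := [23, 3, 0, 14, 18, 5, 16, 20, 9, 13, 15, 21, 8, 22, 1, 11, 10, 17, 4, 12, 7, 6, 19, 2]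
def hn23T : List Nat := [2, 13, 8, 15, 14, 4, 6, 21, 5, 9, 1, 20, 23, 12, 10, 7, 22, 18, 19, 16, 17, 11, 3, 0]
def hn23T' : List Nat := [23, 10, 0, 22, 5, 8, 6, 15, 2, 9, 14, 21, 13, 1, 4, 3, 19, 20, 17, 18, 11, 7, 16, 12]
def hu5T : List Nat := [20, 15, 16, 21, 23, 17, 19, 14, 22, 18, 12, 13, 10, 11, 7, 1, 2, 5, 9, 6, 0, 3, 8, 4]
def hu7T : List Nat := [10, 13, 11, 8, 5, 4, 23, 7, 3, 9, 0, 2, 12, 1, 19, 15, 16, 20, 18, 14, 17, 21, 22, 6]

/-- `hn11 * r11 * hn11⁻¹ = r11 ^ 2`. -/
def hn11 : G24 := mkG hn11T hn11T' (by decide +kernel) (by decide +kernel)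
/-- `hn15 * r15 * hn15⁻¹ = r15 ^ 2`. -/
def hn15 : G24 := mkG hn15T hn15T' (by decide +kernel) (by decide +kernel)
/-- `hn21 * r21 * hn21⁻¹ = r21 ^ 2`. -/
def hn21 : G24 := mkG hn21T hn21T' (by decide +kernel) (by decide +kernel)
/-- `hn23 * r23 * hn23⁻¹ = r23 ^ 2`. -/
def hn23 : G24 := mkG hn23T hn23T' (by decide +kernel) (by decide +kernel)
/-- An involution commuting with `r15 ^ 3`. -/
def hu5 : G24 := mkG hu5T hu5T (by decide +kernel) (by decide +kernel)
/-- An involution commuting with `r21 ^ 3`. -/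
def hu7 : G24 := mkG hu7T hu7T (by decide +kernel) (by decide +kernel)

theorem norm11 : (hn11 : Equiv.Perm GolayPt) * r11 * (hn11 : Equiv.Perm GolayPt)⁻¹ = r11 ^ 2 :=
  eq_of_rep (((rep_mkG _ _ _ _).mul rep_r11).mul (rep_mkG_inv _ _ _ _)) (rep_pow rep_r11 2)
    (by decide +kernel)

theorem norm15 : (hn15 : Equiv.Perm GolayPt) * r15 ^ 3 * (hn15 : Equiv.Perm GolayPt)⁻¹ =
    (r15 ^ 3) ^ 2 :=
  eq_of_rep (((rep_mkG _ _ _ _).mul (rep_pow rep_r15 3)).mul (rep_mkG_inv _ _ _ _))
    (rep_pow (rep_pow rep_r15 3) 2) (by decide +kernel)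

theorem norm21 : (hn21 : Equiv.Perm GolayPt) * r21 * (hn21 : Equiv.Perm GolayPt)⁻¹ = r21 ^ 2 :=
  eq_of_rep (((rep_mkG _ _ _ _).mul rep_r21).mul (rep_mkG_inv _ _ _ _)) (rep_pow rep_r21 2)
    (by decide +kernel)

theorem norm23 : (hn23 : Equiv.Perm GolayPt) * r23 * (hn23 : Equiv.Perm GolayPt)⁻¹ = r23 ^ 2 :=
  eq_of_rep (((rep_mkG _ _ _ _).mul rep_r23).mul (rep_mkG_inv _ _ _ _)) (rep_pow rep_r23 2)
    (by decide +kernel)

theorem comm5 : (hu5 : Equiv.Perm GolayPt) * r15 ^ 3 = r15 ^ 3 * (hu5 : Equiv.Perm GolayPt) :=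
  eq_of_rep ((rep_mkG _ _ _ _).mul (rep_pow rep_r15 3)) ((rep_pow rep_r15 3).mul (rep_mkG _ _ _ _))
    (by decide +kernel)

theorem comm7 : (hu7 : Equiv.Perm GolayPt) * r21 ^ 3 = r21 ^ 3 * (hu7 : Equiv.Perm GolayPt) :=
  eq_of_rep ((rep_mkG _ _ _ _).mul (rep_pow rep_r21 3)) ((rep_pow rep_r21 3).mul (rep_mkG _ _ _ _))
    (by decide +kernel)

theorem ordu5 : orderOf (hu5 : Equiv.Perm GolayPt) = 2 := by
  refine orderOf_eq_prime ?_ ?_
  · exact pow_eq_one_of_rep (rep_mkG _ _ _ _) (by decide +kernel)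
  · intro h
    have := pow_ne_one_of_rep (rep_mkG hu5T hu5T (by decide +kernel) (by decide +kernel)) (n := 1)
      (by decide +kernel)
    exact this (by rw [pow_one]; exact h)

theorem ordu7 : orderOf (hu7 : Equiv.Perm GolayPt) = 2 := by
  refine orderOf_eq_prime ?_ ?_
  · exact pow_eq_one_of_rep (rep_mkG _ _ _ _) (by decide +kernel)
  · intro h
    have := pow_ne_one_of_rep (rep_mkG hu7T hu7T (by decide +kernel) (by decide +kernel)) (n := 1)
      (by decide +kernel)
    exact this (by rw [pow_one]; exact h)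

/-! ### Orders of helper35's elements -/

theorem ord11 : orderOf r11 = 11 := by
  have : Fact (Nat.Prime 11) := ⟨by norm_num⟩
  refine orderOf_eq_prime (pow_eq_one_of_rep rep_r11 (by decide +kernel)) ?_
  intro h
  exact pow_ne_one_of_rep rep_r11 (n := 1) (by decide +kernel) (by rw [pow_one]; exact h)

theorem ord23 : orderOf r23 = 23 := by
  have : Fact (Nat.Prime 23) := ⟨by norm_num⟩
  refine orderOf_eq_prime (pow_eq_one_of_rep rep_r23 (by decide +kernel)) ?_
  intro h
  exact pow_ne_one_of_rep rep_r23 (n := 1) (by decide +kernel) (by rw [pow_one]; exact h)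

theorem ord15 : orderOf r15 = 15 := by
  refine orderOf_eq_of_pow_and_pow_div_prime (by norm_num)
    (pow_eq_one_of_rep rep_r15 (by decide +kernel)) ?_
  intro p hp hpn
  rcases (Nat.Prime.dvd_mul hp).1 (show p ∣ 3 * 5 from hpn) with h | h
  · have : p = 3 := (Nat.prime_dvd_prime_iff_eq hp (by norm_num)).1 h
    subst this
    exact pow_ne_one_of_rep rep_r15 (n := 5) (by decide +kernel)
  · have : p = 5 := (Nat.prime_dvd_prime_iff_eq hp (by norm_num)).1 h
    subst this
    exact pow_ne_one_of_rep rep_r15 (n := 3) (by decide +kernel)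

theorem ord21 : orderOf r21 = 21 := by
  refine orderOf_eq_of_pow_and_pow_div_prime (by norm_num)
    (pow_eq_one_of_rep rep_r21 (by decide +kernel)) ?_
  intro p hp hpn
  rcases (Nat.Prime.dvd_mul hp).1 (show p ∣ 3 * 7 from hpn) with h | h
  · have : p = 3 := (Nat.prime_dvd_prime_iff_eq hp (by norm_num)).1 h
    subst this
    exact pow_ne_one_of_rep rep_r21 (n := 7) (by decide +kernel)
  · have : p = 7 := (Nat.prime_dvd_prime_iff_eq hp (by norm_num)).1 h
    subst this
    exact pow_ne_one_of_rep rep_r21 (n := 3) (by decide +kernel)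

theorem ord5 : orderOf (r15 ^ 3) = 5 := by
  rw [orderOf_pow' _ (by norm_num), ord15]; rfl

theorem ord7 : orderOf (r21 ^ 3) = 7 := by
  rw [orderOf_pow' _ (by norm_num), ord21]; rfl

/-! ### The representatives and their square roots -/

/-- helper35's elements, as elements of `↥M24`. -/
noncomputable def h11 : G24 := ⟨r11, r11_mem⟩
noncomputable def h15 : G24 := ⟨r15, r15_mem⟩
noncomputable def h21 : G24 := ⟨r21, r21_mem⟩
noncomputable def h23 : G24 := ⟨r23, r23_mem⟩

/-- The seven class representatives (classes 11A, 15A, 15B, 21A, 21B, 23A, 23B in the order of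
the labelling `lab`). -/
noncomputable def rElH : Fin 7 → G24 := ![h11, h15 ^ 11, h15, h21, h21⁻¹, h23⁻¹, h23]

/-- Square roots of the representatives. -/
noncomputable def sElH : Fin 7 → G24 :=
  ![h11 ^ 6, h15 ^ 13, h15 ^ 8, h21 ^ 11, h21 ^ 10, h23 ^ 11, h23 ^ 12]

theorem h11_pow : h11 ^ 11 = 1 := Subtype.ext (by
  simpa [h11] using (pow_eq_one_of_rep rep_r11 (n := 11) (by decide +kernel)))
theorem h15_pow : h15 ^ 15 = 1 := Subtype.ext (by
  simpa [h15] using (pow_eq_one_of_rep rep_r15 (n := 15) (by decide +kernel)))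
theorem h21_pow : h21 ^ 21 = 1 := Subtype.ext (by
  simpa [h21] using (pow_eq_one_of_rep rep_r21 (n := 21) (by decide +kernel)))
theorem h23_pow : h23 ^ 23 = 1 := Subtype.ext (by
  simpa [h23] using (pow_eq_one_of_rep rep_r23 (n := 23) (by decide +kernel)))

theorem sq_sElH (i : Fin 7) : sElH i * sElH i = rElH i := by
  fin_cases i
  · show h11 ^ 6 * h11 ^ 6 = h11
    rw [← pow_add, show 6 + 6 = 11 + 1 from rfl, pow_add, h11_pow, one_mul, pow_one]
  · show h15 ^ 13 * h15 ^ 13 = h15 ^ 11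
    rw [← pow_add, show 13 + 13 = 15 + 11 from rfl, pow_add, h15_pow, one_mul]
  · show h15 ^ 8 * h15 ^ 8 = h15
    rw [← pow_add, show 8 + 8 = 15 + 1 from rfl, pow_add, h15_pow, one_mul, pow_one]
  · show h21 ^ 11 * h21 ^ 11 = h21
    rw [← pow_add, show 11 + 11 = 21 + 1 from rfl, pow_add, h21_pow, one_mul, pow_one]
  · show h21 ^ 10 * h21 ^ 10 = h21⁻¹
    rw [← pow_add, eq_inv_iff_mul_eq_one, ← pow_succ]
    exact h21_pow
  · show h23 ^ 11 * h23 ^ 11 = h23⁻¹
    rw [← pow_add, eq_inv_iff_mul_eq_one, ← pow_succ]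
    exact h23_pow
  · show h23 ^ 12 * h23 ^ 12 = h23
    rw [← pow_add, show 12 + 12 = 23 + 1 from rfl, pow_add, h23_pow, one_mul, pow_one]

/-- The packed tables of the square roots. -/
def sLitH : Fin 7 → Nat := ![732984343092511778058238038712424751,
  848062973736967143348793832252790287, 350116388774167562709602934628633899,
  169692401914420244253457292862010694, 897518380800706734229495355018631692,
  498601267229416509846352416723881674, 417223199438220269205193124556215926]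

/-- The packed tables of the representatives. -/
def rLitH : Fin 7 → Nat := ![19039649627039763008933683808177217,
  480290802538160403946801979481926249, 646776901822395835156943733897433776,
  390904237357087887292442303398303218, 546579842555308833141034655891475723,
  262436254639888850064925006583890967, 25239130970351960334712850244602945]

/-- The packed table of the identity. -/
def idLit : Nat := 984818244535754528103549039458486304

theorem pkP_one : pkP (1 : Equiv.Perm GolayPt) = idLit :=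
  (pkP_of_rep rep_one).trans (by decide +kernel)

theorem pkP_sElH (i : Fin 7) : pkP ((sElH i : G24) : Equiv.Perm GolayPt) = sLitH i := by
  fin_cases i
  · exact (pkP_of_rep (rep_pow rep_r11 6)).trans (by decide +kernel)
  · exact (pkP_of_rep (rep_pow rep_r15 13)).trans (by decide +kernel)
  · exact (pkP_of_rep (rep_pow rep_r15 8)).trans (by decide +kernel)
  · exact (pkP_of_rep (rep_pow rep_r21 11)).trans (by decide +kernel)
  · exact (pkP_of_rep (rep_pow rep_r21 10)).trans (by decide +kernel)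
  · exact (pkP_of_rep (rep_pow rep_r23 11)).trans (by decide +kernel)
  · exact (pkP_of_rep (rep_pow rep_r23 12)).trans (by decide +kernel)

theorem pkP_rElH (i : Fin 7) : pkP ((rElH i : G24) : Equiv.Perm GolayPt) = rLitH i := by
  fin_cases i
  · exact (pkP_of_rep rep_r11).trans (by decide +kernel)
  · exact (pkP_of_rep (rep_pow rep_r15 11)).trans (by decide +kernel)
  · exact (pkP_of_rep rep_r15).trans (by decide +kernel)
  · exact (pkP_of_rep rep_r21).trans (by decide +kernel)
  · exact (pkP_of_rep rep_r21_inv).trans (by decide +kernel)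
  · exact (pkP_of_rep rep_r23_inv).trans (by decide +kernel)
  · exact (pkP_of_rep rep_r23).trans (by decide +kernel)

end Cfsg.Agent.Lib.Helper3.M24BlkH
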