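-- S5006: the two involution representatives and the elements of order 5 and 7.
import Cfsg.Agent.Lib.Helper3.M24Blk

set_option autoImplicit false

namespace Cfsg.Agent.Lib.Helper3.M24Blk

open Cfsg Cfsg.Agent.Lib.Helper7.GolayBase Cfsg.Agent.Lib.Helper86.TabGrp

/-- Table of the involution `tA` (fixes the octad `{0,1,2,3,5,14,17,23}` pointwise; it is the
central involution of the Sylow 2-subgroup `E ⊔ S` of `Helper35.M24MElts`). -/
def tAT : List Nat := [0, 1, 2, 3, 13, 5, 19, 21, 11, 15, 20, 8, 18, 4, 14, 9, 22, 17, 12, 6, 10, 7, 16, 23]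

/-- Table of the fixed-point-free involution `tB` (it lies in `E ⊔ S` of `Helper35.M24MElts`,
and 512 elements of `E ⊔ S` commute with it). -/
def tBT : List Nat := [23, 2, 1, 5, 22, 3, 21, 19, 18, 20, 15, 12, 11, 16, 17, 10, 13, 14, 8, 7, 9, 6, 4, 0]

/-- Involution with eight fixed points. -/
def tA : G24 := mkG tAT tAT (by decide +kernel) (by decide +kernel)

/-- Involution without fixed points. -/
def tB : G24 := mkG tBT tBT (by decide +kernel) (by decide +kernel)

/-- Order 5. -/
def r5 : G24 := r15 ^ 3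

/-- Order 7. -/
def r7 : G24 := r21 ^ 3

end Cfsg.Agent.Lib.Helper3.M24Blk
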