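-- S5006 data: the full sorted list `LL` of packed tables of the 43263 elements `u` of M24 with `u * u = 1`.
import Cfsg.Agent.Lib.Helper3.M24InvD0
import Cfsg.Agent.Lib.Helper3.M24InvD1
import Cfsg.Agent.Lib.Helper3.M24InvD2
import Cfsg.Agent.Lib.Helper3.M24InvD3
import Cfsg.Agent.Lib.Helper3.M24InvD4
import Cfsg.Agent.Lib.Helper3.M24InvD5
import Cfsg.Agent.Lib.Helper3.M24InvD6
import Cfsg.Agent.Lib.Helper3.M24InvD7
import Cfsg.Agent.Lib.Helper3.M24InvD8
import Cfsg.Agent.Lib.Helper3.M24InvD9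
import Cfsg.Agent.Lib.Helper3.M24InvD10
import Cfsg.Agent.Lib.Helper3.M24InvD11
import Cfsg.Agent.Lib.Helper3.M24InvD12
import Cfsg.Agent.Lib.Helper3.M24InvD13
import Cfsg.Agent.Lib.Helper3.M24InvD14
import Cfsg.Agent.Lib.Helper3.M24InvD15
import Cfsg.Agent.Lib.Helper3.M24InvD16
import Cfsg.Agent.Lib.Helper3.M24InvD17
import Cfsg.Agent.Lib.Helper3.M24InvD18
import Cfsg.Agent.Lib.Helper3.M24InvD19
import Cfsg.Agent.Lib.Helper3.M24InvD20
import Cfsg.Agent.Lib.Helper3.M24InvD21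

set_option autoImplicit false

namespace Cfsg.Agent.Lib.Helper3.M24InvD

/-- The 22 chunks. -/
def chunks : List (List Nat) :=
  [L0, L1, L2, L3, L4, L5, L6, L7, L8, L9, L10, L11, L12, L13, L14, L15, L16, L17, L18, L19, L20, L21]

/-- All packed tables: `LL = L0 ++ L1 ++ … ++ L21`. -/
def LL : List Nat := chunks.flatten

end Cfsg.Agent.Lib.Helper3.M24InvD
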