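-- S5006: kernel tallies of the evaluator `labE` over the involution chunks, for the square
-- root no. 0 of the representatives built from helper35's elements (see `M24BlkH`).
import Cfsg.Agent.Lib.Helper3.M24Blk
import Cfsg.Agent.Lib.Helper3.M24InvD0
import Cfsg.Agent.Lib.Helper3.M24InvD1
import Cfsg.Agent.Lib.Helper3.M24InvD2
import Cfsg.Agent.Lib.Helper3.M24InvD3
import Cfsg.Agent.Lib.Helper3.M24InvD4
import Cfsg.Agent.Lib.Helper3.M24InvD5
import Cfsg.Agent.Lib.Helper3.M24InvD6
import Cfsg.Agent.Lib.Helper3.M24InvD7
import Cfsg.Agent.Lib.Helper3.M24InvD8
import Cfsg.Agent.Lib.Helper3.M24InvD9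
import Cfsg.Agent.Lib.Helper3.M24InvD10
import Cfsg.Agent.Lib.Helper3.M24InvD11
import Cfsg.Agent.Lib.Helper3.M24InvD12
import Cfsg.Agent.Lib.Helper3.M24InvD13
import Cfsg.Agent.Lib.Helper3.M24InvD14
import Cfsg.Agent.Lib.Helper3.M24InvD15
import Cfsg.Agent.Lib.Helper3.M24InvD16
import Cfsg.Agent.Lib.Helper3.M24InvD17
import Cfsg.Agent.Lib.Helper3.M24InvD18
import Cfsg.Agent.Lib.Helper3.M24InvD19
import Cfsg.Agent.Lib.Helper3.M24InvD20
import Cfsg.Agent.Lib.Helper3.M24InvD21

set_option autoImplicit false
set_option maxRecDepth 1000000

namespace Cfsg.Agent.Lib.Helper3.M24TalH0

open Cfsg.Agent.Lib.Helper3.M24Blk Cfsg.Agent.Lib.Helper3.M24InvD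

/-- The packed table of the square root no. 0. -/
def S : Nat := 732984343092511778058238038712424751

theorem tal0 : tally S L0 0 = 1626560703939250078949232971796837437039182025 := by decide +kernel

theorem tal1 : tally S L1 0 = 1648861449137784505036524734130385604035215575 := by decide +kernel

theorem tal2 : tally S L2 0 = 1671162199653228378970742036569024014829224125 := by decide +kernel

theorem tal3 : tally S L3 0 = 1626560727865370482528268091518179399415365850 := by decide +kernel

theorem tal4 : tally S L4 0 = 1615410330010763109856221789766439637255979250 := by decide +kernel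

theorem tal5 : tally S L5 0 = 1651649042287605903531617609526226328281415900 := by decide +kernel

theorem tal6 : tally S L6 0 = 1647467663196704110295918960151301560806146250 := by decide +kernel

theorem tal7 : tally S L7 0 = 1697644327930348585619465831177302249356394700 := by decide +kernel

theorem tal8 : tally S L8 0 = 1653042833545586872529888440342314028817711300 := by decide +kernel

theorem tal9 : tally S L9 0 = 1668374607832645117453277582116392653457195200 := by decide +kernel

theorem tal10 : tally S L10 0 = 1565233670594026814715702032765299923511935200 := by decide +kernel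

theorem tal11 : tally S L11 0 = 1583353019421695502405701228178112877656277225 := by decide +kernel

theorem tal12 : tally S L12 0 = 1673949786156895854370145919016596787211272400 := by decide +kernel

theorem tal13 : tally S L13 0 = 1566627447230523915432840096508213726777704725 := by decide +kernel

theorem tal14 : tally S L14 0 = 1549901893648539198775073576582671929256706525 := by decide +kernel

theorem tal15 : tally S L15 0 = 1697644323942650654064594321707787353744998700 := by decide +kernel

theorem tal16 : tally S L16 0 = 1620985525614980327267316589275046943280595175 := by decide +kernel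

theorem tal17 : tally S L17 0 = 1626560694634664249660832618889612245302509775 := by decide +kernel

theorem tal18 : tally S L18 0 = 1542932922737046538269424968028182420604846325 := by decide +kernel

theorem tal19 : tally S L19 0 = 1611228960224480104832991918376762826850042050 := by decide +kernel

theorem tal20 : tally S L20 0 = 1568021290328434749552374319423662621132325125 := by decide +kernel

theorem tal21 : tally S L21 0 = 965901116798948796153578673143465568793264264 := by decide +kernel

end Cfsg.Agent.Lib.Helper3.M24TalH0
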