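-- S5006: kernel tallies of the evaluator `labE` over the involution chunks, for the square
-- root no. 1 of the representatives built from helper35's elements (see `M24BlkH`).
import Cfsg.Agent.Lib.Helper3.M24Blk
import Cfsg.Agent.Lib.Helper3.M24InvD0
import Cfsg.Agent.Lib.Helper3.M24InvD1
import Cfsg.Agent.Lib.Helper3.M24InvD2
import Cfsg.Agent.Lib.Helper3.M24InvD3
import Cfsg.Agent.Lib.Helper3.M24InvD4
import Cfsg.Agent.Lib.Helper3.M24InvD5
import Cfsg.Agent.Lib.Helper3.M24InvD6
import Cfsg.Agent.Lib.Helper3.M24InvD7
import Cfsg.Agent.Lib.Helper3.M24InvD8
import Cfsg.Agent.Lib.Helper3.M24InvD9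
import Cfsg.Agent.Lib.Helper3.M24InvD10
import Cfsg.Agent.Lib.Helper3.M24InvD11
import Cfsg.Agent.Lib.Helper3.M24InvD12
import Cfsg.Agent.Lib.Helper3.M24InvD13
import Cfsg.Agent.Lib.Helper3.M24InvD14
import Cfsg.Agent.Lib.Helper3.M24InvD15
import Cfsg.Agent.Lib.Helper3.M24InvD16
import Cfsg.Agent.Lib.Helper3.M24InvD17
import Cfsg.Agent.Lib.Helper3.M24InvD18
import Cfsg.Agent.Lib.Helper3.M24InvD19
import Cfsg.Agent.Lib.Helper3.M24InvD20
import Cfsg.Agent.Lib.Helper3.M24InvD21

set_option autoImplicit false
set_option maxRecDepth 1000000

namespace Cfsg.Agent.Lib.Helper3.M24TalH1

open Cfsg.Agent.Lib.Helper3.M24Blk Cfsg.Agent.Lib.Helper3.M24InvD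

/-- The packed table of the square root no. 1. -/
def S : Nat := 848062973736967143348793832252790287

theorem tal0 : tally S L0 0 = 1597291007767672084986241442033485086373970075 := by decide +kernel

theorem tal1 : tally S L1 0 = 1583353032713989404429596378092287956835369125 := by decide +kernel

theorem tal2 : tally S L2 0 = 1551295715478789423977440634475146952618016925 := by decide +kernel

theorem tal3 : tally S L3 0 = 1601472382870884820217643429756026036734132400 := by decide +kernel

theorem tal4 : tally S L4 0 = 1612622755470165343617374692398211711856804000 := by decide +kernel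

theorem tal5 : tally S L5 0 = 1565233681227871063428811203658156106965844150 := by decide +kernel

theorem tal6 : tally S L6 0 = 1600078582308304077792503635485664763658109100 := by decide +kernel

theorem tal7 : tally S L7 0 = 1605653775254071641902483876364933760196542625 := by decide +kernel

theorem tal8 : tally S L8 0 = 1607047571828970932284956822312460036659478700 := by decide +kernel

theorem tal9 : tally S L9 0 = 1629348317027512964271014258814428990630002850 := by decide +kernel

theorem tal10 : tally S L10 0 = 1615410364570710015026664688471182029831012525 := by decide +kernel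

theorem tal11 : tally S L11 0 = 1616804149182581428695418835300898864625615025 := by decide +kernel

theorem tal12 : tally S L12 0 = 1559658504232852125253495125322577931560550575 := by decide +kernel

theorem tal13 : tally S L13 0 = 1641892483543216504076200971140955731319062675 := by decide +kernel

theorem tal14 : tally S L14 0 = 1598684801684125525004893419192473856652607675 := by decide +kernel

theorem tal15 : tally S L15 0 = 1616804155828703660524893162106893820804202675 := by decide +kernel

theorem tal16 : tally S L16 0 = 1608441377708476334302569591018297398863593800 := by decide +kernel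

theorem tal17 : tally S L17 0 = 1556870897790745698173860650215461237116895625 := by decide +kernel

theorem tal18 : tally S L18 0 = 1569415062977236454119809062476158056101052600 := by decide +kernel

theorem tal19 : tally S L19 0 = 1549901920233113058767811223510144149851472050 := by decide +kernel

theorem tal20 : tally S L20 0 = 1600078586295988065141206596275920207937011900 := by decide +kernel

theorem tal21 : tally S L21 0 = 967294917361529538596852368543081245054074989 := by decide +kernel

end Cfsg.Agent.Lib.Helper3.M24TalH1
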