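-- S5006: kernel tallies of the evaluator `labE` over the involution chunks, for the square
-- root no. 2 of the representatives built from helper35's elements (see `M24BlkH`).
import Cfsg.Agent.Lib.Helper3.M24Blk
import Cfsg.Agent.Lib.Helper3.M24InvD0
import Cfsg.Agent.Lib.Helper3.M24InvD1
import Cfsg.Agent.Lib.Helper3.M24InvD2
import Cfsg.Agent.Lib.Helper3.M24InvD3
import Cfsg.Agent.Lib.Helper3.M24InvD4
import Cfsg.Agent.Lib.Helper3.M24InvD5
import Cfsg.Agent.Lib.Helper3.M24InvD6
import Cfsg.Agent.Lib.Helper3.M24InvD7
import Cfsg.Agent.Lib.Helper3.M24InvD8
import Cfsg.Agent.Lib.Helper3.M24InvD9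
import Cfsg.Agent.Lib.Helper3.M24InvD10
import Cfsg.Agent.Lib.Helper3.M24InvD11
import Cfsg.Agent.Lib.Helper3.M24InvD12
import Cfsg.Agent.Lib.Helper3.M24InvD13
import Cfsg.Agent.Lib.Helper3.M24InvD14
import Cfsg.Agent.Lib.Helper3.M24InvD15
import Cfsg.Agent.Lib.Helper3.M24InvD16
import Cfsg.Agent.Lib.Helper3.M24InvD17
import Cfsg.Agent.Lib.Helper3.M24InvD18
import Cfsg.Agent.Lib.Helper3.M24InvD19
import Cfsg.Agent.Lib.Helper3.M24InvD20
import Cfsg.Agent.Lib.Helper3.M24InvD21

set_option autoImplicit false
set_option maxRecDepth 1000000

namespace Cfsg.Agent.Lib.Helper3.M24TalH2

open Cfsg.Agent.Lib.Helper3.M24Blk Cfsg.Agent.Lib.Helper3.M24InvD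

/-- The packed table of the square root no. 2. -/
def S : Nat := 350116388774167562709602934628633899

theorem tal0 : tally S L0 0 = 1605653773924847449066950820369162384331243675 := by decide +kernel

theorem tal1 : tally S L1 0 = 1555477095898919212982339118792991715897639075 := by decide +kernel

theorem tal2 : tally S L2 0 = 1577777846414368157491152011475090614607937700 := by decide +kernel

theorem tal3 : tally S L3 0 = 1633529706752231117865513546733714207208898725 := by decide +kernel

theorem tal4 : tally S L4 0 = 1568021281023829905538820507529787766531424425 := by decide +kernel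

theorem tal5 : tally S L5 0 = 1554083297994795729738945653885272335681847475 := by decide +kernel

theorem tal6 : tally S L6 0 = 1601472393504703715903031958900595582114463950 := by decide +kernel

theorem tal7 : tally S L7 0 = 1584746827959691122555725134344083314500960575 := by decide +kernel

theorem tal8 : tally S L8 0 = 1629348328990554785141335623795779365063622825 := by decide +kernel

theorem tal9 : tally S L9 0 = 1633529696118404616278941486016823321858932900 := by decide +kernel

theorem tal10 : tally S L10 0 = 1566627477802785565632994037393131184325656750 := by decide +kernel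

theorem tal11 : tally S L11 0 = 1629348317027524373117953847129648148395327675 := by decide +kernel

theorem tal12 : tally S L12 0 = 1572202670748556932682685689776479918859747500 := by decide +kernel

theorem tal13 : tally S L13 0 = 1648861470405450184709626538736026534292750500 := by decide +kernel

theorem tal14 : tally S L14 0 = 1556870901778428418017034636774460613428510900 := by decide +kernel

theorem tal15 : tally S L15 0 = 1636317314523559202344080800453697325056917675 := by decide +kernel

theorem tal16 : tally S L16 0 = 1629348326332103864179949438450582953322873000 := by decide +kernel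

theorem tal17 : tally S L17 0 = 1584746833276579020445205566462317009685184675 := by decide +kernel

theorem tal18 : tally S L18 0 = 1569415070952601893418091486633518962090967400 := by decide +kernel

theorem tal19 : tally S L19 0 = 1547114319107931291457153060828797768394866875 := by decide +kernel

theorem tal20 : tally S L20 0 = 1569415074940285880869553261994967614921638075 := by decide +kernel

theorem tal21 : tally S L21 0 = 1000746017879357725154657840486932130195046514 := by decide +kernel

end Cfsg.Agent.Lib.Helper3.M24TalH2
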