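-- S5006: kernel tallies of the evaluator `labE` over the involution chunks, for the square
-- root no. 3 of the representatives built from helper35's elements (see `M24BlkH`).
import Cfsg.Agent.Lib.Helper3.M24Blk
import Cfsg.Agent.Lib.Helper3.M24InvD0
import Cfsg.Agent.Lib.Helper3.M24InvD1
import Cfsg.Agent.Lib.Helper3.M24InvD2
import Cfsg.Agent.Lib.Helper3.M24InvD3
import Cfsg.Agent.Lib.Helper3.M24InvD4
import Cfsg.Agent.Lib.Helper3.M24InvD5
import Cfsg.Agent.Lib.Helper3.M24InvD6
import Cfsg.Agent.Lib.Helper3.M24InvD7
import Cfsg.Agent.Lib.Helper3.M24InvD8
import Cfsg.Agent.Lib.Helper3.M24InvD9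
import Cfsg.Agent.Lib.Helper3.M24InvD10
import Cfsg.Agent.Lib.Helper3.M24InvD11
import Cfsg.Agent.Lib.Helper3.M24InvD12
import Cfsg.Agent.Lib.Helper3.M24InvD13
import Cfsg.Agent.Lib.Helper3.M24InvD14
import Cfsg.Agent.Lib.Helper3.M24InvD15
import Cfsg.Agent.Lib.Helper3.M24InvD16
import Cfsg.Agent.Lib.Helper3.M24InvD17
import Cfsg.Agent.Lib.Helper3.M24InvD18
import Cfsg.Agent.Lib.Helper3.M24InvD19
import Cfsg.Agent.Lib.Helper3.M24InvD20
import Cfsg.Agent.Lib.Helper3.M24InvD21

set_option autoImplicit false
set_option maxRecDepth 1000000

namespace Cfsg.Agent.Lib.Helper3.M24TalH3

open Cfsg.Agent.Lib.Helper3.M24Blk Cfsg.Agent.Lib.Helper3.M24InvD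

/-- The packed table of the square root no. 3. -/
def S : Nat := 169692401914420244253457292862010694

theorem tal0 : tally S L0 0 = 1655830453279991004434102928060369889467039875 := by decide +kernel

theorem tal1 : tally S L1 0 = 1679524985748847765192638528105856900079288450 := by decide +kernel

theorem tal2 : tally S L2 0 = 1570808882149005334586806151330263738909458575 := by decide +kernel

theorem tal3 : tally S L3 0 = 1658618057063638904462575073922742700813058275 := by decide +kernel

theorem tal4 : tally S L4 0 = 1647467671172096170358356083171402687111495875 := by decide +kernel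

theorem tal5 : tally S L5 0 = 1653042860130164535343862701582133384010793100 := by decide +kernel

theorem tal6 : tally S L6 0 = 1612622764774756243492459964073183996039659675 := by decide +kernel

theorem tal7 : tally S L7 0 = 1636317310535870144389350170039553800635678850 := by decide +kernel

theorem tal8 : tally S L8 0 = 1711582310959419523298836614705016379423064200 := by decide +kernel

theorem tal9 : tally S L9 0 = 1640498713552873326403977015922436080980197525 := by decide +kernel

theorem tal10 : tally S L10 0 = 1651649064884499578979963925442711358212669600 := by decide +kernel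

theorem tal11 : tally S L11 0 = 1671162212945533689835532144547444491998462100 := by decide +kernel

theorem tal12 : tally S L12 0 = 1658618027820616658994617542200753388356894875 := by decide +kernel

theorem tal13 : tally S L13 0 = 1655830463913811167762838162798519057110794375 := by decide +kernel

theorem tal14 : tally S L14 0 = 1669768419029066305646979477460966554508198025 := by decide +kernel

theorem tal15 : tally S L15 0 = 1678131201136980154439417308669719453175382150 := by decide +kernel

theorem tal16 : tally S L16 0 = 1625166932619714399728242359893759535434694800 := by decide +kernel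

theorem tal17 : tally S L17 0 = 1687887769185966792055561330489448264907096200 := by decide +kernel

theorem tal18 : tally S L18 0 = 1711582321593230812983909600529469839934226725 := by decide +kernel

theorem tal19 : tally S L19 0 = 1547114328412533600205774261180485101515964600 := by decide +kernel

theorem tal20 : tally S L20 0 = 1648861453125471027806111845567752559507013750 := by decide +kernel

theorem tal21 : tally S L21 0 = 1031409538539635597566729234961469782500573264 := by decide +kernel

end Cfsg.Agent.Lib.Helper3.M24TalH3
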