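-- S5006: kernel tallies of the evaluator `labE` over the involution chunks, for the square
-- root no. 4 of the representatives built from helper35's elements (see `M24BlkH`).
import Cfsg.Agent.Lib.Helper3.M24Blk
import Cfsg.Agent.Lib.Helper3.M24InvD0
import Cfsg.Agent.Lib.Helper3.M24InvD1
import Cfsg.Agent.Lib.Helper3.M24InvD2
import Cfsg.Agent.Lib.Helper3.M24InvD3
import Cfsg.Agent.Lib.Helper3.M24InvD4
import Cfsg.Agent.Lib.Helper3.M24InvD5
import Cfsg.Agent.Lib.Helper3.M24InvD6
import Cfsg.Agent.Lib.Helper3.M24InvD7
import Cfsg.Agent.Lib.Helper3.M24InvD8
import Cfsg.Agent.Lib.Helper3.M24InvD9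
import Cfsg.Agent.Lib.Helper3.M24InvD10
import Cfsg.Agent.Lib.Helper3.M24InvD11
import Cfsg.Agent.Lib.Helper3.M24InvD12
import Cfsg.Agent.Lib.Helper3.M24InvD13
import Cfsg.Agent.Lib.Helper3.M24InvD14
import Cfsg.Agent.Lib.Helper3.M24InvD15
import Cfsg.Agent.Lib.Helper3.M24InvD16
import Cfsg.Agent.Lib.Helper3.M24InvD17
import Cfsg.Agent.Lib.Helper3.M24InvD18
import Cfsg.Agent.Lib.Helper3.M24InvD19
import Cfsg.Agent.Lib.Helper3.M24InvD20
import Cfsg.Agent.Lib.Helper3.M24InvD21

set_option autoImplicit false
set_option maxRecDepth 1000000

namespace Cfsg.Agent.Lib.Helper3.M24TalH4

open Cfsg.Agent.Lib.Helper3.M24Blk Cfsg.Agent.Lib.Helper3.M24InvD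

/-- The packed table of the square root no. 4. -/
def S : Nat := 897518380800706734229495355018631692

theorem tal0 : tally S L0 0 = 1655830453279991004477624216061330070484025475 := by decide +kernel

theorem tal1 : tally S L1 0 = 1679525009674928871664721742246338853936824450 := by decide +kernel

theorem tal2 : tally S L2 0 = 1570808854235244043819370298502254280370552975 := by decide +kernel

theorem tal3 : tally S L3 0 = 1658618054405185448216913353241087746321154275 := by decide +kernel

theorem tal4 : tally S L4 0 = 1647467684464363451742615968583030055742996675 := by decide +kernel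

theorem tal5 : tally S L5 0 = 1653042849496350710315276681521227608972329100 := by decide +kernel

theorem tal6 : tally S L6 0 = 1612622766103982971673923670748623616784466075 := by decide +kernel

theorem tal7 : tally S L7 0 = 1636317298572829591222821731304160889295339650 := by decide +kernel

theorem tal8 : tally S L8 0 = 1711582330897820445364346120822187975208075400 := by decide +kernel

theorem tal9 : tally S L9 0 = 1640498686968338763770856807768848678677119125 := by decide +kernel

theorem tal10 : tally S L10 0 = 1651649068872179763439730318800499406080573600 := by decide +kernel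

theorem tal11 : tally S L11 0 = 1671162224908574243084267460617968774442647700 := by decide +kernel

theorem tal12 : tally S L12 0 = 1658618047759017581060127048317943675821752475 := by decide +kernel

theorem tal13 : tally S L13 0 = 1655830449292317158338558756714564134832701575 := by decide +kernel

theorem tal14 : tally S L14 0 = 1669768412382932665032220713423514491801305225 := by decide +kernel

theorem tal15 : tally S L15 0 = 1678131201136980154505908165337831408812425350 := by decide +kernel

theorem tal16 : tally S L16 0 = 1625166948570435137385969233320971629002490000 := by decide +kernel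

theorem tal17 : tally S L17 0 = 1687887774502873704643598745188185049597477000 := by decide +kernel

theorem tal18 : tally S L18 0 = 1711582317605550628583380515839630602253893925 := by decide +kernel

theorem tal19 : tally S L19 0 = 1547114332400213784634108613204268403278217400 := by decide +kernel

theorem tal20 : tally S L20 0 = 1648861454454697755830415345573082687898386550 := by decide +kernel

theorem tal21 : tally S L21 0 = 1031409522588914859916255909534418635361091664 := by decide +kernel

end Cfsg.Agent.Lib.Helper3.M24TalH4
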