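-- S5006: kernel tallies of the evaluator `labE` over the involution chunks, for the square
-- root no. 5 of the representatives built from helper35's elements (see `M24BlkH`).
import Cfsg.Agent.Lib.Helper3.M24Blk
import Cfsg.Agent.Lib.Helper3.M24InvD0
import Cfsg.Agent.Lib.Helper3.M24InvD1
import Cfsg.Agent.Lib.Helper3.M24InvD2
import Cfsg.Agent.Lib.Helper3.M24InvD3
import Cfsg.Agent.Lib.Helper3.M24InvD4
import Cfsg.Agent.Lib.Helper3.M24InvD5
import Cfsg.Agent.Lib.Helper3.M24InvD6
import Cfsg.Agent.Lib.Helper3.M24InvD7
import Cfsg.Agent.Lib.Helper3.M24InvD8
import Cfsg.Agent.Lib.Helper3.M24InvD9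
import Cfsg.Agent.Lib.Helper3.M24InvD10
import Cfsg.Agent.Lib.Helper3.M24InvD11
import Cfsg.Agent.Lib.Helper3.M24InvD12
import Cfsg.Agent.Lib.Helper3.M24InvD13
import Cfsg.Agent.Lib.Helper3.M24InvD14
import Cfsg.Agent.Lib.Helper3.M24InvD15
import Cfsg.Agent.Lib.Helper3.M24InvD16
import Cfsg.Agent.Lib.Helper3.M24InvD17
import Cfsg.Agent.Lib.Helper3.M24InvD18
import Cfsg.Agent.Lib.Helper3.M24InvD19
import Cfsg.Agent.Lib.Helper3.M24InvD20
import Cfsg.Agent.Lib.Helper3.M24InvD21

set_option autoImplicit false
set_option maxRecDepth 1000000

namespace Cfsg.Agent.Lib.Helper3.M24TalH5

open Cfsg.Agent.Lib.Helper3.M24Blk Cfsg.Agent.Lib.Helper3.M24InvD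

/-- The packed table of the square root no. 5. -/
def S : Nat := 498601267229416509846352416723881674

theorem tal0 : tally S L0 0 = 1583353036701683532986727972152582571262214300 := by decide +kernel

theorem tal1 : tally S L1 0 = 1579171636343156624928566930869182210837053600 := by decide +kernel

theorem tal2 : tally S L2 0 = 1633529720044519949285798852146028162025783425 := by decide +kernel

theorem tal3 : tally S L3 0 = 1561052286186273885625970398354682994527043725 := by decide +kernel

theorem tal4 : tally S L4 0 = 1569415069623376433050433051481576086930718875 := by decide +kernel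

theorem tal5 : tally S L5 0 = 1611228972187526996316594547099068591605022875 := by decide +kernel

theorem tal6 : tally S L6 0 = 1620985536248843590734593474565846343457177750 := by decide +kernel

theorem tal7 : tally S L7 0 = 1574990250606118655756357379710615727455076500 := by decide +kernel

theorem tal8 : tally S L8 0 = 1634923503327144352386455128592563065310937300 := by decide +kernel

theorem tal9 : tally S L9 0 = 1565233673252532244640808765708152874347790575 := by decide +kernel

theorem tal10 : tally S L10 0 = 1653042856142502097979201155705360510996185350 := by decide +kernel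

theorem tal11 : tally S L11 0 = 1598684792379548569264650025569593068421644475 := by decide +kernel

theorem tal12 : tally S L12 0 = 1551295714149588048841831365761288099879452850 := by decide +kernel

theorem tal13 : tally S L13 0 = 1598684787062628980255235117503120185694879900 := by decide +kernel

theorem tal14 : tally S L14 0 = 1549901928208506386480848537866181715235438725 := by decide +kernel

theorem tal15 : tally S L15 0 = 1632135918152702337497363068667915958058221725 := by decide +kernel

theorem tal16 : tally S L16 0 = 1598684781745741082469722401564239377502044300 := by decide +kernel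

theorem tal17 : tally S L17 0 = 1552689508066033882978642668272894732922781850 := by decide +kernel

theorem tal18 : tally S L18 0 = 1528994956988014337222895405689451636861173900 := by decide +kernel

theorem tal19 : tally S L19 0 = 1577777847743588547368839737543648105639968975 := by decide +kernel

theorem tal20 : tally S L20 0 = 1594503425251645496796998885964466968728699075 := by decide +kernel

theorem tal21 : tally S L21 0 = 995170840884307095716753908055519407309324414 := by decide +kernel

end Cfsg.Agent.Lib.Helper3.M24TalH5
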