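-- S5006: kernel tallies of the evaluator `labE` over the involution chunks, for the square
-- root no. 6 of the representatives built from helper35's elements (see `M24BlkH`).
import Cfsg.Agent.Lib.Helper3.M24Blk
import Cfsg.Agent.Lib.Helper3.M24InvD0
import Cfsg.Agent.Lib.Helper3.M24InvD1
import Cfsg.Agent.Lib.Helper3.M24InvD2
import Cfsg.Agent.Lib.Helper3.M24InvD3
import Cfsg.Agent.Lib.Helper3.M24InvD4
import Cfsg.Agent.Lib.Helper3.M24InvD5
import Cfsg.Agent.Lib.Helper3.M24InvD6
import Cfsg.Agent.Lib.Helper3.M24InvD7
import Cfsg.Agent.Lib.Helper3.M24InvD8
import Cfsg.Agent.Lib.Helper3.M24InvD9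
import Cfsg.Agent.Lib.Helper3.M24InvD10
import Cfsg.Agent.Lib.Helper3.M24InvD11
import Cfsg.Agent.Lib.Helper3.M24InvD12
import Cfsg.Agent.Lib.Helper3.M24InvD13
import Cfsg.Agent.Lib.Helper3.M24InvD14
import Cfsg.Agent.Lib.Helper3.M24InvD15
import Cfsg.Agent.Lib.Helper3.M24InvD16
import Cfsg.Agent.Lib.Helper3.M24InvD17
import Cfsg.Agent.Lib.Helper3.M24InvD18
import Cfsg.Agent.Lib.Helper3.M24InvD19
import Cfsg.Agent.Lib.Helper3.M24InvD20
import Cfsg.Agent.Lib.Helper3.M24InvD21

set_option autoImplicit false
set_option maxRecDepth 1000000

namespace Cfsg.Agent.Lib.Helper3.M24TalH6

open Cfsg.Agent.Lib.Helper3.M24Blk Cfsg.Agent.Lib.Helper3.M24InvD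

/-- The packed table of the square root no. 6. -/
def S : Nat := 417223199438220269205193124556215926

theorem tal0 : tally S L0 0 = 1583353036701683532993981520152732522584735900 := by decide +kernel

theorem tal1 : tally S L1 0 = 1579171669573824828303382993063036039321354400 := by decide +kernel

theorem tal2 : tally S L2 0 = 1633529716056839764874389445455971693935722625 := by decide +kernel

theorem tal3 : tally S L3 0 = 1561052326063075729656648663253538628366762125 := by decide +kernel

theorem tal4 : tally S L4 0 = 1569415073611056617436455040171078038606315675 := by decide +kernel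

theorem tal5 : tally S L5 0 = 1611228964212166627510700679052636309652766875 := by decide +kernel

theorem tal6 : tally S L6 0 = 1620985552199564328345172285992028777899622550 := by decide +kernel

theorem tal7 : tally S L7 0 = 1574990282507560130973888228562878132914225300 := by decide +kernel

theorem tal8 : tally S L8 0 = 1634923508644051264921299857956811165100146900 := by decide +kernel

theorem tal9 : tally S L9 0 = 1565233705153973719863175313227183380036059375 := by decide +kernel

theorem tal10 : tally S L10 0 = 1653042872093222835592197816464910502894502150 := by decide +kernel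

theorem tal11 : tally S L11 0 = 1598684814976402947551642759034573620000063675 := by decide +kernel

theorem tal12 : tally S L12 0 = 1551295736746442427122779475892785436449308850 := by decide +kernel

theorem tal13 : tally S L13 0 = 1598684807001029902271178712285897863430406300 := by decide +kernel

theorem tal14 : tally S L14 0 = 1549901942830000395963156327951426407961198725 := by decide +kernel

theorem tal15 : tally S L15 0 = 1632135922140382521907563550691303490813165725 := by decide +kernel

theorem tal16 : tally S L16 0 = 1598684832256356751576134748525022748931522700 := by decide +kernel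

theorem tal17 : tally S L17 0 = 1552689526675208076867524166381418997424849050 := by decide +kernel

theorem tal18 : tally S L18 0 = 1528995000852496365640804583944511143028981900 := by decide +kernel

theorem tal19 : tally S L19 0 = 1577777843755908362970728502187208311222304975 := by decide +kernel

theorem tal20 : tally S L20 0 = 1594503368094896187026261863631802432204308675 := by decide +kernel

theorem tal21 : tally S L21 0 = 995170815628999261153876337241579976275263614 := by decide +kernel

end Cfsg.Agent.Lib.Helper3.M24TalH6
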