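import Cfsg.Agent.Lib.Helper68.MixStmt
import Cfsg.Agent.S1229

/-!
# S4017 piece A1T (helper3, second seat)
-/

set_option autoImplicit false

namespace Cfsg.Agent.Lib.Helper3.MixA1T

universe u

open Subgroup Cfsg.Agent.Lib.Helper68

theorem main (hEXP : MixStmt.EXP.{u}) (hNTOP : MixStmt.NTOP.{u}) (hINVN : MixStmt.INVN.{u})
    (hINVCONJ : MixStmt.INVCONJ.{u}) (hNCENT : MixStmt.NCENT.{u}) : MixStmt.A1T.{u} := by
  classical
  intro G _ _ p a Q y ctx hA hno
  have hexp := hEXP G p a Q y ctx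
  have hntop := hNTOP G p a Q y ctx
  have hinvn := hINVN G p a Q y ctx
  have hinvconj := hINVCONJ G p a Q y ctx
  have hncent := hNCENT G p a Q y ctx
  have ha := ctx.ha
  have h4 : 4 ≤ 2 ^ a := by
    calc 4 = 2 ^ 2 := by norm_num
      _ ≤ 2 ^ a := Nat.pow_le_pow_right (by norm_num) ha
  have hQN : Q ≤ normalizer (Q : Set G) := Subgroup.le_normalizer
  have h2N : 2 ∣ Nat.card (normalizer (Q : Set G)) := by
    have h1 : Nat.card Q ∣ Nat.card (normalizer (Q : Set G)) := Subgroup.card_dvd_of_le hQN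
    rw [ctx.hQ] at h1
    exact dvd_trans (dvd_pow_self 2 (by omega)) h1
  have hPQN := ctx.hE (normalizer (Q : Set G)) hntop h2N
  -- C ≤ Q
  have hCQ : ∀ c ∈ centralizer (Q : Set G), c ∈ Q := by
    intro c hc
    have hcN : c ∈ normalizer (Q : Set G) := Subgroup.centralizer_le_normalizer _ hc
    have hord : orderOf c ∣ Nat.card (normalizer (Q : Set G)) :=
      Subgroup.orderOf_dvd_natCard _ hcN
    have hpos : orderOf c ≠ 0 := (orderOf_pos c).ne'
    have hpow : orderOf c = 2 ^ (orderOf c).primeFactorsList.length := by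
      apply Nat.eq_prime_pow_of_unique_prime_dvd hpos
      intro r hr hrd
      rcases hPQN r hr (dvd_trans hrd hord) with h | h
      · exfalso
        have hpd : p ∣ orderOf c := h ▸ hrd
        have ho : orderOf (c ^ (orderOf c / p)) = p := orderOf_pow_orderOf_div hpos hpd
        have hmem : c ^ (orderOf c / p) ∈ centralizer (Q : Set G) := pow_mem hc _
        have h1 := hno _ hmem ⟨1, by rw [ho, pow_one]⟩
        rw [h1, orderOf_one] at ho
        exact ctx.hp.one_lt.ne ho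
      · exact h
    exact hinvn c hcN ⟨_, hpow⟩
  have hcent : ∀ t' ∈ Q, t' ≠ 1 → ∀ c : G, c * t' = t' * c → c ∈ Q := by
    intro t' ht' ht'1 c hct
    have hcN : c ∈ normalizer (Q : Set G) := by
      apply hA t' ht' ht'1
      rw [Subgroup.mem_centralizer_iff]
      intro z hz
      rw [Set.mem_singleton_iff] at hz
      rw [hz]
      exact hct.symm
    exact hCQ c (hncent c hcN t' ht' ht'1 hct)
  have hsq : ∀ t : G, orderOf t = 2 → ∀ c ∈ centralizer ({t} : Set G), c * c = 1 := by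
    intro t ht c hc
    obtain ⟨g, hg⟩ := hinvconj t ht
    have hg1 : g * t * g⁻¹ ≠ 1 := by
      intro h
      have h' : g * t = g := mul_inv_eq_one.mp h
      have h'' : t = 1 := mul_left_cancel (a := g) (by rw [h', mul_one])
      rw [h'', orderOf_one] at ht
      omega
    have hct : t * c = c * t := (Subgroup.mem_centralizer_iff.mp hc) t (Set.mem_singleton t)
    have hcomm : (g * c * g⁻¹) * (g * t * g⁻¹) = (g * t * g⁻¹) * (g * c * g⁻¹) := by
      calc (g * c * g⁻¹) * (g * t * g⁻¹) = g * (c * t) * g⁻¹ := by group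
        _ = g * (t * c) * g⁻¹ := by rw [hct]
        _ = (g * t * g⁻¹) * (g * c * g⁻¹) := by group
    have hmem := hcent _ hg hg1 _ hcomm
    have h1 := hexp _ hmem
    have h2 : g * (c * c) * g⁻¹ = 1 := by
      calc g * (c * c) * g⁻¹ = (g * c * g⁻¹) * (g * c * g⁻¹) := by group
        _ = 1 := h1
    have h3 : g * (c * c) = g := mul_inv_eq_one.mp h2
    exact mul_left_cancel (a := g) (by rw [h3, mul_one])
  have : Fact (Nat.Prime 2) := ⟨Nat.prime_two⟩
  have hcardQ : Nat.card Q = 2 ^ (Nat.card G).factorization 2 := by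
    rw [ctx.hfac]
    exact ctx.hQ
  obtain ⟨T, hT⟩ : ∃ T : Sylow 2 G, (T : Subgroup G) = Q := ⟨Sylow.ofCard Q hcardQ, rfl⟩
  subst hT
  have hnc : ¬ IsCyclic (T : Subgroup G) := by
    intro hcyc
    obtain ⟨g, hg⟩ := IsCyclic.exists_ofOrder_eq_natCard (α := (T : Subgroup G))
    have h1 : g * g = 1 := Subtype.ext (hexp g g.2)
    have h2 : orderOf g ∣ 2 := orderOf_dvd_of_pow_eq_one (by rw [pow_two]; exact h1)
    rw [hg, ctx.hQ] at h2
    have := Nat.le_of_dvd (by norm_num) h2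
    omega
  have hnn : ¬ (T : Subgroup G).Normal := by
    intro hn
    apply hntop
    exact Subgroup.normalizer_eq_top_iff.mpr hn
  have hC : ∀ t : G, orderOf t = 2 →
      IsMulCommutative (Subgroup.centralizer ({t} : Set G)) ∧
        ∀ c ∈ Subgroup.centralizer ({t} : Set G), c ^ 2 = 1 := by
    intro t ht
    have hs := hsq t ht
    refine ⟨⟨⟨fun c₁ c₂ => Subtype.ext ?_⟩⟩, fun c hc => by rw [pow_two]; exact hs c hc⟩
    have e1 : (c₁ : G)⁻¹ = c₁ := inv_eq_of_mul_eq_one_right (hs c₁ c₁.2)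
    have e2 : (c₂ : G)⁻¹ = c₂ := inv_eq_of_mul_eq_one_right (hs c₂ c₂.2)
    have e3 : ((c₁ : G) * c₂)⁻¹ = c₁ * c₂ :=
      inv_eq_of_mul_eq_one_right (hs _ (mul_mem c₁.2 c₂.2))
    show (c₁ : G) * c₂ = c₂ * c₁
    calc (c₁ : G) * c₂ = ((c₁ : G) * c₂)⁻¹ := e3.symm
      _ = (c₂ : G)⁻¹ * (c₁ : G)⁻¹ := mul_inv_rev _ _
      _ = c₂ * c₁ := by rw [e1, e2]
  obtain ⟨h1, h2, h3⟩ := Cfsg.Agent.S1229.result T hnc hnn hC
  refine ⟨⟨h1, h2⟩, ?_⟩
  obtain ⟨g₀, hg₀⟩ : ∃ g₀ : G, g₀ ∉ normalizer ((T : Subgroup G) : Set G) := by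
    by_contra hcon
    push Not at hcon
    exact hntop (eq_top_iff.mpr fun g _ => hcon g)
  obtain ⟨N, hN⟩ : ∃ N : Subgroup G, N = normalizer ((T : Subgroup G) : Set G) := ⟨_, rfl⟩
  rw [← hN] at h3 hg₀ hQN ⊢
  have hx₀ : (QuotientGroup.mk g₀ : G ⧸ N) ≠ QuotientGroup.mk 1 := by
    intro h
    rw [QuotientGroup.eq] at h
    apply hg₀
    have h5 : g₀⁻¹ ∈ N := by simpa using h
    exact inv_mem_iff.mp h5
  have hne : ∀ t : (T : Subgroup G),
      (t : G) • (QuotientGroup.mk g₀ : G ⧸ N) ≠ QuotientGroup.mk 1 := by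
    intro t h
    rw [MulAction.Quotient.smul_mk, QuotientGroup.eq] at h
    apply hg₀
    have h5 : ((t : G) * g₀)⁻¹ ∈ N := by simpa using h
    have h6 : (t : G) * g₀ ∈ N := inv_mem_iff.mp h5
    have h7 : (t : G) ∈ N := hQN t.2
    have h8 := mul_mem (inv_mem h7) h6
    simpa using h8
  let f : ↥(T : Subgroup G) → {x : G ⧸ N // x ≠ QuotientGroup.mk 1} :=
    fun t => ⟨(t : G) • (QuotientGroup.mk g₀ : G ⧸ N), hne t⟩
  have hf : Function.Bijective f := by
    constructor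
    · intro t₁ t₂ h
      have h' : (t₁ : G) • (QuotientGroup.mk g₀ : G ⧸ N)
          = (t₂ : G) • (QuotientGroup.mk g₀ : G ⧸ N) := congrArg Subtype.val h
      have hu := h3 _ _ hx₀ (hne t₂)
      exact Subtype.ext (hu.unique ⟨t₁.2, h'⟩ ⟨t₂.2, rfl⟩)
    · rintro ⟨y', hy'⟩
      obtain ⟨t, ⟨htT, hty⟩, -⟩ := h3 _ y' hx₀ hy'
      exact ⟨⟨t, htT⟩, Subtype.ext hty⟩
  have hc1 : Nat.card (T : Subgroup G) = Nat.card {x : G ⧸ N // x ≠ QuotientGroup.mk 1} :=
    Nat.card_eq_of_bijective f hf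
  have hc2 : Nat.card (G ⧸ N) = Nat.card {x : G ⧸ N // x ≠ QuotientGroup.mk 1} + 1 := by
    rw [← Finite.card_option]
    exact Nat.card_congr (Equiv.optionSubtypeNe _).symm
  rw [hc2, ← hc1, ctx.hQ]

end Cfsg.Agent.Lib.Helper3.MixA1T
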