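import Mathlib
import Cfsg.Prelude.Def_Characters
import Cfsg.Agent.Lib.Helper3.Irr
import Cfsg.Agent.Lib.Helper3.MGroup
import Cfsg.Agent.Lib.CT.Ops
import Cfsg.Agent.Lib.CT.Kernel
import Cfsg.Agent.Lib.CT.NormOne
import Cfsg.Agent.Lib.CT.Clifford
import Cfsg.Agent.Lib.CT.LinChar
import Cfsg.Agent.Lib.CT.FrobRec
import Cfsg.Agent.Lib.Helper15.CliffTools
import Cfsg.Agent.S0854
import Cfsg.Agent.Lib.Helper78.Gallagher

/-!
# Relative M-groups and groups with abelian Sylow subgroups

* `taunt`: in a group with abelian Sylow subgroups, a conjugation-invariant multiplicative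
  function on a subgroup of the commutator subgroup is trivial (transfer argument).
* `norm_restrict_of_induced`: if `ψ = η^H` restricts irreducibly to the normal subgroup `N`,
  then `η` restricts irreducibly to `N ∩ T`.
* `monomial_aux`: an irreducible character of a solvable group restricting irreducibly to a
  normal subgroup with abelian Sylow subgroups is monomial.
-/

set_option autoImplicit false
open Cfsg

namespace Cfsg.Agent.Lib.Helper3.RelM

open Cfsg.Agent.Lib.Helper3.Irr Cfsg.Agent.Lib.Helper3.MGroup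
open scoped ComplexConjugate commutatorElement

universe u

section Taunt

open scoped IsMulCommutative in
/-- For a Sylow subgroup `P` which is abelian, a conjugation-invariant multiplicative function
on a subgroup of the commutator subgroup has values of order dividing the index of `P`. -/
theorem taunt_aux {N : Type*} [Group N] [Finite N] {p : ℕ} [Fact p.Prime] (P : Sylow p N)
    (hab : ∀ a ∈ P, ∀ b ∈ P, a * b = b * a)
    (A : Subgroup N) (hA : A ≤ commutator N) (Φ : N → ℂ) (h1 : Φ 1 = 1)
    (hmul : ∀ b ∈ A, ∀ c ∈ A, Φ (b * c) = Φ b * Φ c)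
    (hconj : ∀ b ∈ A, ∀ x : N, x⁻¹ * b * x ∈ A ∧ Φ (x⁻¹ * b * x) = Φ b)
    (a : N) (ha : a ∈ A) : Φ a ^ (P : Subgroup N).index = 1 := by
  classical
  have hpow : ∀ k : ℕ, Φ (a ^ k) = Φ a ^ k := by
    intro k
    induction k with
    | zero => rw [pow_zero, pow_zero, h1]
    | succ k ih => rw [pow_succ, pow_succ, hmul _ (A.pow_mem ha k) _ ha, ih]
  haveI : IsMulCommutative (P : Subgroup N) :=
    ⟨⟨fun x y => Subtype.ext (hab x x.2 y y.2)⟩⟩
  have : Fintype (Quotient (MulAction.orbitRel (Subgroup.zpowers a) (N ⧸ (P : Subgroup N)))) :=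
    Fintype.ofFinite _
  have hV : MonoidHom.transfer (MonoidHom.id (P : Subgroup N)) a = 1 :=
    (Abelianization.commutator_subset_ker _) (hA ha)
  rw [MonoidHom.transfer_eq_prod_quotient_orbitRel_zpowers_quot] at hV
  -- the factors lie in `A`
  let PA : Subgroup (P : Subgroup N) := A.subgroupOf (P : Subgroup N)
  let F : PA →* ℂ :=
    { toFun := fun b => Φ ((b : (P : Subgroup N)) : N)
      map_one' := h1
      map_mul' := fun b c => hmul _ b.2 _ c.2 }
  have hmem : ∀ q : Quotient (MulAction.orbitRel (Subgroup.zpowers a) (N ⧸ (P : Subgroup N))),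
      q.out.out⁻¹ * a ^ Function.minimalPeriod (a • ·) q.out * q.out.out ∈ A :=
    fun q => (hconj _ (A.pow_mem ha _) _).1
  let y : Quotient (MulAction.orbitRel (Subgroup.zpowers a) (N ⧸ (P : Subgroup N))) → PA :=
    fun q => ⟨⟨q.out.out⁻¹ * a ^ Function.minimalPeriod (a • ·) q.out * q.out.out,
      QuotientGroup.out_conj_pow_minimalPeriod_mem (P : Subgroup N) a q.out⟩, hmem q⟩
  have hprod : ∏ q, y q = 1 := by
    apply Subtype.ext
    rw [← Subgroup.coe_subtype, map_prod]
    exact hV
  have h2 := congrArg F hprod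
  rw [map_prod, map_one] at h2
  have h3 : ∀ q, F (y q) = Φ a ^ Function.minimalPeriod (a • ·) q.out := by
    intro q
    show Φ (q.out.out⁻¹ * a ^ Function.minimalPeriod (a • ·) q.out * q.out.out) = _
    rw [(hconj _ (A.pow_mem ha _) _).2, hpow]
  rw [Finset.prod_congr rfl (fun q _ => h3 q), Finset.prod_pow_eq_pow_sum,
    ← Subgroup.index_eq_sum_minimalPeriod] at h2
  exact h2

/-- **Taunt's lemma** (character form): in a finite group with abelian Sylow subgroups, a
conjugation-invariant multiplicative function on a subgroup of the commutator subgroup is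
trivial. -/
theorem taunt {N : Type*} [Group N] [Finite N]
    (hab : ∀ (p : ℕ) [Fact p.Prime] (P : Sylow p N), ∀ a ∈ P, ∀ b ∈ P, a * b = b * a)
    (A : Subgroup N) (hA : A ≤ commutator N) (Φ : N → ℂ) (h1 : Φ 1 = 1)
    (hmul : ∀ b ∈ A, ∀ c ∈ A, Φ (b * c) = Φ b * Φ c)
    (hconj : ∀ b ∈ A, ∀ x : N, x⁻¹ * b * x ∈ A ∧ Φ (x⁻¹ * b * x) = Φ b)
    (a : N) (ha : a ∈ A) : Φ a = 1 := by
  have hpow : ∀ k : ℕ, Φ (a ^ k) = Φ a ^ k := by
    intro k
    induction k with
    | zero => rw [pow_zero, pow_zero, h1]
    | succ k ih => rw [pow_succ, pow_succ, hmul _ (A.pow_mem ha k) _ ha, ih]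
  have hcard : Φ a ^ Nat.card N = 1 := by
    rw [← hpow, pow_card_eq_one', h1]
  by_contra hne
  have hord : orderOf (Φ a) ≠ 1 := fun h => hne (orderOf_eq_one_iff.1 h)
  obtain ⟨q, hq, hqdvd⟩ := Nat.exists_prime_and_dvd hord
  haveI : Fact q.Prime := ⟨hq⟩
  let P : Sylow q N := default
  have h2 := taunt_aux P (hab q P) A hA Φ h1 hmul hconj a ha
  have h3 : orderOf (Φ a) ∣ (P : Subgroup N).index := orderOf_dvd_of_pow_eq_one h2
  exact P.not_dvd_index (hqdvd.trans h3)

end Taunt

section Norm

open Classical Cfsg.Agent.Lib.CT.FrobRec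

variable {H : Type u} [Group H] [Fintype H]

/-- The sum of `η°(g) conj(η°(z⁻¹ g z))` over `g ∈ N` is a natural number: it is a multiple of
an inner product of two characters of `N ∩ T ∩ zTz⁻¹`. -/
theorem exists_nat_inner (N T : Subgroup H) {η : T → ℂ} (hη : IsCharacter T η) (z : H) :
    ∃ k : ℕ, ∑ g : H, (if g ∈ N then extendByZero T η g
      * conj (extendByZero T η (z⁻¹ * g * z)) else 0) = (k : ℂ) := by
  let K : Subgroup H := N ⊓ T ⊓ T.comap (MulAut.conj z⁻¹).toMonoidHom
  have hK : ∀ g : H, g ∈ K ↔ g ∈ N ∧ g ∈ T ∧ z⁻¹ * g * z ∈ T := by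
    intro g
    show (g ∈ N ∧ g ∈ T) ∧ z⁻¹ * g * z⁻¹⁻¹ ∈ T ↔ _
    rw [inv_inv, and_assoc]
  have hKT : K ≤ T := fun g hg => ((hK g).1 hg).2.1
  let f : K →* T :=
    { toFun := fun g => ⟨z⁻¹ * g * z, ((hK g).1 g.2).2.2⟩
      map_one' := Subtype.ext (by simp)
      map_mul' := fun a b => Subtype.ext (by simp [mul_assoc]) }
  have hα : IsCharacter K (fun g : K => η (Subgroup.inclusion hKT g)) :=
    Cfsg.Agent.Lib.CT.Ops.isCharacter_comp_hom (Subgroup.inclusion hKT) hη
  have hβ : IsCharacter K (fun g : K => η (f g)) :=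
    Cfsg.Agent.Lib.CT.Ops.isCharacter_comp_hom f hη
  obtain ⟨m, hm⟩ := Cfsg.Agent.Lib.CT.Clifford.classInner_char_nat hα hβ
  unfold classInner at hm
  have hKne : (Nat.card K : ℂ) ≠ 0 := by exact_mod_cast Nat.card_pos.ne'
  have h1 : ∑ g : K, η (Subgroup.inclusion hKT g) * conj (η (f g)) = ((Nat.card K * m : ℕ) : ℂ) := by
    push_cast
    rw [← hm, ← mul_assoc, mul_inv_cancel₀ hKne, one_mul]
  refine ⟨Nat.card K * m, ?_⟩
  rw [← h1]
  have h2 : ∑ g ∈ Finset.univ.filter (fun g : H => g ∈ K),
      (if g ∈ N then extendByZero T η g * conj (extendByZero T η (z⁻¹ * g * z)) else 0)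
      = ∑ g : H, (if g ∈ N then extendByZero T η g
        * conj (extendByZero T η (z⁻¹ * g * z)) else 0) := by
    refine Finset.sum_filter_of_ne (fun g _ hg => ?_)
    rw [hK]
    by_cases hgN : g ∈ N
    · rw [if_pos hgN] at hg
      refine ⟨hgN, ?_, ?_⟩
      · apply extendByZero_ne_zero_mem T η
        intro h0
        apply hg
        rw [h0, zero_mul]
      · apply extendByZero_ne_zero_mem T η
        intro h0
        apply hg
        rw [h0, map_zero, mul_zero]
    · rw [if_neg hgN] at hg
      exact absurd rfl hg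
  rw [← h2]
  rw [Finset.sum_subtype (p := fun g : H => g ∈ K) (F := inferInstance)
    (Finset.univ.filter (fun g : H => g ∈ K)) (fun g => by simp)
    (fun g => if g ∈ N then extendByZero T η g
      * conj (extendByZero T η (z⁻¹ * g * z)) else 0)]
  refine Finset.sum_congr rfl (fun g _ => ?_)
  have hg := (hK g).1 g.2
  rw [if_pos hg.1, extendByZero_apply_of_mem T η hg.2.1, extendByZero_apply_of_mem T η hg.2.2]
  rfl

/-- If the character `η^H` induced from `T` restricts irreducibly to the normal subgroup `N`,
then `η` restricts irreducibly to `N ∩ T`. -/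
theorem norm_restrict_of_induced (N T : Subgroup H) [hN : N.Normal] {η : T → ℂ}
    (hη : IsCharacter T η) (hη1 : η 1 ≠ 0)
    (hres : classInner (fun x : N => indFun T η x) (fun x : N => indFun T η x) = 1) :
    classInner (fun x : N.subgroupOf T => η x) (fun x : N.subgroupOf T => η x) = 1 := by
  have hTne : (Nat.card T : ℂ) ≠ 0 := by exact_mod_cast Nat.card_pos.ne'
  have hNne : (Nat.card N : ℂ) ≠ 0 := by exact_mod_cast Nat.card_pos.ne'
  -- the sum over `N` of `|ψ|²`
  have h1 : ∑ g : H, (if g ∈ N then indFun T η g * conj (indFun T η g) else 0)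
      = (Nat.card N : ℂ) := by
    unfold classInner at hres
    have h2 : ∑ x : N, indFun T η x * conj (indFun T η x) = (Nat.card N : ℂ) := by
      have := congrArg (fun t => (Nat.card N : ℂ) * t) hres
      simp only [← mul_assoc, mul_inv_cancel₀ hNne, one_mul, mul_one] at this
      exact this
    rw [← h2, ← Finset.sum_filter]
    exact Finset.sum_subtype _ (fun g => by simp) _
  -- the numbers `c'(z)`
  choose k hk using fun z : H => exists_nat_inner N T hη z
  -- expansion of the sum
  have h3 : ∑ g : H, (if g ∈ N then indFun T η g * conj (indFun T η g) else 0)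
      = ((Nat.card T : ℂ)⁻¹) ^ 2 * ∑ x : H, ∑ y : H, ∑ g : H,
        (if g ∈ N then extendByZero T η (x⁻¹ * g * x)
          * conj (extendByZero T η (y⁻¹ * g * y)) else 0) := by
    have e1 : ∀ g : H, (if g ∈ N then indFun T η g * conj (indFun T η g) else 0)
        = ((Nat.card T : ℂ)⁻¹) ^ 2 * ∑ x : H, ∑ y : H,
          (if g ∈ N then extendByZero T η (x⁻¹ * g * x)
            * conj (extendByZero T η (y⁻¹ * g * y)) else 0) := by
      intro g
      by_cases hg : g ∈ N
      · simp only [if_pos hg]
        rw [indFun_apply, map_mul, map_inv₀, Complex.conj_natCast, map_sum, mul_mul_mul_comm,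
          Finset.sum_mul_sum, sq]
      · simp [if_neg hg]
    rw [Finset.sum_congr rfl (fun g _ => e1 g), ← Finset.mul_sum]
    congr 1
    rw [Finset.sum_comm]
    refine Finset.sum_congr rfl (fun x _ => ?_)
    rw [Finset.sum_comm]
  have h4 : ∀ x y : H, ∑ g : H, (if g ∈ N then extendByZero T η (x⁻¹ * g * x)
        * conj (extendByZero T η (y⁻¹ * g * y)) else 0) = (k (x⁻¹ * y) : ℂ) := by
    intro x y
    rw [← hk (x⁻¹ * y)]
    refine Fintype.sum_equiv (MulAut.conj x⁻¹).toEquiv _ _ (fun g => ?_)
    show _ = (if x⁻¹ * g * x⁻¹⁻¹ ∈ N then extendByZero T η (x⁻¹ * g * x⁻¹⁻¹)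
      * conj (extendByZero T η ((x⁻¹ * y)⁻¹ * (x⁻¹ * g * x⁻¹⁻¹) * (x⁻¹ * y))) else 0)
    rw [inv_inv]
    have e2 : (x⁻¹ * y)⁻¹ * (x⁻¹ * g * x) * (x⁻¹ * y) = y⁻¹ * g * y := by group
    rw [e2]
    have e3 : x⁻¹ * g * x ∈ N ↔ g ∈ N := by
      constructor
      · intro h
        have := hN.conj_mem _ h x
        have e4 : x * (x⁻¹ * g * x) * x⁻¹ = g := by group
        rwa [e4] at this
      · intro h
        have := hN.conj_mem _ h x⁻¹
        rwa [inv_inv] at this
    by_cases hg : g ∈ N
    · rw [if_pos hg, if_pos (e3.2 hg)]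
    · rw [if_neg hg, if_neg (fun h => hg (e3.1 h))]
  have h5 : ∑ x : H, ∑ y : H, (k (x⁻¹ * y) : ℂ) = ((Fintype.card H * ∑ z : H, k z : ℕ) : ℂ) := by
    have e5 : ∀ x : H, ∑ y : H, (k (x⁻¹ * y) : ℂ) = ∑ z : H, (k z : ℂ) := by
      intro x
      exact Fintype.sum_equiv (Equiv.mulLeft x⁻¹) _ _ (fun y => rfl)
    rw [Finset.sum_congr rfl (fun x _ => e5 x), Finset.sum_const, Finset.card_univ, nsmul_eq_mul]
    push_cast
    rfl
  rw [h1, Finset.sum_congr rfl (fun x _ => Finset.sum_congr rfl (fun y _ => h4 x y)), h5] at h3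
  -- in natural numbers
  have h6 : Nat.card N * Nat.card T ^ 2 = Fintype.card H * ∑ z : H, k z := by
    have : (Nat.card N : ℂ) * (Nat.card T : ℂ) ^ 2
        = ((Fintype.card H * ∑ z : H, k z : ℕ) : ℂ) := by
      rw [h3]
      field_simp
    exact_mod_cast this
  -- the restriction of `η` to `N ∩ T`
  have hηres : IsCharacter (N.subgroupOf T) (fun x : N.subgroupOf T => η x) :=
    Cfsg.Agent.Lib.CT.Ops.isCharacter_restrict (N.subgroupOf T) hη
  obtain ⟨m₀, hm₀⟩ := Cfsg.Agent.Lib.CT.Clifford.classInner_char_nat hηres hηres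
  have hm₀pos : m₀ ≠ 0 := by
    intro h0
    have := Cfsg.Agent.Lib.Helper78.Gallagher.classInner_self_ne_zero hηres hη1
    rw [hm₀, h0] at this
    exact this (by simp)
  have hN'ne : (Nat.card (N.subgroupOf T) : ℂ) ≠ 0 := by exact_mod_cast Nat.card_pos.ne'
  have h7 : ∑ x : N.subgroupOf T, η x * conj (η x)
      = ((Nat.card (N.subgroupOf T) * m₀ : ℕ) : ℂ) := by
    unfold classInner at hm₀
    push_cast
    rw [← hm₀, ← mul_assoc, mul_inv_cancel₀ hN'ne, one_mul]
  -- the value of `k` on `T`
  have h8 : ∀ z : H, z ∈ T → k z = Nat.card (N.subgroupOf T) * m₀ := by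
    intro z hz
    have e6 : (k z : ℂ) = ((Nat.card (N.subgroupOf T) * m₀ : ℕ) : ℂ) := by
      rw [← hk z, ← h7]
      have e7 : ∀ g : H, extendByZero T η (z⁻¹ * g * z) = extendByZero T η g := by
        intro g
        by_cases hg : g ∈ T
        · have hg' : z⁻¹ * g * z ∈ T := T.mul_mem (T.mul_mem (T.inv_mem hz) hg) hz
          rw [extendByZero_apply_of_mem T η hg, extendByZero_apply_of_mem T η hg']
          have hcl := IsCharacter.isClassFunction hη ⟨g, hg⟩ ⟨z, hz⟩⁻¹
          rw [← hcl]
          congr 1
          apply Subtype.ext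
          simp
        · have hg' : z⁻¹ * g * z ∉ T := by
            intro h
            apply hg
            have := T.mul_mem (T.mul_mem hz h) (T.inv_mem hz)
            have e8 : z * (z⁻¹ * g * z) * z⁻¹ = g := by group
            rwa [e8] at this
          rw [extendByZero_apply_of_not_mem T η hg, extendByZero_apply_of_not_mem T η hg']
      simp only [e7]
      -- reduce to a sum over `T`
      have e9 : ∑ g ∈ Finset.univ.filter (fun g : H => g ∈ T),
          (if g ∈ N then extendByZero T η g * conj (extendByZero T η g) else 0)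
          = ∑ g : H, (if g ∈ N then extendByZero T η g * conj (extendByZero T η g) else 0) := by
        refine Finset.sum_filter_of_ne (fun g _ hg => ?_)
        by_cases hgN : g ∈ N
        · rw [if_pos hgN] at hg
          apply extendByZero_ne_zero_mem T η
          intro h0
          apply hg
          rw [h0, zero_mul]
        · rw [if_neg hgN] at hg
          exact absurd rfl hg
      rw [← e9, Finset.sum_subtype (p := fun g : H => g ∈ T) (F := inferInstance)
        (Finset.univ.filter (fun g : H => g ∈ T)) (fun g => by simp)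
        (fun g => if g ∈ N then extendByZero T η g * conj (extendByZero T η g) else 0)]
      have e10 : ∀ t : T, (if (t : H) ∈ N then extendByZero T η (t : H)
          * conj (extendByZero T η (t : H)) else 0)
          = (if t ∈ N.subgroupOf T then η t * conj (η t) else 0) := by
        intro t
        rw [extendByZero_apply_coe, Subgroup.mem_subgroupOf]
      rw [Finset.sum_congr rfl (fun t _ => e10 t), ← Finset.sum_filter]
      exact Finset.sum_subtype _ (fun g => by simp) _
    exact_mod_cast e6
  -- lower bound for the sum of the `k z`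
  have h9 : Nat.card T * (Nat.card (N.subgroupOf T) * m₀) ≤ ∑ z : H, k z := by
    have e11 : ∑ z ∈ Finset.univ.filter (fun z : H => z ∈ T), k z
        = Nat.card T * (Nat.card (N.subgroupOf T) * m₀) := by
      rw [Finset.sum_congr rfl (fun z hz => h8 z (Finset.mem_filter.1 hz).2), Finset.sum_const,
        smul_eq_mul, Nat.card_eq_fintype_card (α := T), Fintype.card_subtype]
    rw [← e11]
    exact Finset.sum_le_sum_of_subset_of_nonneg (Finset.filter_subset _ _)
      (fun _ _ _ => Nat.zero_le _)
  -- index comparison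
  have h10 : Nat.card N * Nat.card T ≤ Fintype.card H * Nat.card (N.subgroupOf T) := by
    have e12 : N.relIndex T * Nat.card (N.subgroupOf T) = Nat.card T :=
      Subgroup.index_mul_card (N.subgroupOf T)
    have e13 : N.index * Nat.card N = Nat.card H := Subgroup.index_mul_card N
    have e14 : N.relIndex T ≤ N.index :=
      Nat.le_of_dvd (Nat.pos_of_ne_zero Subgroup.index_ne_zero_of_finite)
        (Subgroup.relIndex_dvd_index_of_normal N T)
    rw [← Nat.card_eq_fintype_card, ← e13, ← e12]
    calc Nat.card N * (N.relIndex T * Nat.card (N.subgroupOf T))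
        = N.relIndex T * (Nat.card N * Nat.card (N.subgroupOf T)) := by ring
      _ ≤ N.index * (Nat.card N * Nat.card (N.subgroupOf T)) := Nat.mul_le_mul_right _ e14
      _ = N.index * Nat.card N * Nat.card (N.subgroupOf T) := by ring
  have hTpos : 0 < Nat.card T := Nat.card_pos
  have hHpos : 0 < Fintype.card H := Fintype.card_pos
  have hN'pos : 0 < Nat.card (N.subgroupOf T) := Nat.card_pos
  have h11 : Fintype.card H * Nat.card (N.subgroupOf T) * m₀
      ≤ Fintype.card H * Nat.card (N.subgroupOf T) := by
    have e15 : Nat.card T * (Fintype.card H * Nat.card (N.subgroupOf T) * m₀)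
        ≤ Nat.card T * (Nat.card N * Nat.card T) := by
      calc Nat.card T * (Fintype.card H * Nat.card (N.subgroupOf T) * m₀)
          = Fintype.card H * (Nat.card T * (Nat.card (N.subgroupOf T) * m₀)) := by ring
        _ ≤ Fintype.card H * ∑ z : H, k z := Nat.mul_le_mul_left _ h9
        _ = Nat.card N * Nat.card T ^ 2 := h6.symm
        _ = Nat.card T * (Nat.card N * Nat.card T) := by ring
    exact (Nat.le_of_mul_le_mul_left e15 hTpos).trans h10
  have hm₀le : m₀ ≤ 1 := by
    by_contra hcon
    push Not at hcon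
    have : Fintype.card H * Nat.card (N.subgroupOf T) * 2
        ≤ Fintype.card H * Nat.card (N.subgroupOf T) * m₀ := Nat.mul_le_mul_left _ hcon
    have hpos : 0 < Fintype.card H * Nat.card (N.subgroupOf T) := Nat.mul_pos hHpos hN'pos
    omega
  have : m₀ = 1 := by omega
  rw [hm₀, this]
  simp

end Norm

section Main

open Classical Cfsg.Agent.Lib.CT.FrobRec

/-- Every `p`-subgroup of `N` is abelian, for every prime `p`. -/
def PAb {H : Type u} [Group H] (N : Subgroup H) : Prop :=
  ∀ (p : ℕ) [Fact p.Prime] (Q : Subgroup H), Q ≤ N → IsPGroup p Q →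
    ∀ a ∈ Q, ∀ b ∈ Q, a * b = b * a

/-- The derived series of the subgroup `N`, as subgroups of the ambient group. -/
def dser {H : Type u} [Group H] (N : Subgroup H) : ℕ → Subgroup H
  | 0 => N
  | (i + 1) => ⁅dser N i, dser N i⁆

theorem dser_normal {H : Type u} [Group H] (N : Subgroup H) [hN : N.Normal] (i : ℕ) :
    (dser N i).Normal := by
  induction i with
  | zero => exact hN
  | succ i ih =>
    haveI := ih
    show (⁅dser N i, dser N i⁆).Normal
    infer_instance

theorem dser_succ_le {H : Type u} [Group H] (N : Subgroup H) (i : ℕ) :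
    dser N (i + 1) ≤ dser N i := by
  show ⁅dser N i, dser N i⁆ ≤ dser N i
  rw [Subgroup.commutator_le]
  intro a ha b hb
  exact (dser N i).mul_mem ((dser N i).mul_mem ((dser N i).mul_mem ha hb) ((dser N i).inv_mem ha))
    ((dser N i).inv_mem hb)

theorem dser_anti {H : Type u} [Group H] (N : Subgroup H) {i j : ℕ} (h : i ≤ j) :
    dser N j ≤ dser N i :=
  antitone_nat_of_succ_le (dser_succ_le N) h

theorem dser_le_derivedSeries {H : Type u} [Group H] (N : Subgroup H) (i : ℕ) :
    dser N i ≤ derivedSeries H i := by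
  induction i with
  | zero => exact le_top
  | succ i ih => exact Subgroup.commutator_mono ih ih

theorem dser_eventually_bot {H : Type u} [Group H] [Group.IsSolvable H] (N : Subgroup H) :
    ∃ k, dser N k = ⊥ := by
  obtain ⟨k, hk⟩ := Group.IsSolvable.solvable (G := H)
  exact ⟨k, le_bot_iff.1 (hk ▸ dser_le_derivedSeries N k)⟩

/-- An irreducible character of a finite solvable group that restricts irreducibly to a normal
subgroup all of whose `p`-subgroups are abelian is monomial. -/
theorem monomial_aux : ∀ (n : ℕ) (H : Type u) [Group H] [Fintype H] [Group.IsSolvable H]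
    (N : Subgroup H) [N.Normal], Fintype.card H = n → PAb N → ∀ ψ : H → ℂ,
    IsIrrCharacter H ψ → classInner (fun x : N => ψ x) (fun x : N => ψ x) = 1 →
    ∃ (U : Subgroup H) (lam : U → ℂ), IsCharacter U lam ∧ lam 1 = 1 ∧ indFun U lam = ψ := by
  intro n
  induction n using Nat.strong_induction_on with
  | _ n ih =>
    intro H _ _ _ N hNn hcard hpab ψ hψ hres
    have hψc : IsCharacter H ψ := IsIrrCharacter.isCharacter hψ
    have hψ1 : ψ 1 ≠ 0 := IsIrrCharacter.apply_one_ne_zero hψ
    by_cases hind : ∃ (T : Subgroup H) (η : T → ℂ), T ≠ ⊤ ∧ IsIrrCharacter T η ∧ indFun T η = ψ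
    · -- induced from a proper subgroup
      obtain ⟨T, η, hT, hη, hηind⟩ := hind
      have hlt : Fintype.card T < n := by
        rw [← hcard]
        by_contra hcon
        push Not at hcon
        apply hT
        apply Subgroup.eq_top_of_card_eq
        rw [Nat.card_eq_fintype_card, Nat.card_eq_fintype_card]
        refine le_antisymm ?_ hcon
        have := Subgroup.card_le_card_group T
        rwa [Nat.card_eq_fintype_card, Nat.card_eq_fintype_card] at this
      have hpab' : PAb (N.subgroupOf T) := by
        intro p _ Q hQ hQp a ha b hb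
        have h1 := hpab p (Q.map T.subtype) (by
          rintro x ⟨y, hy, rfl⟩
          exact hQ hy) (hQp.map T.subtype) a ⟨a, ha, rfl⟩ b ⟨b, hb, rfl⟩
        exact Subtype.ext h1
      have hres' : classInner (fun x : N.subgroupOf T => η x) (fun x : N.subgroupOf T => η x)
          = 1 := by
        apply norm_restrict_of_induced N T (IsIrrCharacter.isCharacter hη)
          (IsIrrCharacter.apply_one_ne_zero hη)
        rw [hηind]
        exact hres
      obtain ⟨U', lam, hlam, hlam1, hlamind⟩ :=
        ih _ hlt T (N.subgroupOf T) rfl hpab' η hη hres'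
      refine ⟨U'.map T.subtype,
        fun t => lam ((U'.equivMapOfInjective T.subtype T.subtype_injective).symm t), ?_, ?_, ?_⟩
      · exact Cfsg.Agent.Lib.CT.Ops.isCharacter_comp_hom
          ((U'.equivMapOfInjective T.subtype T.subtype_injective).symm.toMonoidHom) hlam
      · show lam ((U'.equivMapOfInjective T.subtype T.subtype_injective).symm 1) = 1
        rw [map_one]
        exact hlam1
      · rw [← indFun_trans, hlamind, hηind]
    · -- the primitive case
      have hhom : ∀ M : Subgroup H, M.Normal → ∃ (φ : M → ℂ) (e : ℕ), IsIrrCharacter M φ ∧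
          0 < e ∧ (fun m : M => ψ m) = (e : ℂ) • φ := by
        intro M hM
        have hresM : IsCharacter M (fun m : M => ψ m) :=
          Cfsg.Agent.Lib.CT.Ops.isCharacter_restrict M hψc
        obtain ⟨φ, hφ, hcon⟩ : ∃ φ : M → ℂ, IsIrrCharacter M φ ∧
            classInner (fun m : M => ψ m) φ ≠ 0 := by
          by_contra hno
          push Not at hno
          have h0 := Cfsg.Agent.Lib.Helper15.CliffTools.char_eq_zero_of_no_constituent hresM hno
          exact hψ1 (congrFun h0 1)
        by_cases hT : inertia M φ = ⊤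
        · obtain ⟨e, he, hsm, -⟩ :=
            Cfsg.Agent.Lib.Helper15.CliffTools.restrict_eq_smul_of_invariant M hM hψ hφ
              (fun g n => (mem_inertia M φ g).1 (by rw [hT]; trivial) n) hcon
          exact ⟨φ, e, hφ, he, hsm⟩
        · exfalso
          obtain ⟨η, hη, hηind, -⟩ := Cfsg.Agent.S0854.result M φ hφ (inertia M φ)
            (fun g => mem_inertia M φ g)
            (le_inertia M φ (IsIrrCharacter.isClassFunction hφ)) ψ hψ hcon
          exact hind ⟨inertia M φ, η, hT, hη, hηind⟩
      obtain ⟨k, hk⟩ := dser_eventually_bot N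
      have step : ∀ i, 1 ≤ i → (∀ a ∈ dser N (i + 1), ψ a = ψ 1) →
          ∀ a ∈ dser N i, ψ a = ψ 1 := by
        intro i hi hker
        have hAn : (dser N i).Normal := dser_normal N i
        obtain ⟨φ, e, hφ, he, hsm⟩ := hhom (dser N i) hAn
        have hsm' : ∀ a : dser N i, ψ a = (e : ℂ) * φ a := fun a => congrFun hsm a
        have he0 : (e : ℂ) ≠ 0 := by exact_mod_cast he.ne'
        have hφ1 : φ 1 = 1 := by
          apply apply_one_eq_one_of_comm hφ
          intro a b
          have h1 : ψ ((⁅a, b⁆ : dser N i) : H) = ψ 1 := by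
            apply hker
            show ⁅(a : H), (b : H)⁆ ∈ ⁅dser N i, dser N i⁆
            exact Subgroup.commutator_mem_commutator a.2 b.2
          have h2 := hsm' ⁅a, b⁆
          have h3 := hsm' 1
          rw [h1] at h2
          rw [Subgroup.coe_one] at h3
          exact mul_left_cancel₀ he0 (h2.symm.trans h3)
        have hφc : IsCharacter (dser N i) φ := IsIrrCharacter.isCharacter hφ
        have hψe : ψ 1 = (e : ℂ) := by
          have h3 := hsm' 1
          rw [Subgroup.coe_one, hφ1, mul_one] at h3
          exact h3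
        have hcenter : ∀ a ∈ dser N i, ‖ψ a‖ = (ψ 1).re := by
          intro a ha
          have h1 := hsm' ⟨a, ha⟩
          rw [show ψ a = (e : ℂ) * φ ⟨a, ha⟩ from h1, norm_mul,
            Cfsg.Agent.Lib.CT.LinChar.linear_norm hφc hφ1, mul_one, hψe]
          simp
        have hΦ : ∀ a : N, (a : H) ∈ dser N i → ψ a / ψ 1 = 1 := by
          intro a ha
          refine taunt (N := N) ?_ ((dser N i).subgroupOf N) ?_ (fun x : N => ψ x / ψ 1)
            ?_ ?_ ?_ a ha
          · intro p _ P x hx y hy
            have := hpab p ((P : Subgroup N).map N.subtype) (by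
              rintro _ ⟨z, _, rfl⟩
              exact z.2) (P.isPGroup'.map N.subtype) x ⟨x, hx, rfl⟩ y ⟨y, hy, rfl⟩
            exact Subtype.ext this
          · intro x hx
            have hx' : (x : H) ∈ ⁅N, N⁆ := dser_anti N hi hx
            rw [← Subgroup.map_subtype_commutator] at hx'
            obtain ⟨y, hy, hyx⟩ := hx'
            have : y = x := Subtype.ext hyx
            rwa [← this]
          · show ψ ((1 : N) : H) / ψ 1 = 1
            rw [Subgroup.coe_one]
            exact div_self hψ1
          · intro b hb c hc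
            obtain ⟨ω, hω1, -, hω3⟩ :=
              Cfsg.Agent.Lib.CT.Kernel.exists_scalar_of_norm_eq hψc (hcenter b hb)
            show ψ ((b * c : N) : H) / ψ 1 = ψ b / ψ 1 * (ψ c / ψ 1)
            rw [Subgroup.coe_mul, hω1, hω3]
            field_simp
          · intro b hb x
            refine ⟨?_, ?_⟩
            · show ((x⁻¹ * b * x : N) : H) ∈ dser N i
              have := hAn.conj_mem _ hb (x : H)⁻¹
              simpa using this
            · show ψ ((x⁻¹ * b * x : N) : H) / ψ 1 = ψ b / ψ 1
              have := IsCharacter.isClassFunction hψc (b : H) (x : H)⁻¹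
              rw [inv_inv] at this
              rw [← this]
              rfl
        intro a ha
        have haN : a ∈ N := dser_anti N (Nat.zero_le i) ha
        have h := hΦ ⟨a, haN⟩ ha
        exact (div_eq_one_iff_eq hψ1).1 h
      have hD1 : ∀ a ∈ dser N 1, ψ a = ψ 1 := by
        have h : ∀ m : ℕ, (∀ a ∈ dser N (1 + m), ψ a = ψ 1) → ∀ a ∈ dser N 1, ψ a = ψ 1 := by
          intro m
          induction m with
          | zero => exact fun h => h
          | succ m ihm =>
            intro h
            exact ihm (step (1 + m) (by omega) h)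
        apply h k
        intro a ha
        have : a ∈ dser N k := dser_anti N (by omega : k ≤ 1 + k) ha
        rw [hk, Subgroup.mem_bot] at this
        rw [this]
      have hθ : IsIrrCharacter N (fun x : N => ψ x) :=
        Cfsg.Agent.Lib.CT.NormOne.irr_of_inner_self_eq_one
          (Cfsg.Agent.Lib.CT.Ops.isCharacter_restrict N hψc) hres
      have hθ1 : ψ 1 = 1 := by
        have := apply_one_eq_one_of_comm hθ (fun a b => by
          show ψ ((⁅a, b⁆ : N) : H) = ψ ((1 : N) : H)
          rw [Subgroup.coe_one]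
          apply hD1
          show ⁅(a : H), (b : H)⁆ ∈ ⁅N, N⁆
          exact Subgroup.commutator_mem_commutator a.2 b.2)
        exact this
      exact ⟨⊤, fun t => ψ t, Cfsg.Agent.Lib.CT.Ops.isCharacter_restrict ⊤ hψc, hθ1,
        indFun_top (IsCharacter.isClassFunction hψc)⟩

end Main

end Cfsg.Agent.Lib.Helper3.RelM
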