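import Mathlib
import Cfsg.Agent.Lib.Helper80.GaloisRat
import Cfsg.Agent.Lib.Helper76.GaloisConj

/-!
Galois theory of character fields inside a cyclotomic field.

* `finrank_cyc`: the `n`-th cyclotomic subfield of `ℂ` has degree `φ(n)`.
* `stab`: the subgroup of the Galois group of the `n`-th cyclotomic field fixing all values of a
  function `θ` with values in that field.
* `finrank_mul_card_stab`: `[ℚ(θ) : ℚ] * |stab θ| = φ(n)`.
* `mem_stab_iff_pow`: for a character `θ`, membership in `stab θ` in terms of power maps.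
-/

set_option autoImplicit false

namespace Cfsg.Agent.Lib.Helper3.SchurGal

open Cfsg Cfsg.Agent.Lib.Helper80.GaloisRat

/-- The degree of the `n`-th cyclotomic subfield of `ℂ`. -/
theorem finrank_cyc (n : ℕ) [NeZero n] : Module.finrank ℚ (cyc n) = n.totient := by
  have hζ := Complex.isPrimitiveRoot_exp n (NeZero.ne n)
  have halg : IsAlgebraic ℚ (Complex.exp (2 * Real.pi * Complex.I / (n : ℂ))) :=
    (hζ.isIntegral (NeZero.pos n)).tower_top.isAlgebraic
  haveI : IsCyclotomicExtension {n} ℚ (cyc n) := by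
    change IsCyclotomicExtension {n} ℚ (IntermediateField.adjoin ℚ
      {Complex.exp (2 * Real.pi * Complex.I / (n : ℂ))}).toSubalgebra
    rw [IntermediateField.adjoin_simple_toSubalgebra_of_isAlgebraic halg]
    exact hζ.adjoin_isCyclotomicExtension ℚ
  exact IsCyclotomicExtension.finrank (cyc n)
    (Polynomial.cyclotomic.irreducible_rat (NeZero.pos n))

theorem finiteDimensional_cyc (n : ℕ) [NeZero n] : FiniteDimensional ℚ (cyc n) :=
  Module.finite_of_finrank_pos (by
    rw [finrank_cyc]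
    exact Nat.totient_pos.2 (NeZero.pos n))

variable {Q : Type*}

/-- The subgroup of the Galois group of the `n`-th cyclotomic field fixing the values of `θ`. -/
def stab (n : ℕ) (θ : Q → ℂ) (h : ∀ g, θ g ∈ cyc n) : Subgroup (cyc n ≃ₐ[ℚ] cyc n) where
  carrier := {σ | ∀ g, σ ⟨θ g, h g⟩ = ⟨θ g, h g⟩}
  mul_mem' := fun {a b} ha hb g => by
    show a (b ⟨θ g, h g⟩) = _
    rw [hb g, ha g]
  one_mem' := fun g => rfl
  inv_mem' := fun {a} ha g => by
    show a.symm ⟨θ g, h g⟩ = ⟨θ g, h g⟩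
    rw [AlgEquiv.symm_apply_eq]
    exact (ha g).symm

theorem mem_stab (n : ℕ) (θ : Q → ℂ) (h : ∀ g, θ g ∈ cyc n) (σ : cyc n ≃ₐ[ℚ] cyc n) :
    σ ∈ stab n θ h ↔ ∀ g, σ ⟨θ g, h g⟩ = ⟨θ g, h g⟩ := Iff.rfl

/-- The degree of the field of values of `θ` times the order of its stabiliser is `φ(n)`. -/
theorem finrank_mul_card_stab (n : ℕ) [NeZero n] (θ : Q → ℂ) (h : ∀ g, θ g ∈ cyc n) :
    Module.finrank ℚ (IntermediateField.adjoin ℚ (Set.range θ)) * Nat.card (stab n θ h) =
      n.totient := by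
  haveI := isGalois_cyc n
  haveI : FiniteDimensional ℚ (cyc n) := finiteDimensional_cyc n
  obtain ⟨θ', hθ'⟩ : ∃ θ' : Q → cyc n, ∀ g, θ' g = ⟨θ g, h g⟩ := ⟨fun g => ⟨θ g, h g⟩, fun g => rfl⟩
  obtain ⟨K', hK'⟩ : ∃ K' : IntermediateField ℚ (cyc n),
      K' = IntermediateField.adjoin ℚ (Set.range θ') := ⟨_, rfl⟩
  obtain ⟨ι, hι⟩ : ∃ ι : cyc n →ₐ[ℚ] ℂ, ∀ x : cyc n, ι x = (x : ℂ) :=
    ⟨RingHom.toRatAlgHom (cyc n).val.toRingHom, fun x => rfl⟩
  have hmap : K'.map ι = IntermediateField.adjoin ℚ (Set.range θ) := by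
    rw [hK', IntermediateField.adjoin_map]
    congr 1
    ext x
    constructor
    · rintro ⟨y, ⟨g, rfl⟩, rfl⟩
      exact ⟨g, by rw [hι, hθ']⟩
    · rintro ⟨g, rfl⟩
      exact ⟨θ' g, ⟨g, rfl⟩, by rw [hι, hθ']⟩
  have hfin1 : Module.finrank ℚ (IntermediateField.adjoin ℚ (Set.range θ)) =
      Module.finrank ℚ K' := by
    rw [← hmap]
    exact (LinearEquiv.finrank_eq (IntermediateField.equivMap K' ι).toLinearEquiv).symm
  have hfix : K'.fixingSubgroup = stab n θ h := by
    ext σ
    rw [IntermediateField.mem_fixingSubgroup_iff, mem_stab]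
    constructor
    · intro hσ g
      have h1 := hσ (θ' g) (by
        rw [hK']
        exact IntermediateField.subset_adjoin ℚ _ (Set.mem_range_self g))
      rw [hθ'] at h1
      exact h1
    · intro hσ x hx
      have hle : K' ≤ IntermediateField.fixedField (stab n θ h) := by
        rw [hK', IntermediateField.adjoin_le_iff]
        rintro _ ⟨g, rfl⟩
        rw [SetLike.mem_coe, IntermediateField.mem_fixedField_iff]
        intro τ hτ
        rw [hθ']
        exact hτ g
      have h2 := hle hx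
      rw [IntermediateField.mem_fixedField_iff] at h2
      exact h2 σ hσ
  have h1 := IsGalois.card_fixingSubgroup_eq_finrank K'
  have h2 := Module.finrank_mul_finrank ℚ K' (cyc n)
  rw [hfin1, ← hfix, h1, h2, finrank_cyc]

/-- The order of the Galois group of the `n`-th cyclotomic field. -/
theorem card_gal (n : ℕ) [NeZero n] : Nat.card (cyc n ≃ₐ[ℚ] cyc n) = n.totient := by
  haveI := isGalois_cyc n
  haveI : FiniteDimensional ℚ (cyc n) := finiteDimensional_cyc n
  rw [IsGalois.card_aut_eq_finrank, finrank_cyc]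

/-- Membership in the stabiliser of a character in terms of power maps. -/
theorem mem_stab_iff_pow {G : Type*} [Group G] [Finite G] {θ : G → ℂ} (hθ : IsCharacter G θ)
    (n : ℕ) [NeZero n] (hn : ∀ g : G, orderOf g ∣ n) (σ : cyc n ≃ₐ[ℚ] cyc n) (j : ℕ)
    (hj : ∀ (η : ℂ) (hη : η ^ n = 1), ((σ ⟨η, root_mem n hη⟩ : cyc n) : ℂ) = η ^ j) :
    σ ∈ stab n θ (fun g => char_mem hθ n g (hn g)) ↔ ∀ g, θ (g ^ j) = θ g := by
  rw [mem_stab]
  constructor
  · intro h g
    rw [← galois_char hθ n hn σ j hj g, h g]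
  · intro h g
    apply Subtype.ext
    rw [galois_char hθ n hn σ j hj g, h g]

end Cfsg.Agent.Lib.Helper3.SchurGal
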