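import Mathlib
import Cfsg.Prelude.Def_Characters
import Cfsg.Agent.Lib.Helper3.FRep
import Cfsg.Agent.Lib.Helper3.BrauerGlobal
import Cfsg.Agent.Lib.Helper78.Gallagher
import Cfsg.Agent.Lib.CT.Clifford
import Cfsg.Agent.S0153

/-!
# Brauer's splitting field theorem

Let `F` be a subfield of `ℂ` (an `F`-algebra structure on `ℂ`) containing all roots of unity of
order dividing the exponent of the finite group `G`.  Then every complex representation of `G`
is equivalent to a matrix representation with entries in `F` (`realizable`).

* `exists_complex_rep`: base change of an `F`-representation to a complex matrix representation.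
* `fchar ρ`: the complex-valued character of an `F`-representation.
* `IsFChar F G χ`: `χ` is the character of an `F`-representation.
* `descent`: a character that is a difference of `F`-characters is an `F`-character.
* `isFChar_indFun`: monomial characters with values in `F` are `F`-characters.
* `isFChar_of_isCharacter`, `realizable`.
-/

set_option autoImplicit false
open Cfsg

namespace Cfsg.Agent.Lib.Helper3.Splitting

open Cfsg.Agent.Lib.Helper3.FRep Cfsg.Agent.Lib.Helper3.Irr
open scoped ComplexConjugate

universe u

section BaseChange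

variable {F : Type*} [Field F] [Algebra F ℂ]

/-- Base change of a representation over `F` to a complex matrix representation with entries
in the image of `F`. -/
theorem exists_complex_rep {G : Type*} [Group G] {V : Type*} [AddCommGroup V] [Module F V]
    [Module.Finite F V] (ρ : Representation F G V) :
    ∃ σ : Representation ℂ G (Fin (Module.finrank F V) → ℂ),
      (∀ g, σ.character g = algebraMap F ℂ (ρ.character g)) ∧
      ∀ g i j, LinearMap.toMatrix' (σ g) i j ∈ Set.range (algebraMap F ℂ) := by
  classical
  let b := Module.finBasis F V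
  let M : G → Matrix (Fin (Module.finrank F V)) (Fin (Module.finrank F V)) ℂ :=
    fun g => (LinearMap.toMatrix b b (ρ g)).map (algebraMap F ℂ)
  have hM1 : M 1 = 1 := by
    show (LinearMap.toMatrix b b (ρ 1)).map (algebraMap F ℂ) = 1
    rw [map_one, Module.End.one_eq_id, LinearMap.toMatrix_id,
      Matrix.map_one _ (map_zero _) (map_one _)]
  have hMmul : ∀ g h, M (g * h) = M g * M h := by
    intro g h
    show (LinearMap.toMatrix b b (ρ (g * h))).map (algebraMap F ℂ) = _
    rw [map_mul, Module.End.mul_eq_comp, LinearMap.toMatrix_comp b b b, Matrix.map_mul]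
  let σ : Representation ℂ G (Fin (Module.finrank F V) → ℂ) :=
    { toFun := fun g => Matrix.toLin' (M g)
      map_one' := by rw [hM1, Matrix.toLin'_one]; rfl
      map_mul' := fun g h => by rw [hMmul, Matrix.toLin'_mul]; rfl }
  have hσ : ∀ g, LinearMap.toMatrix' (σ g) = M g := fun g => LinearMap.toMatrix'_toLin' (M g)
  refine ⟨σ, ?_, ?_⟩
  · intro g
    unfold Representation.character
    rw [LinearMap.trace_eq_matrix_trace ℂ (Pi.basisFun ℂ _), LinearMap.toMatrix_eq_toMatrix', hσ,
      LinearMap.trace_eq_matrix_trace F b]
    show Matrix.trace ((LinearMap.toMatrix b b (ρ g)).map (algebraMap F ℂ)) = _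
    simp only [Matrix.trace, Matrix.diag_apply, Matrix.map_apply, map_sum]
  · intro g i j
    rw [hσ]
    exact ⟨_, rfl⟩

end BaseChange

section Descent

variable {F : Type} [Field F] [Algebra F ℂ]

/-- The complex-valued character of a representation over `F`. -/
noncomputable def fchar {G : Type*} [Group G] {V : Type*} [AddCommGroup V] [Module F V]
    (ρ : Representation F G V) : G → ℂ := fun g => algebraMap F ℂ (ρ.character g)

theorem fchar_apply {G : Type*} [Group G] {V : Type*} [AddCommGroup V] [Module F V]
    (ρ : Representation F G V) (g : G) : fchar ρ g = algebraMap F ℂ (ρ.character g) := rfl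

theorem fchar_isCharacter {G : Type u} [Group G] {V : Type*} [AddCommGroup V] [Module F V]
    [Module.Finite F V] (ρ : Representation F G V) : IsCharacter G (fchar ρ) := by
  obtain ⟨σ, h1, -⟩ := exists_complex_rep ρ
  exact ⟨_, σ, funext h1⟩

theorem fchar_prod {G : Type*} [Group G] {V W : Type*} [AddCommGroup V] [Module F V]
    [Module.Finite F V] [AddCommGroup W] [Module F W] [Module.Finite F W]
    (ρ : Representation F G V) (σ : Representation F G W) :
    fchar (ρ.prod σ) = fchar ρ + fchar σ := by
  funext g
  simp only [fchar_apply, Pi.add_apply, char_prod, map_add]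

theorem fchar_equiv {G : Type*} [Group G] {V W : Type*} [AddCommGroup V] [Module F V]
    [AddCommGroup W] [Module F W]
    {ρ : Representation F G V} {σ : Representation F G W} (e : ρ.Equiv σ) :
    fchar ρ = fchar σ := by
  funext g
  simp only [fchar_apply, Representation.char_iso e]

theorem fchar_one {G : Type*} [Group G] {V : Type*} [AddCommGroup V] [Module F V]
    [Module.Finite F V] (ρ : Representation F G V) : fchar ρ 1 = (Module.finrank F V : ℂ) := by
  rw [fchar_apply, Representation.char_one, map_natCast]

theorem fchar_of_subsingleton {G : Type*} [Group G] {V : Type*} [AddCommGroup V] [Module F V]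
    [Subsingleton V] (ρ : Representation F G V) : fchar ρ = 0 := by
  funext g
  have h : ρ g = 0 := LinearMap.ext (fun v => Subsingleton.elim _ _)
  simp only [fchar_apply, Representation.character, h, map_zero, Pi.zero_apply]

/-- `χ` is the character of a representation over `F`. -/
def IsFChar (F : Type) [Field F] [Algebra F ℂ] (G : Type u) [Group G] (χ : G → ℂ) : Prop :=
  ∃ (V : Type u) (_ : AddCommGroup V) (_ : Module F V) (_ : Module.Finite F V)
    (ρ : Representation F G V), χ = fchar ρ

theorem isFChar_zero {G : Type u} [Group G] : IsFChar F G (0 : G → ℂ) :=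
  ⟨PUnit.{u+1}, inferInstance, inferInstance, inferInstance, Representation.trivial F G PUnit.{u+1},
    (fchar_of_subsingleton _).symm⟩

theorem IsFChar.add {G : Type u} [Group G] {a b : G → ℂ} (ha : IsFChar F G a)
    (hb : IsFChar F G b) : IsFChar F G (a + b) := by
  obtain ⟨V, _, _, _, ρ, rfl⟩ := ha
  obtain ⟨W, _, _, _, σ, rfl⟩ := hb
  exact ⟨V × W, inferInstance, inferInstance, inferInstance, ρ.prod σ, (fchar_prod ρ σ).symm⟩

/-- A nonzero inner product of characters over `F` gives a nonzero intertwining map. -/
theorem exists_intertwining_ne_zero [CharZero F] {G : Type u} [Group G] [Fintype G]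
    {U V : Type*} [AddCommGroup U] [Module F U] [Module.Finite F U] [AddCommGroup V]
    [Module F V] [Module.Finite F V] (ρU : Representation F G U) (ρV : Representation F G V)
    (hne : classInner (fchar ρU) (fchar ρV) ≠ 0) :
    ∃ f : Representation.IntertwiningMap ρV ρU, f ≠ 0 := by
  have hinv : Invertible (Nat.card G : F) :=
    invertibleOfNonzero (Nat.cast_ne_zero.mpr Nat.card_pos.ne')
  have h1 := Representation.card_inv_mul_sum_char_mul_char_eq_finrank ρV ρU
  have h2 : classInner (fchar ρU) (fchar ρV)
      = algebraMap F ℂ ((Nat.card G : F)⁻¹ * ∑ g : G, ρU.character g * ρV.character g⁻¹) := by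
    unfold classInner
    rw [map_mul, map_inv₀, map_natCast, map_sum]
    congr 1
    refine Finset.sum_congr rfl (fun g _ => ?_)
    rw [← IsCharacter.apply_inv (fchar_isCharacter ρV) g, map_mul]
    rfl
  rw [h2, h1, map_natCast] at hne
  have h3 : Module.finrank F (Representation.IntertwiningMap ρV ρU) ≠ 0 := by
    exact_mod_cast hne
  by_contra hcon
  push Not at hcon
  have : Subsingleton (Representation.IntertwiningMap ρV ρU) :=
    ⟨fun a b => by rw [hcon a, hcon b]⟩
  exact h3 (Module.finrank_zero_of_subsingleton)

/-- A character that is a difference of characters of representations over `F` is itself the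
character of a representation over `F`. -/
theorem descent [CharZero F] {G : Type u} [Group G] [Fintype G] :
    ∀ (n : ℕ) (U V : Type u) [AddCommGroup U] [Module F U] [Module.Finite F U]
      [AddCommGroup V] [Module F V] [Module.Finite F V] (ρU : Representation F G U)
      (ρV : Representation F G V) (χ : G → ℂ), Module.finrank F V = n → IsCharacter G χ →
      fchar ρU = χ + fchar ρV → IsFChar F G χ := by
  have hne0 : NeZero (Nat.card G : F) := ⟨Nat.cast_ne_zero.mpr Nat.card_pos.ne'⟩
  intro n
  induction n using Nat.strong_induction_on with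
  | _ n ih =>
    intro U V _ _ _ _ _ _ ρU ρV χ hn hχ hrel
    rcases Nat.eq_zero_or_pos n with h0 | hpos
    · have hV : Subsingleton V := Module.finrank_zero_iff.1 (by rw [hn, h0])
      rw [fchar_of_subsingleton ρV, add_zero] at hrel
      exact ⟨U, inferInstance, inferInstance, inferInstance, ρU, hrel.symm⟩
    · have hcU : IsCharacter G (fchar ρU) := fchar_isCharacter ρU
      have hcV : IsCharacter G (fchar ρV) := fchar_isCharacter ρV
      obtain ⟨a, ha⟩ := Cfsg.Agent.Lib.CT.Clifford.classInner_char_nat hχ hcV
      obtain ⟨b, hb⟩ := Cfsg.Agent.Lib.CT.Clifford.classInner_char_nat hcV hcV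
      have hb0 : b ≠ 0 := by
        have h1 : fchar ρV 1 ≠ 0 := by
          rw [fchar_one, hn]
          exact_mod_cast hpos.ne'
        have h2 := Cfsg.Agent.Lib.Helper78.Gallagher.classInner_self_ne_zero hcV h1
        rw [hb] at h2
        exact_mod_cast h2
      have hinner : classInner (fchar ρU) (fchar ρV) ≠ 0 := by
        rw [hrel, classInner_add_left, ha, hb]
        have : a + b ≠ 0 := by omega
        exact_mod_cast this
      obtain ⟨f, hf⟩ := exists_intertwining_ne_zero ρU ρV hinner
      obtain ⟨K', hcompl⟩ := exists_isCompl f.ker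
      have hdisj : f.ker.toSubmodule ⊓ K'.toSubmodule = ⊥ :=
        congrArg Subrepresentation.toSubmodule hcompl.inf_eq_bot
      have hsup : f.ker.toSubmodule ⊔ K'.toSubmodule = ⊤ :=
        congrArg Subrepresentation.toSubmodule hcompl.sup_eq_top
      have hinj : Function.Injective (f.comp (subIncl K')) := by
        intro x y hxy
        have h1 : f ((x : V) - (y : V)) = 0 := by
          rw [map_sub, sub_eq_zero]
          exact hxy
        have h2 : (x : V) - (y : V) ∈ f.ker.toSubmodule ⊓ K'.toSubmodule :=
          ⟨h1, K'.toSubmodule.sub_mem x.2 y.2⟩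
        rw [hdisj, Submodule.mem_bot, sub_eq_zero] at h2
        exact Subtype.ext h2
      have hK'pos : 0 < Module.finrank F K'.toSubmodule := by
        rw [Module.finrank_pos_iff_exists_ne_zero]
        by_contra hcon
        push Not at hcon
        apply hf
        have hK'bot : K'.toSubmodule = ⊥ := by
          rw [Submodule.eq_bot_iff]
          intro x hx
          have := hcon ⟨x, hx⟩
          exact congrArg Subtype.val this
        rw [hK'bot, sup_bot_eq] at hsup
        refine DFunLike.ext _ _ (fun v => ?_)
        have hv : v ∈ f.ker.toSubmodule := by rw [hsup]; trivial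
        exact hv
      obtain ⟨U₁, ⟨E₁⟩⟩ := exists_prod_equiv K'.toRepresentation ρU (f.comp (subIncl K')) hinj
      obtain ⟨V₁, ⟨E₂⟩⟩ := exists_prod_equiv K'.toRepresentation ρV (subIncl K')
        (fun x y hxy => Subtype.ext hxy)
      have hc1 : fchar ρU = fchar K'.toRepresentation + fchar U₁.toRepresentation := by
        rw [← fchar_equiv E₁, fchar_prod]
      have hc2 : fchar ρV = fchar K'.toRepresentation + fchar V₁.toRepresentation := by
        rw [← fchar_equiv E₂, fchar_prod]
      have hc3 : fchar U₁.toRepresentation = χ + fchar V₁.toRepresentation := by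
        rw [hc1, hc2] at hrel
        have : fchar K'.toRepresentation + fchar U₁.toRepresentation
            = fchar K'.toRepresentation + (χ + fchar V₁.toRepresentation) := by
          rw [hrel]; abel
        exact add_left_cancel this
      have hlt : Module.finrank F V₁.toSubmodule < n := by
        have h1 : Module.finrank F (K'.toSubmodule × V₁.toSubmodule) = Module.finrank F V :=
          E₂.toLinearEquiv.finrank_eq
        rw [Module.finrank_prod, hn] at h1
        omega
      exact ih _ hlt U₁.toSubmodule V₁.toSubmodule U₁.toRepresentation V₁.toRepresentation χ rfl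
        hχ hc3

/-- A monomial character with values in `F` is the character of a representation over `F`. -/
theorem isFChar_indFun {G : Type u} [Group G] [Fintype G] (H : Subgroup G) (lam : H →* ℂˣ)
    (hlam : ∀ h : H, ((lam h : ℂˣ) : ℂ) ∈ Set.range (algebraMap F ℂ)) :
    IsFChar F G (indFun H (fun h => ((lam h : ℂˣ) : ℂ))) := by
  classical
  have hinj : Function.Injective (algebraMap F ℂ) := (algebraMap F ℂ).injective
  let lamF : H →* F :=
    { toFun := fun h => Classical.choose (hlam h)
      map_one' := by
        apply hinj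
        rw [Classical.choose_spec (hlam 1), map_one, map_one, Units.val_one]
      map_mul' := fun x y => by
        apply hinj
        rw [Classical.choose_spec (hlam (x * y)), map_mul, map_mul, Units.val_mul,
          Classical.choose_spec (hlam x), Classical.choose_spec (hlam y)] }
  have hlamF : ∀ h : H, algebraMap F ℂ (lamF h) = ((lam h : ℂˣ) : ℂ) :=
    fun h => Classical.choose_spec (hlam h)
  have : Fintype (G ⧸ H) := Fintype.ofFinite _
  refine ⟨(G ⧸ H) → F, inferInstance, inferInstance, inferInstance, monRep H lamF, ?_⟩
  funext g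
  have hcl : IsClassFunction H (fun h => ((lam h : ℂˣ) : ℂ)) := by
    intro x y
    show ((lam (y * x * y⁻¹) : ℂˣ) : ℂ) = ((lam x : ℂˣ) : ℂ)
    rw [map_mul, map_mul, map_inv, mul_comm, inv_mul_cancel_left]
  rw [Cfsg.Agent.Lib.CT.IndChar.indFun_eq_sum_rep H _ hcl g, fchar_apply, monRep_character,
    map_sum]
  refine Finset.sum_congr rfl (fun q _ => ?_)
  by_cases hmem : (Cfsg.Agent.Lib.CT.IndChar.rep H q)⁻¹ * g * Cfsg.Agent.Lib.CT.IndChar.rep H q ∈ H
  · rw [Cfsg.Agent.Lib.CT.FrobRec.extendByZero_apply_of_mem H _ hmem, dif_pos hmem, hlamF]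
  · rw [Cfsg.Agent.Lib.CT.FrobRec.extendByZero_apply_of_not_mem H _ hmem, dif_neg hmem, map_zero]

/-- If `F` contains the roots of unity of order dividing the exponent of `G`, then every
character of `G` is the character of a representation over `F`. -/
theorem isFChar_of_isCharacter [CharZero F] {G : Type u} [Group G] [Fintype G]
    (hF : ∀ z : ℂ, z ^ Monoid.exponent G = 1 → z ∈ Set.range (algebraMap F ℂ))
    {χ : G → ℂ} (hχ : IsCharacter G χ) : IsFChar F G χ := by
  have hmem := Cfsg.Agent.Lib.Helper3.BrauerGlobal.char_mem_brauerSpan hχ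
  have key : ∃ a b : G → ℂ, IsFChar F G a ∧ IsFChar F G b ∧ χ = a - b := by
    unfold Cfsg.Agent.Lib.Helper3.BrauerGlobal.brauerSpan at hmem
    refine AddSubgroup.closure_induction
      (p := fun f _ => ∃ a b : G → ℂ, IsFChar F G a ∧ IsFChar F G b ∧ f = a - b) ?_ ?_ ?_ ?_ hmem
    · rintro f ⟨E, lam, -, rfl⟩
      refine ⟨_, 0, isFChar_indFun E lam (fun e => hF _ ?_), isFChar_zero, (sub_zero _).symm⟩
      rw [← Units.val_pow_eq_pow_val, ← map_pow]
      have h1 : e ^ Monoid.exponent G = 1 := by
        apply Subtype.ext
        rw [Subgroup.coe_pow, Monoid.pow_exponent_eq_one, Subgroup.coe_one]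
      rw [h1, map_one, Units.val_one]
    · exact ⟨0, 0, isFChar_zero, isFChar_zero, (sub_zero _).symm⟩
    · rintro x y _ _ ⟨a₁, b₁, ha₁, hb₁, rfl⟩ ⟨a₂, b₂, ha₂, hb₂, rfl⟩
      exact ⟨a₁ + a₂, b₁ + b₂, ha₁.add ha₂, hb₁.add hb₂, by abel⟩
    · rintro x _ ⟨a, b, ha, hb, rfl⟩
      exact ⟨b, a, hb, ha, by abel⟩
  obtain ⟨a, b, ⟨U, _, _, _, ρU, rfl⟩, ⟨V, _, _, _, ρV, rfl⟩, hab⟩ := key
  refine descent _ U V ρU ρV χ rfl hχ ?_
  rw [hab]
  abel

/-- **Brauer's splitting field theorem**: if `F ⊆ ℂ` contains the roots of unity of order
dividing the exponent of `G`, every complex matrix representation of `G` is equivalent to one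
with entries in `F`. -/
theorem realizable [CharZero F] {G : Type u} [Group G] [Finite G]
    (hF : ∀ z : ℂ, z ^ Monoid.exponent G = 1 → z ∈ Set.range (algebraMap F ℂ))
    (n : ℕ) (ρ : Representation ℂ G (Fin n → ℂ)) :
    ∃ σ : Representation ℂ G (Fin n → ℂ), Nonempty (ρ.Equiv σ) ∧
      ∀ g i j, LinearMap.toMatrix' (σ g) i j ∈ Set.range (algebraMap F ℂ) := by
  classical
  have : Fintype G := Fintype.ofFinite G
  obtain ⟨V, _, _, _, ρV, hV⟩ := isFChar_of_isCharacter hF (χ := ρ.character) ⟨n, ρ, rfl⟩
  obtain ⟨σ', h1, h2⟩ := exists_complex_rep ρV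
  have hd : Module.finrank F V = n := by
    have h3 := congrFun hV 1
    rw [fchar_one, Representation.char_one, Module.finrank_fin_fun] at h3
    exact_mod_cast h3.symm
  have key : ∀ (d : ℕ) (σ' : Representation ℂ G (Fin d → ℂ)), d = n →
      σ'.character = ρ.character →
      (∀ g i j, LinearMap.toMatrix' (σ' g) i j ∈ Set.range (algebraMap F ℂ)) →
      ∃ σ : Representation ℂ G (Fin n → ℂ), Nonempty (ρ.Equiv σ) ∧
        ∀ g i j, LinearMap.toMatrix' (σ g) i j ∈ Set.range (algebraMap F ℂ) := by
    intro d σ' hdn hchar hent
    subst hdn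
    exact ⟨σ', Cfsg.Agent.S0153.result ρ σ' hchar.symm, hent⟩
  refine key _ σ' hd ?_ h2
  funext g
  rw [h1 g, hV]
  rfl

end Descent

end Cfsg.Agent.Lib.Helper3.Splitting
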