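import Mathlib
import Cfsg.Agent.Lib.Helper14.TC3Stmt
import Cfsg.Agent.Lib.Helper3.TDFrob

/-!
S4460, piece W2 (Isaacs 12.4): in a Frobenius-type section `FSec K N p`, an irreducible character
`ψ` of `N` whose restriction to `K` is irreducible gives an irreducible character of `G` of degree
`[G:N] ψ(1)`. Same argument as `Helper3.TDFrob.frobenius_section`.
-/

set_option autoImplicit false

namespace Cfsg.Agent.Lib.Helper3.TC3W2

open Cfsg Cfsg.Agent.Lib.Helper80.Integrality Cfsg.Agent.Lib.Helper80.Restrict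
open Cfsg.Agent.Lib.CT.Wedderburn Cfsg.Agent.Lib.CT.Orth
open Cfsg.Agent.Lib.CT.FrobRec Cfsg.Agent.Lib.CT.IndChar
open Cfsg.Agent.Lib.CT.Clifford Cfsg.Agent.Lib.CT.LinChar
open Cfsg.Agent.Lib.Helper3.TDBasic
open Cfsg.Agent.Lib.Helper78.CliffordCorr
open Cfsg.Agent.Lib.Helper14.TC3Stmt
open scoped ComplexConjugate commutatorElement

universe u

theorem main : W2.{u} := by
  intro G _ _ K N p hF ψ₀ hθirr0
  obtain ⟨hKn, hp, hNn, hKN, -, hNtop, hpN, hrel, hlt, hab, hfree⟩ := hF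
  classical
  haveI := Fintype.ofFinite G
  haveI : Fintype N := Fintype.ofFinite N
  haveI := hNn
  set K' : Subgroup N := K.subgroupOf N with hK'
  haveI hK'n : K'.Normal := hKn.subgroupOf N
  haveI : Fintype K' := Fintype.ofFinite _
  have hK'idx : K'.index = K.relIndex N := rfl
  have hcf : ∀ (β : N → ℂ), IsClassFunction N β → ∀ g : G, g ∈ N →
      ∀ n : N, β ⟨g * n * g⁻¹, hNn.conj_mem (n : G) n.2 g⟩ = β n := by
    intro β hβ g hg n
    have h := hβ n ⟨g, hg⟩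
    have e : (⟨g * n * g⁻¹, hNn.conj_mem (n : G) n.2 g⟩ : N) = ⟨g, hg⟩ * n * ⟨g, hg⟩⁻¹ :=
      Subtype.ext (by simp)
    rw [e]
    exact h
  -- linear characters killing K and invariant under some g ∉ N are trivial
  have hkill : ∀ (β : N → ℂ), IsCharacter N β → β 1 = 1 → (∀ k : N, (k : G) ∈ K → β k = 1) →
      ∀ g : G, g ∉ N → (∀ n : N, β ⟨g * n * g⁻¹, hNn.conj_mem (n : G) n.2 g⟩ = β n) →
      ∀ n : N, β n = 1 := by
    intro β hβ hβ1 hβK g hg hinv n
    obtain ⟨x, hx, k, hk, hn⟩ := hfree g hg n n.2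
    have e : n = (⟨g * x * g⁻¹, hNn.conj_mem x hx g⟩ : N) * (⟨x, hx⟩ : N)⁻¹ * ⟨k, hKN hk⟩ :=
      Subtype.ext (by simpa using hn)
    have h1 := hinv ⟨x, hx⟩
    rw [e, linear_mul hβ hβ1, linear_mul hβ hβ1, linear_inv hβ hβ1, h1, hβK ⟨k, hKN hk⟩ hk, mul_one,
      mul_inv_cancel₀ (linear_ne_zero hβ hβ1 _)]
  -- a nontrivial linear character of N trivial on K
  set θ : K' → ℂ := fun k => (ψ₀ : N → ℂ) k with hθdef
  have hθirr : IsIrrCharacter K' θ := hθirr0
  have hone : IsIrrCharacter K' (fun _ => (1 : ℂ)) := Cfsg.Agent.Lib.CT.Ops.isIrrCharacter_one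
  -- commutators of `N` lie in `K`
  have hcommK : ∀ a b : N, ⁅a, b⁆ ∈ K' := by
    intro a b
    rw [hK', Subgroup.mem_subgroupOf]
    have h := hab ((a⁻¹ : N) : G) (a⁻¹ : N).2 ((b⁻¹ : N) : G) (b⁻¹ : N).2
    have e : (((b⁻¹ : N) : G) * ((a⁻¹ : N) : G))⁻¹ * (((a⁻¹ : N) : G) * ((b⁻¹ : N) : G)) =
        ((⁅a, b⁆ : N) : G) := by
      rw [commutatorElement_def]
      simp [mul_assoc]
    rw [e] at h
    exact h
  -- constituents of the permutation character on `N/K` are linear and trivial on `K`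
  have hB : ∀ β : IrrCharacter N, classInner (indFun K' (fun _ => (1 : ℂ))) (β : N → ℂ) ≠ 0 →
      (β : N → ℂ) 1 = 1 ∧ ∀ k : N, (k : G) ∈ K → (β : N → ℂ) k = 1 := by
    intro β hβ
    have hΦ : IsCharacter N (indFun K' (fun _ => (1 : ℂ))) :=
      isCharacter_indFun K' _ (isCharacter_of_irr hone)
    have hΦk : ∀ k : N, k ∈ K' →
        indFun K' (fun _ => (1 : ℂ)) k = indFun K' (fun _ => (1 : ℂ)) 1 := by
      intro k hk
      have h1 := indFun_restrict K' hK'n (fun _ => (1 : ℂ)) ⟨k, hk⟩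
      have h2 := indFun_restrict K' hK'n (fun _ => (1 : ℂ)) (1 : K')
      simp only [conjFun_apply] at h1 h2
      rw [Subgroup.coe_one] at h2
      exact h1.trans h2.symm
    have hk1 : ∀ k : N, k ∈ K' → (β : N → ℂ) k = (β : N → ℂ) 1 := fun k hk =>
      Cfsg.Agent.Lib.Helper3.MGroup.constituent_apply_eq hΦ β.2 hβ (hΦk k hk)
    have hβ1 : (β : N → ℂ) 1 = 1 :=
      Cfsg.Agent.Lib.Helper3.MGroup.apply_one_eq_one_of_comm β.2 (fun a b => hk1 _ (hcommK a b))
    exact ⟨hβ1, fun k hk => by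
      rw [hk1 k (by rw [hK', Subgroup.mem_subgroupOf]; exact hk), hβ1]⟩
  have e0 : (fun k : K' => (fun _ : K' => (1 : ℂ)) k * (ψ₀ : N → ℂ) k) = θ := by
    funext k
    simp [hθdef]
  have hprod0 : IsIrrCharacter K' (fun k : K' => (fun _ : K' => (1 : ℂ)) k * (ψ₀ : N → ℂ) k) := by
    rw [e0]
    exact hθirr
  obtain ⟨-, -, hG3₀⟩ := Cfsg.Agent.Lib.Helper78.Gallagher.gallagher_core K' hK'n
    (fun _ => (1 : ℂ)) hone (fun _ _ => rfl) (ψ₀ : N → ℂ) ψ₀.2 hprod0
  haveI := finite_irrCharacter N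
  haveI := Fintype.ofFinite (IrrCharacter N)
  let S : Finset (IrrCharacter N) :=
    Finset.univ.filter (fun ψ => ∀ k : K', (ψ : N → ℂ) k = θ k)
  have hSmem : ∀ ψ : IrrCharacter N, ψ ∈ S ↔ ∀ k : K', (ψ : N → ℂ) k = θ k := by
    intro ψ
    simp [S]
  have hdegS : ∀ ψ ∈ S, charDegree (ψ : N → ℂ) = charDegree θ := by
    intro ψ hψ
    have h := (hSmem ψ).1 hψ 1
    show ⌊((ψ : N → ℂ) 1).re⌋₊ = ⌊(θ 1).re⌋₊
    rw [← h]
    rfl
  have hθpos : 0 < charDegree θ := charDegree_pos ⟨θ, hθirr⟩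
  have hScard : S.card = K'.index := by
    have hind : IsCharacter N (indFun K' θ) :=
      isCharacter_indFun K' θ (isCharacter_of_irr hθirr)
    obtain ⟨mm, hmm1, -, hmm3, -⟩ := exists_mult hind
    have hmmval : ∀ ψ : IrrCharacter N, mm ψ = if ψ ∈ S then 1 else 0 := by
      intro ψ
      have h1 := hmm1 ψ
      by_cases hψS : ψ ∈ S
      · rw [if_pos hψS]
        rw [frobenius_reciprocity K' θ (ψ : N → ℂ) (irr_isClassFunction ψ)] at h1
        have e2 : (fun k : K' => (ψ : N → ℂ) k) = θ := funext ((hSmem ψ).1 hψS)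
        rw [e2, Cfsg.Agent.Lib.CT.NormOne.inner_self_eq_one_of_irr hθirr] at h1
        exact_mod_cast h1.symm
      · rw [if_neg hψS]
        by_contra hne
        apply hψS
        have hc : classInner (indFun K'
            (fun k : K' => (fun _ : K' => (1 : ℂ)) k * (ψ₀ : N → ℂ) k)) (ψ : N → ℂ) ≠ 0 := by
          rw [e0, h1]
          exact_mod_cast hne
        obtain ⟨β, hβ1, hβ2⟩ := hG3₀ ψ hc
        obtain ⟨-, hβK⟩ := hB β hβ1
        rw [hSmem]
        intro k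
        have h := congrFun hβ2 k
        rw [Pi.mul_apply, hβK k (Subgroup.mem_subgroupOf.1 k.2), one_mul] at h
        exact h.symm
    rw [Cfsg.Agent.Lib.Helper80.IndDeg.charDegree_indFun K' θ (isCharacter_of_irr hθirr)] at hmm3
    have hsum : ∑ ψ : IrrCharacter N, mm ψ * charDegree (ψ : N → ℂ) = S.card * charDegree θ := by
      have h1 : ∀ ψ : IrrCharacter N, mm ψ * charDegree (ψ : N → ℂ) =
          if ψ ∈ S then charDegree θ else 0 := by
        intro ψ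
        rw [hmmval ψ]
        by_cases hψS : ψ ∈ S
        · rw [if_pos hψS, if_pos hψS, one_mul, hdegS ψ hψS]
        · rw [if_neg hψS, if_neg hψS, zero_mul]
      rw [Finset.sum_congr rfl (fun ψ _ => h1 ψ), Finset.sum_ite_mem, Finset.univ_inter,
        Finset.sum_const, smul_eq_mul]
    rw [hsum] at hmm3
    exact (Nat.eq_of_mul_eq_mul_right hθpos hmm3).symm
  have hdθ : charDegree θ = charDegree (ψ₀ : N → ℂ) := rfl
  -- some `ψ ∈ S` is fixed by no element outside `N`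
  have hex : ∃ ψ : IrrCharacter N, ψ ∈ S ∧ ∀ g : G, g ∉ N →
      ¬ ∀ n : N, (ψ : N → ℂ) ⟨g * n * g⁻¹, hNn.conj_mem (n : G) n.2 g⟩ = (ψ : N → ℂ) n := by
    by_contra hcon
    have hout : ∀ ψ : IrrCharacter N, ψ ∈ S → ∃ g : G, g ∉ N ∧
        ∀ n : N, (ψ : N → ℂ) ⟨g * n * g⁻¹, hNn.conj_mem (n : G) n.2 g⟩ = (ψ : N → ℂ) n := by
      intro ψ hψS
      by_contra hcon2
      apply hcon
      refine ⟨ψ, hψS, fun g hg hinv => hcon2 ⟨g, hg, hinv⟩⟩
    choose! gsel hgsel using hout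
    have claim : ∀ ψ₁ ψ₂ : IrrCharacter N, ψ₁ ∈ S → ψ₂ ∈ S → ∀ g : G, g ∉ N →
        (∀ n : N, (ψ₁ : N → ℂ) ⟨g * n * g⁻¹, hNn.conj_mem (n : G) n.2 g⟩ = (ψ₁ : N → ℂ) n) →
        (∀ n : N, (ψ₂ : N → ℂ) ⟨g * n * g⁻¹, hNn.conj_mem (n : G) n.2 g⟩ = (ψ₂ : N → ℂ) n) →
        ψ₁ = ψ₂ := by
      intro ψ₁ ψ₂ h₁ h₂ g hgN hf₁ hf₂
      have hr₁ := (hSmem ψ₁).1 h₁
      have hr₂ := (hSmem ψ₂).1 h₂
      have hone : IsIrrCharacter K' (fun _ => (1 : ℂ)) := Cfsg.Agent.Lib.CT.Ops.isIrrCharacter_one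
      have e1 : (fun k : K' => (fun _ : K' => (1 : ℂ)) k * (ψ₁ : N → ℂ) k) = θ := by
        funext k
        simp [hr₁ k]
      have hprod : IsIrrCharacter K' (fun k : K' => (fun _ : K' => (1 : ℂ)) k * (ψ₁ : N → ℂ) k) := by
        rw [e1]
        exact hθirr
      obtain ⟨-, hG2, hG3⟩ := Cfsg.Agent.Lib.Helper78.Gallagher.gallagher_core K' hK'n
        (fun _ => (1 : ℂ)) hone (fun _ _ => rfl) (ψ₁ : N → ℂ) ψ₁.2 hprod
      have hc2 : classInner (indFun K' (fun k : K' => (fun _ : K' => (1 : ℂ)) k * (ψ₁ : N → ℂ) k))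
          (ψ₂ : N → ℂ) ≠ 0 := by
        rw [frobenius_reciprocity K' _ (ψ₂ : N → ℂ) (irr_isClassFunction ψ₂)]
        have e2 : (fun k : K' => (ψ₂ : N → ℂ) k) = θ := funext hr₂
        rw [e1, e2, Cfsg.Agent.Lib.CT.NormOne.inner_self_eq_one_of_irr hθirr]
        exact one_ne_zero
      obtain ⟨β, hβ1, hβ2⟩ := hG3 ψ₂ hc2
      have hβdeg : (β : N → ℂ) 1 = 1 := by
        have h := congrFun hβ2 1
        rw [Pi.mul_apply] at h
        have h1' : (ψ₂ : N → ℂ) 1 = (ψ₁ : N → ℂ) 1 := by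
          have a := hr₁ 1
          have b := hr₂ 1
          simp only [Subgroup.coe_one] at a b
          rw [a, b]
        rw [h1'] at h
        have hne : (ψ₁ : N → ℂ) 1 ≠ 0 :=
          Cfsg.Agent.Lib.Helper3.Irr.IsIrrCharacter.apply_one_ne_zero ψ₁.2
        exact mul_right_cancel₀ hne (by rw [h, one_mul])
      have hβc : IsCharacter N (β : N → ℂ) := isCharacter_of_irr β.2
      have hβK : ∀ k : N, (k : G) ∈ K → (β : N → ℂ) k = 1 := by
        have hβ1' := hβ1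
        rw [frobenius_reciprocity K' _ (β : N → ℂ) (irr_isClassFunction β)] at hβ1'
        have hβres : IsIrrCharacter K' (fun k : K' => (β : N → ℂ) k) :=
          isIrrCharacter_of_linear (Cfsg.Agent.Lib.CT.Ops.isCharacter_restrict K' hβc)
            (by simpa using hβdeg)
        have h := Cfsg.Agent.Lib.Helper3.Irr.irr_orthonormal
          (⟨fun _ => 1, hone⟩ : IrrCharacter K') ⟨_, hβres⟩
        simp only at h
        rw [h] at hβ1'
        by_cases heq : (⟨fun _ => 1, hone⟩ : IrrCharacter K') = ⟨_, hβres⟩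
        · intro k hk
          have h3 := congrFun (congrArg Subtype.val heq) ⟨k, by
            rw [hK', Subgroup.mem_subgroupOf]; exact hk⟩
          exact h3.symm
        · rw [if_neg heq] at hβ1'
          exact absurd rfl hβ1'
      set β' : N → ℂ := conjFun N hNn (β : N → ℂ) g with hβ'
      have hβ'irr : IsIrrCharacter N β' := isIrrCharacter_conjFun N hNn β.2 g
      have hβ'K : ∀ k : K', β' k = 1 := by
        intro k
        rw [hβ', conjFun_apply]
        exact hβK _ (hKn.conj_mem _ (Subgroup.mem_subgroupOf.1 k.2) g)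
      have hβ'1 : classInner (indFun K' (fun _ => (1 : ℂ))) β' ≠ 0 := by
        rw [frobenius_reciprocity K' _ β' (char_isClassFunction (isCharacter_of_irr hβ'irr))]
        have e : (fun k : K' => β' k) = fun _ => (1 : ℂ) := funext hβ'K
        rw [e, Cfsg.Agent.Lib.CT.NormOne.inner_self_eq_one_of_irr hone]
        exact one_ne_zero
      have hmul : (β' : N → ℂ) * (ψ₁ : N → ℂ) = (β : N → ℂ) * (ψ₁ : N → ℂ) := by
        funext n
        rw [Pi.mul_apply, Pi.mul_apply, hβ', conjFun_apply]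
        have a := congrFun hβ2 ⟨g * n * g⁻¹, hNn.conj_mem n n.2 g⟩
        have b := congrFun hβ2 n
        rw [Pi.mul_apply] at a b
        rw [← hf₁ n, a, hf₂ n, ← b, hf₁ n]
      have hββ' : (⟨β', hβ'irr⟩ : IrrCharacter N) = β := hG2 ⟨β', hβ'irr⟩ β hβ'1 hβ1 hmul
      have hβinv : ∀ n : N, (β : N → ℂ) ⟨g * n * g⁻¹, hNn.conj_mem (n : G) n.2 g⟩ =
          (β : N → ℂ) n := by
        intro n
        have h := congrFun (congrArg Subtype.val hββ') n
        exact h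
      have hβone := hkill (β : N → ℂ) hβc hβdeg hβK g hgN hβinv
      apply Subtype.ext
      funext n
      have b := congrFun hβ2 n
      rw [Pi.mul_apply, hβone n, one_mul] at b
      exact b
    have hinj : ∀ ψ₁ ∈ S, ∀ ψ₂ ∈ S, (gsel ψ₁ : G ⧸ N) = (gsel ψ₂ : G ⧸ N) → ψ₁ = ψ₂ := by
      intro ψ₁ h₁ ψ₂ h₂ hq
      have hgN : gsel ψ₂ ∉ N := (hgsel ψ₂ h₂).1
      have hfix₂ := (hgsel ψ₂ h₂).2
      have hfix₁ : ∀ n : N, (ψ₁ : N → ℂ)
          ⟨gsel ψ₂ * n * (gsel ψ₂)⁻¹, hNn.conj_mem (n : G) n.2 (gsel ψ₂)⟩ = (ψ₁ : N → ℂ) n := by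
        have h1 : gsel ψ₁ ∈ inertia N hNn (ψ₁ : N → ℂ) :=
          (mem_inertia N hNn _ _).2 (hgsel ψ₁ h₁).2
        have h2 : (gsel ψ₁)⁻¹ * gsel ψ₂ ∈ N := QuotientGroup.eq.1 hq
        have h3 : (gsel ψ₁)⁻¹ * gsel ψ₂ ∈ inertia N hNn (ψ₁ : N → ℂ) :=
          le_inertia N hNn (irr_isClassFunction ψ₁) h2
        have h4 := Subgroup.mul_mem _ h1 h3
        rw [mul_inv_cancel_left] at h4
        exact (mem_inertia N hNn _ _).1 h4
      exact claim ψ₁ ψ₂ h₁ h₂ (gsel ψ₂) hgN hfix₁ hfix₂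
    haveI := Fintype.ofFinite (G ⧸ N)
    have hcount : S.card ≤ N.index - 1 := by
      have h1 : (S.image (fun ψ => (gsel ψ : G ⧸ N))).card = S.card :=
        Finset.card_image_of_injOn (fun ψ₁ h₁ ψ₂ h₂ h => hinj ψ₁ h₁ ψ₂ h₂ h)
      have h2 : S.image (fun ψ => (gsel ψ : G ⧸ N)) ⊆ Finset.univ.erase (1 : G ⧸ N) := by
        intro q hq
        obtain ⟨ψ, hψ, rfl⟩ := Finset.mem_image.1 hq
        rw [Finset.mem_erase]
        refine ⟨?_, Finset.mem_univ _⟩
        intro h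
        exact (hgsel ψ hψ).1 ((QuotientGroup.eq_one_iff _).1 h)
      have h3 := Finset.card_le_card h2
      rw [h1, Finset.card_erase_of_mem (Finset.mem_univ _), Finset.card_univ,
        ← Nat.card_eq_fintype_card, ← Subgroup.index_eq_card] at h3
      exact h3
    rw [hScard, hK'idx] at hcount
    omega
  obtain ⟨ψ, hψS, hψfree⟩ := hex
  have hT' : ∀ g : G, g ∈ N ↔
      ∀ n : N, (ψ : N → ℂ) ⟨g * n * g⁻¹, hNn.conj_mem (n : G) n.2 g⟩ = (ψ : N → ℂ) n := by
    intro g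
    constructor
    · intro hg n
      exact hcf _ (irr_isClassFunction ψ) g hg n
    · intro hinv
      by_contra hg
      exact hψfree g hg hinv
  obtain ⟨χ, hcon, -, -⟩ := exists_over N ψ
  obtain ⟨ψ', e, hψ', -, he0, -, hψH, hdeg⟩ :=
    clifford_corr N hNn (ψ : N → ℂ) ψ.2 N hT' le_rfl (χ : G → ℂ) χ.2 hcon
  have he1 : e = 1 := by
    have h2 : ψ' = (e : ℂ) • (ψ : N → ℂ) := by
      funext n
      have h3 := hψH n
      simpa using h3
    have h1 : classInner ψ' (ψ : N → ℂ) = e := by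
      rw [h2, Cfsg.Agent.Lib.CT.Orth.classInner_smul_left,
        Cfsg.Agent.Lib.CT.NormOne.inner_self_eq_one_of_irr ψ.2, mul_one]
    have h3 := Cfsg.Agent.Lib.Helper3.Irr.irr_orthonormal (⟨ψ', hψ'⟩ : IrrCharacter N) ψ
    simp only at h3
    rw [h1] at h3
    by_cases h4 : (⟨ψ', hψ'⟩ : IrrCharacter N) = ψ
    · rw [if_pos h4] at h3
      exact_mod_cast h3
    · rw [if_neg h4] at h3
      exact absurd (by exact_mod_cast h3) he0
  refine ⟨χ, ?_⟩
  rw [hdeg, he1, one_mul, hdegS ψ hψS, hdθ]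

end Cfsg.Agent.Lib.Helper3.TC3W2
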