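import Mathlib
import Cfsg.Agent.Lib.Helper3.TDBasic
import Cfsg.Agent.Lib.Helper3.MGroup
import Cfsg.Agent.Lib.Helper78.CliffordCorr
import Cfsg.Agent.Lib.CT.LinChar
import Cfsg.Agent.Lib.CT.NormOne

/-!
Tools for the prime power case of the two-character-degree theorem:
* `exists_extension`: an invariant linear character of a normal Hall subgroup extends (transfer).
* `inner_restrict_ge`: multiplicities can only grow under restriction through an intermediate
  subgroup.
* `act`: the action of `G` on the linear characters of a normal subgroup.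
-/

set_option autoImplicit false

namespace Cfsg.Agent.Lib.Helper3.TDExt

open Cfsg Cfsg.Agent.Lib.Helper80.Integrality Cfsg.Agent.Lib.Helper80.Restrict
open Cfsg.Agent.Lib.CT.Wedderburn Cfsg.Agent.Lib.CT.Orth
open Cfsg.Agent.Lib.CT.FrobRec Cfsg.Agent.Lib.CT.IndChar
open Cfsg.Agent.Lib.CT.Clifford Cfsg.Agent.Lib.CT.LinChar
open Cfsg.Agent.Lib.Helper3.TDBasic
open Cfsg.Agent.Lib.Helper78.CliffordCorr
open scoped ComplexConjugate

universe u

/-- An invariant linear character of a normal subgroup whose order is prime to its index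
extends to the whole group. -/
theorem exists_extension {T : Type*} [Group T] [Finite T] (H : Subgroup T) [H.Normal]
    (hcop : (Nat.card H).Coprime H.index) (f : H →* ℂˣ)
    (hinv : ∀ (t : T) (h : H) (hm : t⁻¹ * (h : T) * t ∈ H), f ⟨t⁻¹ * h * t, hm⟩ = f h) :
    ∃ F : T →* ℂˣ, ∀ h : H, F h = f h := by
  classical
  have key : ∀ h : H, MonoidHom.transfer f (h : T) = f h ^ H.index := by
    intro h
    have : Fintype (Quotient (MulAction.orbitRel (Subgroup.zpowers (h : T)) (T ⧸ H))) :=
      Fintype.ofFinite _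
    rw [MonoidHom.transfer_eq_prod_quotient_orbitRel_zpowers_quot]
    have h3 : ∀ q : Quotient (MulAction.orbitRel (Subgroup.zpowers (h : T)) (T ⧸ H)),
        f ⟨q.out.out⁻¹ * (h : T) ^ Function.minimalPeriod ((h : T) • ·) q.out * q.out.out,
          QuotientGroup.out_conj_pow_minimalPeriod_mem H (h : T) q.out⟩ =
        f h ^ Function.minimalPeriod ((h : T) • ·) q.out := by
      intro q
      have h4 := hinv q.out.out (h ^ Function.minimalPeriod ((h : T) • ·) q.out)
        (by
          rw [Subgroup.coe_pow]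
          exact QuotientGroup.out_conj_pow_minimalPeriod_mem H (h : T) q.out)
      rw [map_pow] at h4
      rw [← h4]
      congr 1
    rw [Finset.prod_congr rfl (fun q _ => h3 q), Finset.prod_pow_eq_pow_sum,
      ← Subgroup.index_eq_sum_minimalPeriod]
  have hpowcard : ∀ h : H, f h ^ Nat.card H = 1 := by
    intro h
    rw [← map_pow, pow_card_eq_one', map_one]
  by_cases hH1 : Nat.card H = 1
  · refine ⟨1, fun h => ?_⟩
    have h1 := hpowcard h
    rw [hH1, pow_one] at h1
    rw [h1]
    rfl
  · have hlt : 1 < Nat.card H := by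
      have := Nat.card_pos (α := H)
      omega
    obtain ⟨a, -, ha⟩ := Nat.exists_mul_mod_eq_one_of_coprime hcop.symm hlt
    refine ⟨MonoidHom.transfer f ^ a, fun h => ?_⟩
    rw [MonoidHom.pow_apply, key h, ← pow_mul]
    have h2 := Nat.div_add_mod (H.index * a) (Nat.card H)
    rw [ha] at h2
    rw [← h2, pow_add, pow_mul, hpowcard h, one_pow, one_mul, pow_one]

section Restrict

variable {G : Type u} [Group G]

/-- Multiplicities through an intermediate subgroup: if `Ψ` is a constituent of `χ|T` then the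
multiplicity of `θ` in `Ψ|H` is at most its multiplicity in `χ|H`. -/
theorem inner_restrict_ge [Finite G] (H T : Subgroup G) (hHT : H ≤ T) [Fintype H] [Fintype T]
    {χ : G → ℂ} (hχ : IsCharacter G χ) (Ψ : IrrCharacter T)
    (hcon : classInner (fun t : T => χ t) (Ψ : T → ℂ) ≠ 0) {θ : H → ℂ} (hθ : IsCharacter H θ) :
    ∃ n₁ n₂ : ℕ, classInner (fun h : H => χ h) θ = n₁ ∧
      classInner (fun h : H => (Ψ : T → ℂ) ⟨h, hHT h.2⟩) θ = n₂ ∧ n₂ ≤ n₁ := by
  classical
  haveI := finite_irrCharacter T
  haveI := Fintype.ofFinite (IrrCharacter T)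
  have hresc : IsCharacter T (fun t : T => χ t) := Cfsg.Agent.Lib.CT.Ops.isCharacter_restrict T hχ
  obtain ⟨mm, hmm1, hmm2, -, -⟩ := exists_mult hresc
  have hres : ∀ φ : IrrCharacter T, IsCharacter H (fun h : H => (φ : T → ℂ) ⟨h, hHT h.2⟩) :=
    fun φ => Cfsg.Agent.Lib.CT.Ops.isCharacter_comp_hom (Subgroup.inclusion hHT)
      (isCharacter_of_irr φ.2)
  choose k hk using fun φ : IrrCharacter T => classInner_char_nat (hres φ) hθ
  have h1 : (fun h : H => χ h) =
      ∑ φ : IrrCharacter T, (mm φ : ℂ) • (fun h : H => (φ : T → ℂ) ⟨h, hHT h.2⟩) := by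
    funext h
    rw [Finset.sum_apply]
    have h2 := hmm2 ⟨h, hHT h.2⟩
    simp only [Pi.smul_apply, smul_eq_mul]
    exact h2
  have h3 : classInner (fun h : H => χ h) θ = ((∑ φ : IrrCharacter T, mm φ * k φ : ℕ) : ℂ) := by
    rw [h1, Cfsg.Agent.Lib.CT.Orth.classInner_sum_left]
    push_cast
    refine Finset.sum_congr rfl fun φ _ => ?_
    rw [Cfsg.Agent.Lib.CT.Orth.classInner_smul_left, hk φ]
  refine ⟨_, k Ψ, h3, hk Ψ, ?_⟩
  have h4 : mm Ψ ≠ 0 := by
    intro h0
    apply hcon
    rw [hmm1 Ψ, h0]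
    simp
  calc k Ψ ≤ mm Ψ * k Ψ := Nat.le_mul_of_pos_left _ (Nat.pos_of_ne_zero h4)
    _ ≤ ∑ φ : IrrCharacter T, mm φ * k φ :=
      Finset.single_le_sum (f := fun φ : IrrCharacter T => mm φ * k φ)
        (fun _ _ => Nat.zero_le _) (Finset.mem_univ Ψ)

end Restrict

section Act

variable {G : Type u} [Group G]

/-- The action of `G` on the linear characters of a normal subgroup: `(act H g f) h = f (g h g⁻¹)`. -/
noncomputable def act (H : Subgroup G) [H.Normal] (g : G) : (H →* ℂˣ) →* (H →* ℂˣ) where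
  toFun f := f.comp (MulAut.conjNormal g : H ≃* H).toMonoidHom
  map_one' := rfl
  map_mul' _ _ := rfl

theorem act_apply (H : Subgroup G) [hH : H.Normal] (g : G) (f : H →* ℂˣ) (h : H) :
    act H g f h = f ⟨g * h * g⁻¹, hH.conj_mem h h.2 g⟩ := by
  show f (MulAut.conjNormal g h) = _
  congr 1

theorem act_mul (H : Subgroup G) [hH : H.Normal] (a b : G) (f : H →* ℂˣ) :
    act H (a * b) f = act H b (act H a f) := by
  ext h
  rw [act_apply, act_apply, act_apply]
  congr 3
  simp [mul_assoc]

theorem act_of_centralizes (H : Subgroup G) [hH : H.Normal] (c : G)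
    (hc : c ∈ Subgroup.centralizer (H : Set G)) (f : H →* ℂˣ) : act H c f = f := by
  ext h
  rw [act_apply]
  congr 3
  have h1 := Subgroup.mem_centralizer_iff.1 hc h h.2
  rw [← h1]
  simp

theorem act_one (H : Subgroup G) [hH : H.Normal] (f : H →* ℂˣ) : act H 1 f = f := by
  ext h
  rw [act_apply]
  congr 3
  simp

theorem act_iterate (H : Subgroup G) [hH : H.Normal] (s : G) (f : H →* ℂˣ) (i : ℕ) :
    act H (s ^ i) f = (act H s)^[i] f := by
  induction i with
  | zero => rw [pow_zero, act_one, Function.iterate_zero, id]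
  | succ i ih => rw [pow_succ, act_mul, ih, Function.iterate_succ_apply']

theorem iterate_eq {X : Type*} [CommGroup X] (σ : X →* X) (u w : X) (hu : σ u = u * w)
    (hw : σ w = w) (i : ℕ) : σ^[i] u = u * w ^ i := by
  induction i with
  | zero => rw [Function.iterate_zero, id, pow_zero, mul_one]
  | succ i ih =>
    rw [Function.iterate_succ_apply', ih, map_mul, map_pow, hu, hw, pow_succ, mul_assoc,
      mul_comm w (w ^ i)]

theorem eq_one_of_mul_eq {X : Type*} [Group X] {u w : X} (h : u * w = u) : w = 1 :=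
  mul_eq_left.1 h

theorem eq_one_of_pow_coprime {X : Type*} [Group X] {w : X} {a b : ℕ} (hab : a.Coprime b)
    (h1 : w ^ a = 1) (h2 : w ^ b = 1) : w = 1 := by
  have h6 : orderOf w ∣ a := orderOf_dvd_of_pow_eq_one h1
  have h7 : orderOf w ∣ b := orderOf_dvd_of_pow_eq_one h2
  have h8 : orderOf w = 1 := by
    have h := Nat.dvd_gcd h6 h7
    rw [hab] at h
    exact Nat.dvd_one.1 h
  exact orderOf_eq_one_iff.1 h8

theorem hom_pow_card [Finite G] (H : Subgroup G) (f : H →* ℂˣ) : f ^ Nat.card H = 1 := by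
  ext h
  rw [MonoidHom.pow_apply, ← map_pow, pow_card_eq_one', map_one]
  rfl

theorem pow_index_mem [Finite G] (H : Subgroup G) [hH : H.Normal] (s : G) : s ^ H.index ∈ H := by
  have h2 : ((s ^ H.index : G) : G ⧸ H) = 1 := by
    rw [QuotientGroup.mk_pow, Subgroup.index_eq_card, pow_card_eq_one']
  exact (QuotientGroup.eq_one_iff _).1 h2

/-- Key lemma: if `s` multiplies `u` by an `s`-invariant `w`, then `w = 1` (coprime action). -/
theorem eq_one_of_act [Finite G] (H : Subgroup G) [hH : H.Normal]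
    (hcop : (Nat.card H).Coprime H.index)
    (hab : ∀ a ∈ H, ∀ b ∈ H, a * b = b * a) (s : G) (u w : H →* ℂˣ)
    (hu : act H s u = u * w) (hw : act H s w = w) : w = 1 := by
  have h1 : act H (s ^ H.index) u = u * w ^ H.index := by
    rw [act_iterate]
    exact iterate_eq (act H s) u w hu hw H.index
  have hs : s ^ H.index ∈ H := pow_index_mem H s
  have hsC : s ^ H.index ∈ Subgroup.centralizer (H : Set G) := by
    rw [Subgroup.mem_centralizer_iff]
    intro h hh
    exact hab h hh _ hs
  rw [act_of_centralizes H _ hsC] at h1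
  have h3 : w ^ H.index = 1 := eq_one_of_mul_eq (X := H →* ℂˣ) h1.symm
  exact eq_one_of_pow_coprime (X := H →* ℂˣ) hcop (hom_pow_card H w) h3

/-- Membership in the inertia group in terms of `act`. -/
theorem mem_inertia_iff (H : Subgroup G) [hH : H.Normal] (g : G) (f : H →* ℂˣ) :
    g ∈ inertia H hH (fun h => ((f h : ℂˣ) : ℂ)) ↔ act H g f = f := by
  rw [mem_inertia]
  constructor
  · intro h
    ext n
    rw [act_apply]
    exact h n
  · intro h n
    have h1 : ((act H g f n : ℂˣ) : ℂ) = ((f n : ℂˣ) : ℂ) := by rw [h]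
    rw [act_apply] at h1
    exact h1

end Act

end Cfsg.Agent.Lib.Helper3.TDExt
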