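import Mathlib
import Cfsg.Agent.Lib.Helper3.TDBasic
import Cfsg.Agent.Lib.Helper3.TDExt
import Cfsg.Agent.Lib.Helper3.TDFrob

/-!
Two character degrees, the prime power case (Isaacs 12.5): if `cd(G) = {1, p^e}` then `G` has an
abelian normal subgroup of index `p^e`, or `G` is the direct product of a `p`-group and an abelian
group.
-/

set_option autoImplicit false

namespace Cfsg.Agent.Lib.Helper3.TDPow

open Cfsg Cfsg.Agent.Lib.Helper80.Integrality Cfsg.Agent.Lib.Helper80.Restrict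
open Cfsg.Agent.Lib.CT.Wedderburn Cfsg.Agent.Lib.CT.Orth
open Cfsg.Agent.Lib.CT.FrobRec Cfsg.Agent.Lib.CT.IndChar
open Cfsg.Agent.Lib.CT.Clifford Cfsg.Agent.Lib.CT.LinChar
open Cfsg.Agent.Lib.Helper3.TDBasic Cfsg.Agent.Lib.Helper3.TDExt Cfsg.Agent.Lib.Helper3.TDFrob
open Cfsg.Agent.Lib.Helper78.CliffordCorr
open scoped ComplexConjugate

universe u

section Abstract

variable {Gr X : Type*} [Group Gr] [CommGroup X]

theorem abstract_move (σ : Gr → X →* X)
    (hP : ∀ (s : Gr) (u w : X), σ s u = u * w → σ s w = w → w = 1)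
    (s : Gr) (ν : X) (h : σ s (σ s ν * ν⁻¹) = σ s ν * ν⁻¹) : σ s ν = ν := by
  have h1 : σ s ν = ν * (σ s ν * ν⁻¹) := by
    rw [mul_comm, mul_assoc, inv_mul_cancel, mul_one]
  have h2 := hP s ν _ h1 h
  exact mul_inv_eq_one.1 h2

theorem abstract_fix (σ : Gr → X →* X)
    (hcomm : ∀ a b : Gr, ∀ x : X, σ a (σ b x) = σ b (σ a x))
    (hP : ∀ (s : Gr) (u w : X), σ s u = u * w → σ s w = w → w = 1)
    (s g : Gr) (x ν : X) (hsx : σ s x = x)
    (hg : σ g (x * (σ s ν * ν⁻¹)) = x * (σ s ν * ν⁻¹)) : σ g x = x := by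
  have h1 : σ g x * σ g (σ s ν * ν⁻¹) = x * (σ s ν * ν⁻¹) := by
    rw [← map_mul]
    exact hg
  have h2 : σ g (σ s ν * ν⁻¹) * (σ s ν * ν⁻¹)⁻¹ = (σ g x * x⁻¹)⁻¹ := by
    have h3 : σ g (σ s ν * ν⁻¹) = (σ g x)⁻¹ * (x * (σ s ν * ν⁻¹)) := by
      rw [← h1]
      group
    rw [h3, mul_inv_rev, inv_inv, mul_assoc, mul_assoc]
    have h6 : σ s ν * ν⁻¹ * (ν * (σ s ν)⁻¹) = 1 := by group
    rw [h6, mul_one, mul_inv_rev, inv_inv, mul_comm]
  have hsw : σ s (σ g x * x⁻¹) = σ g x * x⁻¹ := by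
    rw [map_mul, map_inv, hcomm s g x, hsx]
  have hsu : σ s (σ g ν * ν⁻¹) = (σ g ν * ν⁻¹) * (σ g x * x⁻¹)⁻¹ := by
    rw [← h2, map_mul, map_inv, hcomm s g ν]
    have h4 : σ s ν = (σ s ν * ν⁻¹) * ν := by group
    have h5 : σ g (σ s ν) = σ g (σ s ν * ν⁻¹) * σ g ν := by
      rw [← map_mul, ← h4]
    rw [h5, mul_inv_rev]
    simp only [mul_comm, mul_left_comm, mul_assoc]
    rw [mul_inv_cancel_left]
  have hsw' : σ s (σ g x * x⁻¹)⁻¹ = (σ g x * x⁻¹)⁻¹ := by rw [map_inv, hsw]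
  have h3 := hP s _ _ hsu hsw'
  have h4 : σ g x * x⁻¹ = 1 := inv_eq_one.1 h3
  exact mul_inv_eq_one.1 h4

end Abstract

variable {G : Type u} [Group G]

/-- Characters of an abelian normal subgroup separate the elements moved by conjugation. -/
theorem exists_moved [Finite G] (H : Subgroup G) [hH : H.Normal]
    (hHab : ∀ a ∈ H, ∀ b ∈ H, a * b = b * a) (z : G)
    (hz : z ∉ Subgroup.centralizer (H : Set G)) : ∃ f : H →* ℂˣ, act H z f ≠ f := by
  classical
  rw [Subgroup.mem_centralizer_iff] at hz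
  push Not at hz
  obtain ⟨h, hh, hne⟩ := hz
  have hab' : (⟨z * h * z⁻¹, hH.conj_mem h hh z⟩ : H) ≠ ⟨h, hh⟩ := by
    intro heq
    have h1 : z * h * z⁻¹ = h := congrArg Subtype.val heq
    apply hne
    calc h * z = (z * h * z⁻¹) * z := by rw [h1]
      _ = z * h := by group
  have hcomm : ∀ a b : H, a * b = b * a := fun a b => Subtype.ext (hHab a a.2 b b.2)
  obtain ⟨θ, hθ⟩ : ∃ θ : IrrCharacter H,
      (θ : H → ℂ) ⟨z * h * z⁻¹, hH.conj_mem h hh z⟩ ≠ (θ : H → ℂ) ⟨h, hh⟩ := by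
    by_contra hcon
    push Not at hcon
    have h1 := isConj_of_irr_eq _ _ hcon
    obtain ⟨c, hc⟩ := isConj_iff.1 h1
    apply hab'
    rw [← hc, hcomm c, mul_inv_cancel_right]
  have hθ1 : (θ : H → ℂ) 1 = 1 :=
    Cfsg.Agent.Lib.Helper3.MGroup.apply_one_eq_one_of_comm θ.2 (fun x y => by
      rw [commutatorElement_eq_one_iff_mul_comm.2 (hcomm x y)])
  obtain ⟨f, hf⟩ := exists_hom_of_isCharacter (θ : H → ℂ) (isCharacter_of_irr θ.2) hθ1
  refine ⟨f, fun hact => hθ ?_⟩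
  rw [hf, hf]
  have h1 : ((act H z f ⟨h, hh⟩ : ℂˣ) : ℂ) = ((f ⟨h, hh⟩ : ℂˣ) : ℂ) := by rw [hact]
  rw [act_apply] at h1
  exact h1

/-- Inertia groups of non-invariant linear characters of the abelian normal Hall subgroup `H`
have index `m`, and are abelian modulo `H`. -/
theorem claim1 [Finite G] (m : ℕ) (hm1 : m ≠ 1)
    (hcd : ∀ χ : IrrCharacter G, charDegree (χ : G → ℂ) = 1 ∨ charDegree (χ : G → ℂ) = m)
    (H : Subgroup G) (hH : H.Normal) (hcop : (Nat.card H).Coprime H.index)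
    (f : H →* ℂˣ) (hT : inertia H hH (fun h => ((f h : ℂˣ) : ℂ)) ≠ ⊤) :
    (inertia H hH (fun h => ((f h : ℂˣ) : ℂ))).index = m ∧
    ∀ a ∈ inertia H hH (fun h => ((f h : ℂˣ) : ℂ)),
      ∀ b ∈ inertia H hH (fun h => ((f h : ℂˣ) : ℂ)), a * b * a⁻¹ * b⁻¹ ∈ H := by
  classical
  haveI := Fintype.ofFinite G
  haveI : Fintype H := Fintype.ofFinite H
  haveI := hH
  haveI := finite_irrCharacter G
  haveI := Fintype.ofFinite (IrrCharacter G)
  set θ : H → ℂ := fun h => ((f h : ℂˣ) : ℂ) with hθdef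
  have hθ : IsCharacter H θ := isCharacter_of_hom f
  have hθ1 : θ 1 = 1 := by simp [hθdef]
  have hθirr : IsIrrCharacter H θ := isIrrCharacter_of_hom f
  set T := inertia H hH θ with hTdef
  have hHT : H ≤ T := le_inertia H hH (char_isClassFunction hθ)
  haveI : Fintype T := Fintype.ofFinite T
  set H' : Subgroup T := H.subgroupOf T with hH'
  haveI hH'n : H'.Normal := hH.subgroupOf T
  let eq : H' ≃* H := Subgroup.subgroupOfEquivOfLe hHT
  let f' : H' →* ℂˣ := f.comp eq.toMonoidHom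
  have hcop' : (Nat.card H').Coprime H'.index := by
    have h1 : Nat.card H' = Nat.card H := Nat.card_congr eq.toEquiv
    have h2 : H'.index ∣ H.index := Subgroup.relIndex_dvd_index_of_normal H T
    rw [h1]
    exact Nat.Coprime.coprime_dvd_right h2 hcop
  have hinv' : ∀ (t : T) (h : H') (hm : t⁻¹ * (h : T) * t ∈ H'),
      f' ⟨t⁻¹ * h * t, hm⟩ = f' h := by
    intro t h hm
    have h1 := (mem_inertia H hH θ ((t⁻¹ : T) : G)).1 (T.inv_mem t.2) (eq h)
    apply Units.ext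
    show θ (eq ⟨t⁻¹ * h * t, hm⟩) = θ (eq h)
    rw [← h1]
    congr 1
    apply Subtype.ext
    simp only [Subgroup.coe_inv, inv_inv]
    rfl
  obtain ⟨F, hF⟩ := exists_extension H' hcop' f' hinv'
  set Λ : T → ℂ := fun t => ((F t : ℂˣ) : ℂ) with hΛdef
  have hΛ : IsCharacter T Λ := isCharacter_of_hom F
  have hΛ1 : Λ 1 = 1 := by simp [hΛdef]
  have hΛH : ∀ h : H, Λ ⟨h, hHT h.2⟩ = θ h := by
    intro h
    have h1 := hF ⟨⟨h, hHT h.2⟩, by rw [hH', Subgroup.mem_subgroupOf]; exact h.2⟩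
    show ((F ⟨h, hHT h.2⟩ : ℂˣ) : ℂ) = ((f h : ℂˣ) : ℂ)
    rw [h1]
    rfl
  have hT1 : T.index ≠ 1 := fun h => hT (Subgroup.index_eq_one.1 h)
  have hidx : T.index ≠ 0 := Subgroup.index_ne_zero_of_finite
  have hdvd : T.index ∣ m := by
    obtain ⟨χ, hcon, -, -⟩ := exists_over H ⟨θ, hθirr⟩
    obtain ⟨ψ, e, -, -, -, -, -, hdeg⟩ :=
      clifford_corr H hH θ hθirr T (mem_inertia H hH θ) hHT (χ : G → ℂ) χ.2 hcon
    rw [charDegree_of_apply_one hθ1, mul_one] at hdeg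
    rcases hcd χ with h | h
    · rw [hdeg] at h
      exact absurd (Nat.dvd_one.1 (Dvd.intro_left e h)) hT1
    · rw [← h, hdeg]
      exact Dvd.intro_left e rfl
  have hle : m ≤ T.index ∧ 0 < m := by
    obtain ⟨χ, hχ, -⟩ := Cfsg.Agent.Lib.Helper80.IndDeg.exists_constituent_not_dvd T Λ hΛ 0 (by
      rw [zero_dvd_iff, charDegree_of_apply_one hΛ1, mul_one]
      exact hidx)
    obtain ⟨mm, hmm1, -, hmm3, -⟩ := exists_mult (isCharacter_indFun T Λ hΛ)
    have hmmχ : mm χ ≠ 0 := by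
      intro h0
      apply hχ
      have h1 := hmm1 χ
      rw [frobenius_reciprocity T Λ (χ : G → ℂ) (irr_isClassFunction χ), h0] at h1
      simpa using h1
    have hdegle : charDegree (χ : G → ℂ) ≤ T.index := by
      rw [Cfsg.Agent.Lib.Helper80.IndDeg.charDegree_indFun T Λ hΛ, charDegree_of_apply_one hΛ1,
        mul_one] at hmm3
      calc charDegree (χ : G → ℂ) ≤ mm χ * charDegree (χ : G → ℂ) :=
            Nat.le_mul_of_pos_left _ (Nat.pos_of_ne_zero hmmχ)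
        _ ≤ ∑ φ : IrrCharacter G, mm φ * charDegree (φ : G → ℂ) :=
            Finset.single_le_sum (f := fun φ : IrrCharacter G => mm φ * charDegree (φ : G → ℂ))
              (fun _ _ => Nat.zero_le _) (Finset.mem_univ χ)
        _ = T.index := hmm3.symm
    rcases hcd χ with h | h
    · exfalso
      apply hT
      rw [Subgroup.eq_top_iff']
      intro g
      rw [hTdef, mem_inertia]
      intro n
      have hχc := isCharacter_of_irr χ.2
      have hχ1 : (χ : G → ℂ) 1 = 1 := by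
        have h1 := apply_one_eq_charDegree hχc
        rw [h] at h1
        simpa using h1
      have hres : IsIrrCharacter T (fun t : T => (χ : G → ℂ) t) :=
        isIrrCharacter_of_linear (Cfsg.Agent.Lib.CT.Ops.isCharacter_restrict T hχc)
          (by simpa using hχ1)
      have h3 := Cfsg.Agent.Lib.Helper3.Irr.irr_orthonormal
        (⟨Λ, isIrrCharacter_of_linear hΛ hΛ1⟩ : IrrCharacter T) ⟨_, hres⟩
      simp only at h3
      by_cases h4 : (⟨Λ, isIrrCharacter_of_linear hΛ hΛ1⟩ : IrrCharacter T) = ⟨_, hres⟩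
      · have h5 : ∀ t : T, Λ t = (χ : G → ℂ) t := fun t => congrFun (congrArg Subtype.val h4) t
        have h6 : ∀ h : H, θ h = (χ : G → ℂ) h := fun h => by rw [← hΛH h, h5]
        rw [h6, h6]
        exact (irr_isClassFunction χ) n g
      · rw [if_neg h4] at h3
        exact absurd h3 hχ
    · rw [← h]
      exact ⟨hdegle, charDegree_pos χ⟩
  have hm0 : m ≠ 0 := hle.2.ne'
  have hTm : T.index = m := Nat.le_antisymm (Nat.le_of_dvd hle.2 hdvd) hle.1
  refine ⟨hTm, ?_⟩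
  have hlinQ : ∀ β : IrrCharacter (T ⧸ H'), charDegree (β : T ⧸ H' → ℂ) = 1 := by
    intro β
    let B : IrrCharacter T := infl H' β
    have hΨirr : IsIrrCharacter T (Λ * (B : T → ℂ)) := isIrrCharacter_linear_mul hΛ hΛ1 B.2
    let Ψ : IrrCharacter T := ⟨Λ * (B : T → ℂ), hΨirr⟩
    obtain ⟨χ, hχ, -⟩ := Cfsg.Agent.Lib.Helper80.IndDeg.exists_constituent_not_dvd T (Ψ : T → ℂ)
      (isCharacter_of_irr hΨirr) 0 (by
        rw [zero_dvd_iff]
        exact Nat.mul_ne_zero hidx (charDegree_pos Ψ).ne')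
    have hcon : classInner (fun t : T => (χ : G → ℂ) t) (Ψ : T → ℂ) ≠ 0 := by
      rw [Cfsg.Agent.Lib.CT.Clifford.classInner_conj_symm]
      simpa using hχ
    obtain ⟨n₁, n₂, hn₁, hn₂, hle'⟩ :=
      inner_restrict_ge H T hHT (isCharacter_of_irr χ.2) Ψ hcon hθ
    have hn₂' : n₂ = charDegree (β : T ⧸ H' → ℂ) := by
      have h1 : (fun h : H => (Ψ : T → ℂ) ⟨h, hHT h.2⟩) =
          ((charDegree (β : T ⧸ H' → ℂ) : ℕ) : ℂ) • θ := by
        funext h
        show Λ ⟨h, hHT h.2⟩ * (B : T → ℂ) ⟨h, hHT h.2⟩ = _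
        rw [hΛH h]
        have h2 : (B : T → ℂ) ⟨h, hHT h.2⟩ = (β : T ⧸ H' → ℂ) 1 := by
          show (β : T ⧸ H' → ℂ) ((⟨h, hHT h.2⟩ : T) : T ⧸ H') = _
          have h3 : ((⟨h, hHT h.2⟩ : T) : T ⧸ H') = 1 := (QuotientGroup.eq_one_iff _).2 (by
            rw [hH', Subgroup.mem_subgroupOf]
            exact h.2)
          rw [h3]
        rw [h2, apply_one_eq_charDegree (isCharacter_of_irr β.2)]
        simp [mul_comm]
      rw [h1, Cfsg.Agent.Lib.CT.Orth.classInner_smul_left,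
        Cfsg.Agent.Lib.CT.NormOne.inner_self_eq_one_of_irr hθirr, mul_one] at hn₂
      exact_mod_cast hn₂.symm
    have hβpos := charDegree_pos β
    have hconH : classInner (fun h : H => (χ : G → ℂ) h) θ ≠ 0 := by
      rw [hn₁]
      have h1 : n₁ ≠ 0 := by omega
      exact_mod_cast h1
    obtain ⟨ψ, e, -, -, -, he, -, hdeg⟩ :=
      clifford_corr H hH θ hθirr T (mem_inertia H hH θ) hHT (χ : G → ℂ) χ.2 hconH
    rw [charDegree_of_apply_one hθ1, mul_one, hTm] at hdeg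
    have hen : e = n₁ := by
      rw [he] at hn₁
      exact_mod_cast hn₁
    have he1 : e = 1 := by
      rcases hcd χ with h | h
      · rw [hdeg] at h
        exact absurd (Nat.dvd_one.1 (Dvd.intro_left e h)) hm1
      · rw [hdeg] at h
        have h2 : e * m = 1 * m := by rw [h, one_mul]
        exact Nat.eq_of_mul_eq_mul_right (Nat.pos_of_ne_zero hm0) h2
    omega
  have hcommQ := comm_of_forall_degree_one hlinQ
  intro a ha b hb
  have h1 := hcommQ ((⟨a, ha⟩ : T) : T ⧸ H') ((⟨b, hb⟩ : T) : T ⧸ H')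
  have h2 : (((⟨a, ha⟩ : T) * ⟨b, hb⟩ * (⟨a, ha⟩ : T)⁻¹ * (⟨b, hb⟩ : T)⁻¹ : T) : T ⧸ H') = 1 := by
    rw [QuotientGroup.mk_mul, QuotientGroup.mk_mul, QuotientGroup.mk_mul, QuotientGroup.mk_inv,
      QuotientGroup.mk_inv, h1]
    group
  have h3 := (QuotientGroup.eq_one_iff _).1 h2
  rw [hH', Subgroup.mem_subgroupOf] at h3
  simpa using h3

/-- Step 2: `G / C_G(H)` is abelian. -/
theorem step2 [Finite G] (m : ℕ) (hm1 : m ≠ 1)
    (hcd : ∀ χ : IrrCharacter G, charDegree (χ : G → ℂ) = 1 ∨ charDegree (χ : G → ℂ) = m)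
    (H : Subgroup G) (hH : H.Normal) (hcop : (Nat.card H).Coprime H.index)
    (hHab : ∀ a ∈ H, ∀ b ∈ H, a * b = b * a)
    (p : ℕ) (hp : p.Prime) (k : ℕ) (hidx : H.index = p ^ k) (a b : G) :
    a * b * a⁻¹ * b⁻¹ ∈ Subgroup.centralizer (H : Set G) := by
  classical
  haveI := hH
  haveI : Fact p.Prime := ⟨hp⟩
  set C := Subgroup.centralizer (H : Set G) with hC
  haveI hCn : C.Normal := Subgroup.normal_centralizer
  have hHC : H ≤ C := fun h hh => Subgroup.mem_centralizer_iff.2 (fun x hx => hHab x hx h hh)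
  by_contra hcon
  have hβ : ∃ β : IrrCharacter (G ⧸ C), charDegree (β : G ⧸ C → ℂ) ≠ 1 := by
    by_contra h
    push Not at h
    have h1 := comm_of_forall_degree_one h (a : G ⧸ C) (b : G ⧸ C)
    apply hcon
    apply (QuotientGroup.eq_one_iff _).1
    rw [QuotientGroup.mk_mul, QuotientGroup.mk_mul, QuotientGroup.mk_mul, QuotientGroup.mk_inv,
      QuotientGroup.mk_inv, h1]
    group
  obtain ⟨β, hβ⟩ := hβ
  have hβm : charDegree (β : G ⧸ C → ℂ) = m := by
    rcases hcd (infl C β) with h | h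
    · exact absurd h hβ
    · exact h
  have hpG : IsPGroup p (G ⧸ C) := by
    have h1 : C.index ∣ p ^ k := hidx ▸ Subgroup.index_dvd_of_le hHC
    obtain ⟨j, -, hj⟩ := (Nat.dvd_prime_pow hp).1 h1
    exact IsPGroup.of_card (n := j) (by rw [← Subgroup.index_eq_card, hj])
  haveI : Nontrivial (G ⧸ C) := by
    refine ⟨⟨(a : G ⧸ C) * b, (b : G ⧸ C) * a, fun h => hcon ?_⟩⟩
    apply (QuotientGroup.eq_one_iff _).1
    rw [QuotientGroup.mk_mul, QuotientGroup.mk_mul, QuotientGroup.mk_mul, QuotientGroup.mk_inv,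
      QuotientGroup.mk_inv, h]
    group
  haveI := hpG.center_nontrivial
  obtain ⟨⟨zb, hzb⟩, hzb1⟩ := exists_ne (1 : Subgroup.center (G ⧸ C))
  have hzb1' : zb ≠ 1 := fun h => hzb1 (Subtype.ext h)
  obtain ⟨z, rfl⟩ := QuotientGroup.mk_surjective zb
  have hzC : z ∉ C := fun h => hzb1' ((QuotientGroup.eq_one_iff z).2 h)
  obtain ⟨f, hf⟩ := exists_moved H hHab z hzC
  set T := inertia H hH (fun h => ((f h : ℂˣ) : ℂ)) with hT
  have hzT : z ∉ T := fun h => hf ((mem_inertia_iff H z f).1 h)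
  have hTtop : T ≠ ⊤ := fun h => hzT (h ▸ Subgroup.mem_top z)
  obtain ⟨hTm, hTab⟩ := claim1 m hm1 hcd H hH hcop f hTtop
  have hCT : C ≤ T := fun c hc => (mem_inertia_iff H c f).2 (act_of_centralizes H c hc f)
  set Tb : Subgroup (G ⧸ C) := T.map (QuotientGroup.mk' C) with hTb
  set Bb : Subgroup (G ⧸ C) := Tb ⊔ Subgroup.center (G ⧸ C) with hBb
  have hTbab : ∀ x ∈ Tb, ∀ y ∈ Tb, x * y = y * x := by
    intro x hx y hy
    obtain ⟨t₁, ht₁, rfl⟩ := hx
    obtain ⟨t₂, ht₂, rfl⟩ := hy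
    have h1 := hHC (hTab t₁ ht₁ t₂ ht₂)
    have h2 : ((t₁ * t₂ * t₁⁻¹ * t₂⁻¹ : G) : G ⧸ C) = 1 := (QuotientGroup.eq_one_iff _).2 h1
    rw [QuotientGroup.mk_mul, QuotientGroup.mk_mul, QuotientGroup.mk_mul, QuotientGroup.mk_inv,
      QuotientGroup.mk_inv] at h2
    show (t₁ : G ⧸ C) * (t₂ : G ⧸ C) = (t₂ : G ⧸ C) * (t₁ : G ⧸ C)
    calc (t₁ : G ⧸ C) * (t₂ : G ⧸ C)
        = ((t₁ : G ⧸ C) * (t₂ : G ⧸ C) * (t₁ : G ⧸ C)⁻¹ * (t₂ : G ⧸ C)⁻¹) *
          ((t₂ : G ⧸ C) * (t₁ : G ⧸ C)) := by group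
      _ = (t₂ : G ⧸ C) * (t₁ : G ⧸ C) := by rw [h2, one_mul]
  have hBab : ∀ x ∈ Bb, ∀ y ∈ Bb, x * y = y * x := by
    intro x hx y hy
    have hx' : x ∈ ((Tb ⊔ Subgroup.center (G ⧸ C) : Subgroup (G ⧸ C)) : Set (G ⧸ C)) := hx
    have hy' : y ∈ ((Tb ⊔ Subgroup.center (G ⧸ C) : Subgroup (G ⧸ C)) : Set (G ⧸ C)) := hy
    rw [Subgroup.mul_normal] at hx' hy'
    obtain ⟨t₁, ht₁, z₁, hz₁, rfl⟩ := Set.mem_mul.1 hx'
    obtain ⟨t₂, ht₂, z₂, hz₂, rfl⟩ := Set.mem_mul.1 hy'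
    have hc1 := Subgroup.mem_center_iff.1 hz₁
    have hc2 := Subgroup.mem_center_iff.1 hz₂
    calc t₁ * z₁ * (t₂ * z₂) = t₁ * (z₁ * t₂) * z₂ := by group
      _ = t₁ * (t₂ * z₁) * z₂ := by rw [hc1 t₂]
      _ = (t₁ * t₂) * (z₁ * z₂) := by group
      _ = (t₂ * t₁) * (z₂ * z₁) := by rw [hTbab t₁ ht₁ t₂ ht₂, hc1 z₂]
      _ = t₂ * (t₁ * z₂) * z₁ := by group
      _ = t₂ * (z₂ * t₁) * z₁ := by rw [hc2 t₁]
      _ = t₂ * z₂ * (t₁ * z₁) := by group
  have hlin : ∀ φ : IrrCharacter Bb, charDegree (φ : Bb → ℂ) ≤ 1 := by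
    intro φ
    have h1 : (φ : Bb → ℂ) 1 = 1 :=
      Cfsg.Agent.Lib.Helper3.MGroup.apply_one_eq_one_of_comm φ.2 (fun x y => by
        rw [commutatorElement_eq_one_iff_mul_comm.2 (Subtype.ext (hBab x x.2 y y.2))])
    exact (charDegree_of_apply_one h1).le
  have hle := charDegree_le_index_mul β Bb 1 hlin
  rw [hβm, mul_one] at hle
  have hTbidx : Tb.index = m := by
    rw [hTb, Subgroup.index_map_eq T (QuotientGroup.mk'_surjective C)
      (by rw [QuotientGroup.ker_mk']; exact hCT), hTm]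
  have hlt : Tb < Bb := by
    refine lt_of_le_of_ne le_sup_left fun heq => ?_
    have h1 : (z : G ⧸ C) ∈ Tb := by
      rw [heq]
      exact (le_sup_right : Subgroup.center (G ⧸ C) ≤ Bb) hzb
    obtain ⟨t, ht, hte⟩ := h1
    have h2 : t⁻¹ * z ∈ C := QuotientGroup.eq.1 hte
    have h3 : z = t * (t⁻¹ * z) := by group
    apply hzT
    rw [h3]
    exact T.mul_mem ht (hCT h2)
  have h5 := Subgroup.index_strictAnti hlt
  omega

/-- Step 3: if `C_G(H) ≠ G` then `C_G(H)` has index `m` and is abelian modulo `H`. -/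
theorem step3 [Finite G] (m : ℕ) (hm1 : m ≠ 1)
    (hcd : ∀ χ : IrrCharacter G, charDegree (χ : G → ℂ) = 1 ∨ charDegree (χ : G → ℂ) = m)
    (H : Subgroup G) (hH : H.Normal) (hcop : (Nat.card H).Coprime H.index)
    (hHab : ∀ a ∈ H, ∀ b ∈ H, a * b = b * a)
    (p : ℕ) (hp : p.Prime) (k : ℕ) (hidx : H.index = p ^ k)
    (hC : Subgroup.centralizer (H : Set G) ≠ ⊤) :
    (Subgroup.centralizer (H : Set G)).index = m ∧
    ∀ a ∈ Subgroup.centralizer (H : Set G), ∀ b ∈ Subgroup.centralizer (H : Set G),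
      a * b * a⁻¹ * b⁻¹ ∈ H := by
  classical
  haveI := hH
  set C := Subgroup.centralizer (H : Set G) with hCdef
  obtain ⟨z₀, hz₀⟩ : ∃ z₀, z₀ ∉ C := by
    by_contra h
    push Not at h
    exact hC ((Subgroup.eq_top_iff' C).2 h)
  obtain ⟨x, hx⟩ := exists_moved H hHab z₀ hz₀
  set T₀ := inertia H hH (fun h => ((x h : ℂˣ) : ℂ)) with hT₀
  have hz₀T : z₀ ∉ T₀ := fun h => hx ((mem_inertia_iff H z₀ x).1 h)
  have hT₀top : T₀ ≠ ⊤ := fun h => hz₀T (h ▸ Subgroup.mem_top z₀)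
  obtain ⟨hT₀m, hT₀ab⟩ := claim1 m hm1 hcd H hH hcop x hT₀top
  have hCT₀ : C ≤ T₀ := fun c hc => (mem_inertia_iff H c x).2 (act_of_centralizes H c hc x)
  have hcomm : ∀ a b : G, ∀ ν : H →* ℂˣ, act H a (act H b ν) = act H b (act H a ν) := by
    intro a b ν
    have hc : b⁻¹ * a⁻¹ * b * a ∈ C := by
      have h := step2 m hm1 hcd H hH hcop hHab p hp k hidx b⁻¹ a⁻¹
      simpa using h
    rw [← act_mul, ← act_mul]
    have h1 : b * a = (a * b) * (b⁻¹ * a⁻¹ * b * a) := by group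
    rw [h1, act_mul H (a * b) _, act_of_centralizes H _ hc]
  have hP : ∀ (s : G) (u w : H →* ℂˣ), act H s u = u * w → act H s w = w → w = 1 :=
    fun s u w => eq_one_of_act H hcop hHab s u w
  have hT₀C : T₀ ≤ C := by
    intro s hs
    by_contra hsC
    obtain ⟨ν, hν⟩ := exists_moved H hHab s hsC
    set y : H →* ℂˣ := act H s ν * ν⁻¹ with hy
    have hsy : act H s y ≠ y := fun h => hν (abstract_move (act H) hP s ν h)
    have hsx : act H s x = x := (mem_inertia_iff H s x).1 hs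
    set T₁ := inertia H hH (fun h => (((x * y) h : ℂˣ) : ℂ)) with hT₁
    have hsT₁ : s ∉ T₁ := by
      intro h
      have h1 := (mem_inertia_iff H s (x * y)).1 h
      have h2 : act H s (x * y) = act H s x * act H s y := map_mul (act H s) x y
      rw [h2, hsx] at h1
      exact hsy (mul_left_cancel h1)
    have hT₁top : T₁ ≠ ⊤ := fun h => hsT₁ (h ▸ Subgroup.mem_top s)
    obtain ⟨hT₁m, -⟩ := claim1 m hm1 hcd H hH hcop (x * y) hT₁top
    have hT₁T₀ : T₁ ≤ T₀ := by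
      intro g hg
      have h1 := (mem_inertia_iff H g (x * y)).1 hg
      exact (mem_inertia_iff H g x).2 (abstract_fix (act H) hcomm hP s g x ν hsx h1)
    have heq : T₁ = T₀ := by
      by_contra hne
      have hlt : T₁ < T₀ := lt_of_le_of_ne hT₁T₀ hne
      have h5 := Subgroup.index_strictAnti hlt
      have h6 : T₁.index = m := hT₁m
      have h7 : T₀.index = m := hT₀m
      omega
    exact hsT₁ (heq ▸ hs)
  have hCeq : C = T₀ := le_antisymm hCT₀ hT₀C
  refine ⟨by rw [hCeq]; exact hT₀m, ?_⟩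
  intro a ha b hb
  exact hT₀ab a (hCT₀ ha) b (hCT₀ hb)

/-- Step 4: `C_G(H)` is abelian as soon as it is abelian modulo the Hall subgroup `H`. -/
theorem step4 [Finite G] (H : Subgroup G) (hH : H.Normal) (hcop : (Nat.card H).Coprime H.index)
    (hCH : ∀ a ∈ Subgroup.centralizer (H : Set G), ∀ b ∈ Subgroup.centralizer (H : Set G),
      a * b * a⁻¹ * b⁻¹ ∈ H) :
    ∀ a ∈ Subgroup.centralizer (H : Set G), ∀ b ∈ Subgroup.centralizer (H : Set G),
      a * b = b * a := by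
  intro a ha b hb
  haveI := hH
  have hcH : a * b * a⁻¹ * b⁻¹ ∈ H := hCH a ha b hb
  have hcb : (a * b * a⁻¹ * b⁻¹) * b = b * (a * b * a⁻¹ * b⁻¹) :=
    Subgroup.mem_centralizer_iff.1 hb _ hcH
  have hbq : b ^ H.index ∈ H := pow_index_mem H b
  have h1 : ((a * b * a⁻¹ * b⁻¹) * b) ^ H.index = (a * b * a⁻¹ * b⁻¹) ^ H.index * b ^ H.index :=
    Commute.mul_pow hcb H.index
  have h2 : (a * b * a⁻¹ * b⁻¹) * b = a * b * a⁻¹ := by group
  have h3 : (a * b * a⁻¹) ^ H.index = a * b ^ H.index * a⁻¹ := conj_pow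
  have h4 : a * b ^ H.index * a⁻¹ = b ^ H.index := by
    have h := Subgroup.mem_centralizer_iff.1 ha (b ^ H.index) hbq
    rw [← h]
    group
  have h5 : (a * b * a⁻¹ * b⁻¹) ^ H.index = 1 := by
    have h : (a * b * a⁻¹ * b⁻¹) ^ H.index * b ^ H.index = b ^ H.index := by
      rw [← h1, h2, h3, h4]
    exact mul_eq_right.1 h
  have h6 : (a * b * a⁻¹ * b⁻¹) ^ Nat.card H = 1 := by
    have h : ((⟨a * b * a⁻¹ * b⁻¹, hcH⟩ : H) ^ Nat.card H : H) = 1 := pow_card_eq_one'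
    have h' : (((⟨a * b * a⁻¹ * b⁻¹, hcH⟩ : H) ^ Nat.card H : H) : G) = ((1 : H) : G) :=
      congrArg Subtype.val h
    exact h'
  have h7 : a * b * a⁻¹ * b⁻¹ = 1 := eq_one_of_pow_coprime hcop h6 h5
  calc a * b = (a * b * a⁻¹ * b⁻¹) * (b * a) := by group
    _ = b * a := by rw [h7, one_mul]

/-- The prime power case of the two-degree theorem (Isaacs 12.5). -/
theorem prime_power_case [Finite G] (m : ℕ) (hm1 : m ≠ 1)
    (hcd : ∀ χ : IrrCharacter G, charDegree (χ : G → ℂ) = 1 ∨ charDegree (χ : G → ℂ) = m)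
    (p : ℕ) (hp : p.Prime) (e : ℕ) (hme : m = p ^ e) :
    (∃ A : Subgroup G, A.Normal ∧ (∀ a ∈ A, ∀ b ∈ A, a * b = b * a) ∧ A.index = m) ∨
    ∃ P A : Subgroup G, P.Normal ∧ A.Normal ∧ IsPGroup p P ∧
      (∀ a ∈ A, ∀ b ∈ A, a * b = b * a) ∧ P ⊓ A = ⊥ ∧ P ⊔ A = ⊤ := by
  classical
  have he : e ≠ 0 := by
    rintro rfl
    exact hm1 (by rw [hme, pow_zero])
  have hdeg : ∀ χ : IrrCharacter G, charDegree (χ : G → ℂ) ≠ 1 → p ∣ charDegree (χ : G → ℂ) := by
    intro χ h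
    rcases hcd χ with h1 | h1
    · exact absurd h1 h
    · rw [h1, hme]
      exact dvd_pow_self p he
  obtain ⟨H, hH, hHp, k, hk⟩ := Cfsg.Agent.S4456.result p hp hdeg
  haveI := hH
  haveI : Fintype H := Fintype.ofFinite H
  have hcop : (Nat.card H).Coprime H.index := by
    rw [hk]
    exact Nat.Coprime.pow_right k hHp
  have hHlin : ∀ θ : IrrCharacter H, charDegree (θ : H → ℂ) = 1 := by
    intro θ
    obtain ⟨χ, -, hdvd, -⟩ := exists_over H θ
    have h1 : charDegree (θ : H → ℂ) ∣ p ^ e := by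
      rcases hcd χ with h | h
      · rw [h] at hdvd
        rw [Nat.dvd_one.1 hdvd]
        exact one_dvd _
      · rw [h, hme] at hdvd
        exact hdvd
    have h2 : charDegree (θ : H → ℂ) ∣ Nat.card H := charDegree_dvd_card θ
    have h4 : (Nat.card H).Coprime (p ^ e) := Nat.Coprime.pow_right e hHp
    exact Nat.eq_one_of_dvd_coprimes h4 h2 h1
  have hHab' := comm_of_forall_degree_one hHlin
  have hHab : ∀ a ∈ H, ∀ b ∈ H, a * b = b * a := fun a ha b hb =>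
    congrArg Subtype.val (hHab' ⟨a, ha⟩ ⟨b, hb⟩)
  by_cases hC : Subgroup.centralizer (H : Set G) = ⊤
  · right
    obtain ⟨R, hR⟩ := Subgroup.exists_right_complement'_of_coprime hcop
    have hcen : ∀ h ∈ H, ∀ g : G, h * g = g * h := fun h hh g => by
      have h1 : g ∈ Subgroup.centralizer (H : Set G) := hC ▸ Subgroup.mem_top g
      exact Subgroup.mem_centralizer_iff.1 h1 h hh
    have hRn : R.Normal := by
      constructor
      intro x hx g
      have hg : g ∈ ((H ⊔ R : Subgroup G) : Set G) := by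
        rw [hR.sup_eq_top]
        trivial
      rw [Subgroup.normal_mul] at hg
      obtain ⟨h, hh, r, hr, rfl⟩ := Set.mem_mul.1 hg
      have h2 : h * r * x * (h * r)⁻¹ = r * x * r⁻¹ := by
        have h1 := hcen h hh (r * x * r⁻¹)
        calc h * r * x * (h * r)⁻¹ = h * (r * x * r⁻¹) * h⁻¹ := by group
          _ = (r * x * r⁻¹) * h * h⁻¹ := by rw [h1]
          _ = r * x * r⁻¹ := by group
      rw [h2]
      exact R.mul_mem (R.mul_mem hr hx) (R.inv_mem hr)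
    have hRp : IsPGroup p R := by
      apply IsPGroup.of_card (n := k)
      rw [← hk]
      exact (hR.symm.index_eq_card).symm
    refine ⟨R, H, hRn, hH, hRp, hHab, ?_, ?_⟩
    · rw [inf_comm]
      exact disjoint_iff.1 hR.disjoint
    · rw [sup_comm]
      exact hR.sup_eq_top
  · left
    obtain ⟨h1, h2⟩ := step3 m hm1 hcd H hH hcop hHab p hp k hk hC
    exact ⟨_, Subgroup.normal_centralizer, step4 H hH hcop h2, h1⟩

end Cfsg.Agent.Lib.Helper3.TDPow
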